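import Cfsg.Agent.Lib.FischerLarge.U62.Lifts

/-!
FischerLarge/U62: adjacency and the local structure at each member.
-/

set_option autoImplicit false

namespace CfsgLib.FischerLarge.U62

variable {X : Type*} [Group X] {D : Local X}

theorem conj_mem_G1 {c x : X} (hc : c * D.z = D.z * c) (hx : x ∈ D.G1) : c * x * c⁻¹ ∈ D.G1 := by
  obtain ⟨d, hd, rfl⟩ := hx
  exact ⟨c * d, mul_comm_z hc hd, by group⟩

theorem Local.mem_G1 {r : V4} (hr : Iso r) (a : K4) : D.m r a ∈ D.G1 := D.G1_iff.2 ⟨r, a, hr, rfl⟩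

theorem comm_of_conj_eq {g a : X} (h : a = g * a * g⁻¹) : g * a = a * g := by
  conv_rhs => rw [h]
  group

theorem adj_z_iff {x : X} : D.Adj D.z x ↔ x ∈ D.G1 :=
  ⟨fun ⟨g, h1, h2⟩ => ⟨g, comm_of_conj_eq h1, h2⟩,
    fun ⟨c, hc, h⟩ => ⟨c, by rw [hc, mul_inv_cancel_right], h⟩⟩

theorem Local.Adj.conj {x y : X} (h : D.Adj x y) (g : X) : D.Adj (g * x * g⁻¹) (g * y * g⁻¹) := by
  obtain ⟨k, rfl, rfl⟩ := h
  exact ⟨g * k, by group, by group⟩

theorem Local.Adj.of_conj {x y : X} {g : X} (h : D.Adj (g * x * g⁻¹) (g * y * g⁻¹)) : D.Adj x y := by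
  have := h.conj g⁻¹
  rwa [show g⁻¹ * (g * x * g⁻¹) * g⁻¹⁻¹ = x by group, show g⁻¹ * (g * y * g⁻¹) * g⁻¹⁻¹ = y by group] at this

theorem Local.Adj.map_σ {x y : X} (h : D.Adj x y) : D.Adj (D.σ x) (D.σ y) := by
  obtain ⟨k, rfl, rfl⟩ := h
  exact ⟨D.σ k, by rw [_root_.map_mul, _root_.map_mul, _root_.map_inv, D.σ_z],
    by rw [_root_.map_mul, _root_.map_mul, _root_.map_inv, D.σ_u0]⟩

theorem Local.Adj.symm {x y : X} (h : D.Adj x y) : D.Adj y x := by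
  obtain ⟨k, rfl, rfl⟩ := h
  obtain ⟨g, hg1, hg2⟩ := D.exists_swap
  exact ⟨k * g, by rw [show k * g * D.z * (k * g)⁻¹ = k * (g * D.z * g⁻¹) * k⁻¹ by group, hg1],
    by rw [show k * g * D.u0 * (k * g)⁻¹ = k * (g * D.u0 * g⁻¹) * k⁻¹ by group, hg2]⟩

theorem Local.u0_ne_z : D.u0 ≠ D.z := by
  have := D.m_ne_z r0_iso 0
  rwa [D.m_zero, D.t_r0] at this

theorem Local.Adj.comm {x y : X} (h : D.Adj x y) : x * y = y * x := by
  obtain ⟨k, rfl, rfl⟩ := h
  rw [show k * D.z * k⁻¹ * (k * D.u0 * k⁻¹) = k * (D.z * D.u0) * k⁻¹ by group, ← D.u0_comm]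
  group

theorem Local.Adj.ne {x y : X} (h : D.Adj x y) : x ≠ y := by
  obtain ⟨k, rfl, rfl⟩ := h
  exact fun e => D.u0_ne_z (mul_left_cancel (mul_right_cancel e)).symm

theorem Local.Adj.sq {x y : X} (h : D.Adj x y) : x * x = 1 := by
  obtain ⟨k, rfl, -⟩ := h
  rw [show k * D.z * k⁻¹ * (k * D.z * k⁻¹) = k * (D.z * D.z) * k⁻¹ by group, D.z_sq, mul_one, mul_inv_cancel]

theorem Local.Adj.transport {x : X} {g y : X} (hx : x = g * D.z * g⁻¹) (h : D.Adj x y) :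
    ∃ r a, Iso r ∧ y = g * D.m r a * g⁻¹ := by
  have h1 : D.Adj D.z (g⁻¹ * y * g) := Local.Adj.of_conj (g := g) (by
    rw [← hx, show g * (g⁻¹ * y * g) * g⁻¹ = y by group]; exact h)
  obtain ⟨r, a, hr, he⟩ := D.G1_iff.1 (adj_z_iff.1 h1)
  exact ⟨r, a, hr, by rw [← he]; group⟩

theorem adj_of_transport {g : X} {r : V4} (hr : Iso r) (a : K4) :
    D.Adj (g * D.z * g⁻¹) (g * D.m r a * g⁻¹) := (adj_z_iff.2 (D.mem_G1 hr a)).conj g

theorem conj_commute_iff (g a b : X) : g * a * g⁻¹ * (g * b * g⁻¹) = g * b * g⁻¹ * (g * a * g⁻¹) ↔ a * b = b * a := by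
  rw [show g * a * g⁻¹ * (g * b * g⁻¹) = g * (a * b) * g⁻¹ by group,
    show g * b * g⁻¹ * (g * a * g⁻¹) = g * (b * a) * g⁻¹ by group, mul_left_inj, mul_right_inj]

theorem adj_m {r s : V4} (hr : Iso r) (hs : Iso s) (a b : K4) (h : herm r s = 0) (hne : D.m r a ≠ D.m s b) :
    D.Adj (D.m r a) (D.m s b) := by
  have hsr := herm_eq_zero_symm h
  by_cases hpar : ∃ l : K4, s = l • r
  · obtain ⟨l, rfl⟩ := hpar
    have hl := hs.ne_of_smul rfl
    rw [D.m_smul hr hl] at hne ⊢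
    obtain ⟨g, hg, hgr⟩ := to_base hr
    obtain ⟨d, hd, hda⟩ := D.exists_fix_act hg
    obtain ⟨v, hv, e1⟩ := D.m_eq_conj r0_iso a
    obtain ⟨w, hw⟩ := exists_herm r0_iso.1 (a + b * l)
    obtain ⟨k, hk1, hk2⟩ := D.exists_line (D.th w) (D.th_mem w) (by
      rw [← D.t_r0, D.th_conj_t r0_iso, hw, ← D.m_zero]
      intro e
      obtain ⟨l', -, hl'1, hl'2⟩ := D.m_inj r0_iso r0_iso e
      rw [zero_mul] at hl'2
      refine hne ?_
      have : a = b * l := by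
        have h3 := K4.add_self (b * l)
        linear_combination hl'2 - h3
      rw [this])
    have h2 : D.Adj (D.m r0 0) (D.m r0 (a + b * l)) :=
      ⟨k, by rw [hk1, D.m_zero, D.t_r0], by rw [hk2, ← hw, ← D.th_conj_t r0_iso, D.t_r0]⟩
    have h3 := (h2.conj (D.th v)).conj d
    rwa [D.th_conj_m r0_iso, D.th_conj_m r0_iso, hv, add_zero, ← add_assoc, K4.add_self, zero_add,
      D.conj_m hd hg hda r0_iso, D.conj_m hd hg hda r0_iso, hgr] at h3
  · obtain ⟨g, k, hg, hk, hgr, hgs⟩ := to_orth hr hs hsr (fun l e => hpar ⟨l, e⟩)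
    obtain ⟨d, hd, hda⟩ := D.exists_fix_act hg
    obtain ⟨c, hc, hfix, hact, p, hp1, hp2⟩ := D.exists_plane
    obtain ⟨q, c0, hq, he⟩ := D.G1_iff.1 (show c * D.u0 * c⁻¹ ∈ D.G1 from ⟨c, hc, rfl⟩)
    obtain ⟨l, hl⟩ := parallel_of_tau hq r1_iso ((D.m_acts hq c0).eq (by rw [← he]; exact hact))
    have hl0 := r1_iso.ne_of_smul hl
    have he' : c * D.u0 * c⁻¹ = D.m r1 (c0 * l⁻¹) := by
      rw [he, hl, D.m_smul hq hl0, mul_assoc, inv_mul_cancel₀ hl0, mul_one]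
    have hz : c0 * l⁻¹ = 0 := by
      rw [he', D.σ_m r1_iso] at hfix
      obtain ⟨l', -, h1, h2⟩ := D.m_inj r1_iso r1_iso hfix
      have hl1 : l' = 1 := by
        have : r1 2 = (l' • r1) 2 := congrFun h1 2
        simpa [r1] using this.symm
      rw [hl1, mul_one] at h2
      have : ∀ x : K4, K4.om * x = x → x = 0 := by decide
      exact this _ h2
    have h2 : D.Adj (D.m r0 0) (D.m r1 0) :=
      ⟨p, by rw [hp1, D.m_zero, D.t_r0], by rw [hp2, he', hz]⟩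
    have hv0 : herm (![a, 0, b * k⁻¹, 0] : V4) r0 = a := by simp [herm, r0]
    have hv1 : herm (![a, 0, b * k⁻¹, 0] : V4) r1 = b * k⁻¹ := by simp [herm, r1]
    have h3 := (h2.conj (D.th ![a, 0, b * k⁻¹, 0])).conj d
    rwa [D.th_conj_m r0_iso, D.th_conj_m r1_iso, hv0, hv1, add_zero, add_zero,
      D.conj_m hd hg hda r0_iso, D.conj_m hd hg hda r1_iso, hgr, hgs, D.m_smul hs hk,
      mul_assoc, inv_mul_cancel₀ hk, mul_one] at h3

theorem adj_of_commute_G1 {x y : X} (hx : x ∈ D.G1) (hy : y ∈ D.G1) (hne : x ≠ y) (h : x * y = y * x) :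
    D.Adj x y := by
  obtain ⟨r, a, hr, rfl⟩ := D.G1_iff.1 hx
  obtain ⟨s, b, hs, rfl⟩ := D.G1_iff.1 hy
  exact adj_m hr hs a b ((D.m_commute_iff hr hs a b).1 h) hne

theorem adj_of_commute {u x y : X} (hx : D.Adj u x) (hy : D.Adj u y) (hne : x ≠ y) (h : x * y = y * x) :
    D.Adj x y := by
  obtain ⟨g, hu, -⟩ := id hx
  obtain ⟨r, a, hr, rfl⟩ := hx.transport hu
  obtain ⟨s, b, hs, rfl⟩ := hy.transport hu
  exact (adj_of_commute_G1 (D.mem_G1 hr a) (D.mem_G1 hs b) (fun e => hne (by rw [e]))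
    ((conj_commute_iff g _ _).1 h)).conj g

theorem braid_of_not_commute {u x y : X} (hx : D.Adj u x) (hy : D.Adj u y) (h : ¬ x * y = y * x) :
    x * y * x = y * x * y := by
  obtain ⟨g, hu, -⟩ := id hx
  obtain ⟨r, a, hr, rfl⟩ := hx.transport hu
  obtain ⟨s, b, hs, rfl⟩ := hy.transport hu
  rw [conj_commute_iff, D.m_commute_iff hr hs] at h
  calc _ = g * (D.m r a * D.m s b * D.m r a) * g⁻¹ := by group
    _ = _ := by rw [D.m_braid hr hs h]; group

theorem commute_set_eq {u x y : X} (hx : D.Adj u x) (hy : D.Adj u y)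
    (h : ∀ k, D.Adj u k → k * x = x * k → k * y = y * k) {w : X} (hw : D.Adj u w) :
    w * x = x * w ↔ w * y = y * w := by
  obtain ⟨g, hu, -⟩ := id hx
  obtain ⟨r, a, hr, rfl⟩ := hx.transport hu
  obtain ⟨s, b, hs, rfl⟩ := hy.transport hu
  obtain ⟨p, c, hp, rfl⟩ := hw.transport hu
  obtain ⟨l, hl⟩ := sub_perp hr hs fun k hk hk0 => by
    have h1 := h _ (hu ▸ adj_of_transport hk 0) ((conj_commute_iff g _ _).2 ((D.m_commute_iff hk hr _ _).2 hk0))
    exact (D.m_commute_iff hk hs _ _).1 ((conj_commute_iff g _ _).1 h1)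
  rw [conj_commute_iff, conj_commute_iff, D.m_commute_iff hp hr, D.m_commute_iff hp hs, hl, herm_smul_right]
  have hl0 := hs.ne_of_smul hl
  exact ⟨fun e => by rw [e, mul_zero], fun e => (mul_eq_zero.1 e).resolve_left ((map_ne_zero _).2 hl0)⟩

theorem not_commute_G2 {u w : X} (hu : u ∈ D.G1) (hw : D.Adj u w) (h1 : w ≠ D.z) (h2 : w ∉ D.G1) :
    ¬ D.z * w = w * D.z := fun h =>
  h2 (adj_z_iff.1 (adj_of_commute (adj_z_iff.2 hu).symm hw h1.symm h))

theorem adj_w_of_commute {u u' w : X} (hu' : u' ∈ D.G1) (hw : D.Adj u w) (h2 : w ∉ D.G1) (ha : D.Adj u u')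
    (h : u' * w = w * u') : D.Adj u' w := adj_of_commute ha hw (fun e => h2 (e ▸ hu')) h

theorem line_unique {r : V4} (hr : Iso r) {a b : K4} {w : X} (h1 : w ≠ D.z) (h2 : w ∉ D.G1)
    (ha : D.Adj (D.m r a) w) (hb : D.Adj (D.m r b) w) : a = b := by
  by_contra hne
  have hne' : D.m r a ≠ D.m r b := fun e => by
    obtain ⟨l, -, hl, h⟩ := D.m_inj hr hr e
    have : l = 1 := by
      have h3 : (1 - l) • r = 0 := by rw [sub_smul, one_smul, ← hl, sub_self]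
      exact (sub_eq_zero.1 ((smul_eq_zero.1 h3).resolve_right hr.1)).symm
    exact hne (by rw [h, this, mul_one])
  have hadj := adj_m hr hr a b hr.2 hne'
  have hz : D.Adj (D.m r a) D.z := (adj_z_iff.2 (D.mem_G1 hr a)).symm
  refine not_commute_G2 (D.mem_G1 hr a) ha h1 h2 ?_
  refine ((commute_set_eq hz hadj (fun k hk hkz => ?_) ha).2 hb.comm.symm).symm
  by_cases hk' : k = D.z
  · rw [hk']; exact (D.m_comm_z hr b).symm
  · obtain ⟨p, c, hp, rfl⟩ := D.G1_iff.1 (adj_z_iff.1 (adj_of_commute hz hk (Ne.symm hk') hkz.symm))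
    exact (D.m_commute_iff hp hr c b).2 ((D.m_commute_iff hp hr c a).1 hk.comm.symm)

end CfsgLib.FischerLarge.U62
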