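import Cfsg.Agent.Lib.LargeFischer.Base.Assembly
import Cfsg.Agent.Lib.LargeFischer.Base.Arith
import Cfsg.Agent.Lib.LargeFischer.Base.Choose
import Cfsg.Agent.Lib.LargeFischer.Base.Classes
import Cfsg.Agent.Lib.LargeFischer.Base.Sylow

/-!
Large Fischer type: the labelled layer on the elementary abelian subgroup of order `2 ^ 11`.
-/

set_option autoImplicit false
set_option linter.unusedSectionVars false

namespace CfsgLib.FischerLarge.U62

open CfsgLib.LargeFischer CfsgLib.LargeFischer.Base CfsgLib.ExtraspecialLarge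

theorem exists_layer_of_coords {G : Type*} [Group G] [Finite G] {z : G}
    {Q : Subgroup ↥(Subgroup.centralizer ({z} : Set G))} [Q.Normal]
    (hs : Cfsg.IsExtraspecialCentralizerSetting z Q 6) {C : Coords z Q} (hc : C.ClassData 0) :
    Nonempty (CfsgLib.FischerLarge.U62.Layer z (QG Q)) := by
  have hel := elem_baseA hs C hc
  have hcard := card_baseA hs C hc
  have hcen := centralizer_baseA hs C hc
  obtain ⟨T, hAT, -, huniq⟩ := exists_sylow_baseA hs C hc
  have hctl := normalizer_controls (baseA C) hel hcard T hAT fun B hB he hB' => huniq B hB he hB'.ge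
  have h1771 := card_orb_of_form (baseA C) hel hcard hcen z (orb_form hs hc hctl)
  have h23 := dvd_orb (baseA C) hel hcard hcen z h1771
  have h16 : ∀ (L : Lifts C) (p : Nat), 1 ≤ p → p < 16 → (layerT L p).card = 16 :=
    fun L p h1 h2 => card_layerT hs hc L hctl h1771 h1 h2
  obtain ⟨L, hL⟩ := exists_lifts_tMask hs hc h16
    fun L a b ha hb hA hB => mconj_nonZ hs hc L hctl h1771 h23 ha hb hA hB
  obtain ⟨Lay, -⟩ := exists_layer hs hc L hL h1771
  exact ⟨Lay⟩

end CfsgLib.FischerLarge.U62
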