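import Cfsg.Agent.Lib.FischerLarge.FourField

/-!
FischerLarge/U62: local data at a central involution for the recognition of `PSU(6,2)`.

`Local X`: the centraliser of `z` is an extension of an extraspecial group `Q` of order `2^9`, read as the
hermitian space `V4`, by the group `Gam` generated by the unitary transvections; `σ` is an automorphism
acting on `V4` as a scalar; `u0` is a conjugate of `z` inducing a transvection.
-/

set_option autoImplicit false

namespace CfsgLib.FischerLarge.U62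

/-- The four-dimensional space. -/
abbrev V4 : Type := Fin 4 → K4

/-- The hermitian form (conjugate linear in the second variable). -/
def herm (v w : V4) : K4 :=
  v 0 * K4.conj (w 0) + v 1 * K4.conj (w 1) + v 2 * K4.conj (w 2) + v 3 * K4.conj (w 3)

/-- The transvection map with centre `r`. -/
def tau (r v : V4) : V4 := fun i => v i + herm v r * r i

theorem herm_add_left (u v w : V4) : herm (u + v) w = herm u w + herm v w := by
  simp only [herm, Pi.add_apply]; ring

theorem herm_add_right (u v w : V4) : herm u (v + w) = herm u v + herm u w := by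
  simp only [herm, Pi.add_apply, map_add]; ring

theorem herm_smul_left (a : K4) (u v : V4) : herm (a • u) v = a * herm u v := by
  simp only [herm, Pi.smul_apply, smul_eq_mul]; ring

theorem herm_smul_right (a : K4) (u v : V4) : herm u (a • v) = K4.conj a * herm u v := by
  simp only [herm, Pi.smul_apply, smul_eq_mul, map_mul]; ring

theorem herm_symm (u v : V4) : herm v u = K4.conj (herm u v) := by
  simp only [herm, map_add, map_mul, K4.conj_conj]; ring

/-- Isotropic nonzero vectors. -/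
def Iso (r : V4) : Prop := r ≠ 0 ∧ herm r r = 0

instance (r : V4) : Decidable (Iso r) := inferInstanceAs (Decidable (r ≠ 0 ∧ herm r r = 0))

/-- The base isotropic vector. -/
def r0 : V4 := ![1, 1, 0, 0]

/-- A second isotropic vector, orthogonal to `r0`. -/
def r1 : V4 := ![0, 0, 1, 1]

/-- The maps in the group generated by the transvections. -/
inductive Gam : (V4 → V4) → Prop
  | refl : Gam (fun v => v)
  | step {g : V4 → V4} {r : V4} : Iso r → Gam g → Gam (fun v => tau r (g v))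

/-- Local data at a central involution. -/
structure Local (X : Type*) [Group X] where
  /-- The involution. -/
  z : X
  z_sq : z * z = 1
  z_ne : z ≠ 1
  /-- The two-radical of its centraliser. -/
  Q : Subgroup X
  z_mem : z ∈ Q
  Q_comm : ∀ q ∈ Q, q * z = z * q
  /-- The coordinates on `Q`. -/
  π : X → V4
  map_mul : ∀ a ∈ Q, ∀ b ∈ Q, π (a * b) = π a + π b
  surj : ∀ v, ∃ a ∈ Q, π a = v
  ker : ∀ a ∈ Q, π a = 0 ↔ (a = 1 ∨ a = z)
  sq : ∀ a ∈ Q, herm (π a) (π a) = 0 ↔ a * a = 1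
  comm : ∀ a ∈ Q, ∀ b ∈ Q, a * b = b * a ↔ (herm (π a) (π b)).b1 = false
  normal : ∀ c, c * z = z * c → ∀ q ∈ Q, c * q * c⁻¹ ∈ Q
  act : ∀ c, c * z = z * c → ∃ g, Gam g ∧ ∀ q ∈ Q, π (c * q * c⁻¹) = g (π q)
  faithful : ∀ c, c * z = z * c → (∀ q ∈ Q, π (c * q * c⁻¹) = π q) → c ∈ Q
  ofTau : ∀ r, Iso r → ∃ c, c * z = z * c ∧ ∀ q ∈ Q, π (c * q * c⁻¹) = tau r (π q)
  /-- The automorphism inducing a scalar. -/
  σ : X ≃* X
  σ_z : σ z = z
  σ_mem : ∀ q ∈ Q, σ q ∈ Q
  σ_act : ∀ q ∈ Q, π (σ q) = K4.om • π q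
  σ_cube : ∀ x, σ (σ (σ x)) = x
  /-- A conjugate of `z` inducing the transvection at `r0`. -/
  u0 : X
  u0_comm : u0 * z = z * u0
  u0_act : ∀ q ∈ Q, π (u0 * q * u0⁻¹) = tau r0 (π q)
  σ_u0 : σ u0 = u0
  not_conj : ¬ IsConj z (z * u0)
  exists_swap : ∃ g : X, g * z * g⁻¹ = u0 ∧ g * u0 * g⁻¹ = z
  /-- The three lifts on the line through `z` and `u0`, other than `u0`, are adjacent to `u0`. -/
  exists_line : ∀ q ∈ Q, q * u0 * q⁻¹ ≠ u0 → ∃ g : X, g * z * g⁻¹ = u0 ∧ g * u0 * g⁻¹ = q * u0 * q⁻¹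
  /-- A lift over a point orthogonal to `r0` is adjacent to `u0`. -/
  exists_plane : ∃ c : X, c * z = z * c ∧ σ (c * u0 * c⁻¹) = c * u0 * c⁻¹ ∧
    (∀ q ∈ Q, π ((c * u0 * c⁻¹) * q * (c * u0 * c⁻¹)⁻¹) = tau r1 (π q)) ∧
    ∃ g : X, g * z * g⁻¹ = u0 ∧ g * u0 * g⁻¹ = c * u0 * c⁻¹

variable {X : Type*} [Group X]

/-- The conjugates of `u0` under the centraliser of `z`. -/
def Local.G1 (D : Local X) : Set X := {x | ∃ c, c * D.z = D.z * c ∧ x = c * D.u0 * c⁻¹}

/-- Adjacency of two members. -/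
def Local.Adj (D : Local X) (x y : X) : Prop := ∃ g, x = g * D.z * g⁻¹ ∧ y = g * D.u0 * g⁻¹

/-- Members at distance two from `z`. -/
def Local.G2 (D : Local X) : Set X :=
  {x | (∃ u ∈ D.G1, D.Adj u x) ∧ x ≠ D.z ∧ x ∉ D.G1}

/-- The component of `z`. -/
def Local.T0 (D : Local X) : Set X := {x | x = D.z ∨ x ∈ D.G1 ∨ x ∈ D.G2}

end CfsgLib.FischerLarge.U62
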