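import Cfsg.Agent.Lib.FischerLarge.U62.Model

/-!
FischerLarge/U62: the group generated by the component of `z` is everything.  The subgroup contains the
centraliser of each of its involutions and has two classes of them, so a product of two involutions argument
finishes.
-/

set_option autoImplicit false
set_option linter.unusedSectionVars false

namespace CfsgLib.FischerLarge.U62

variable {X : Type*} [Group X]

/-- An odd-order product makes two involutions conjugate; otherwise an involution commutes with both. -/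
theorem isConj_or_exists_involution [Finite X] {a b : X} (ha : a * a = 1) (hb : b * b = 1) :
    IsConj a b ∨ ∃ i : X, i * i = 1 ∧ i ≠ 1 ∧ i * a = a * i ∧ i * b = b * i := by
  have hai : a⁻¹ = a := inv_eq_of_mul_eq_one_right ha
  have hbi : b⁻¹ = b := inv_eq_of_mul_eq_one_right hb
  have hpow : ∀ n : ℕ, a * (a * b) ^ n * a⁻¹ = ((a * b) ^ n)⁻¹ := fun n => by
    rw [← conj_pow, ← inv_pow]
    congr 1
    rw [mul_inv_rev, hai, hbi, show a * (a * b) * a = (a * a) * b * a by group, ha, one_mul]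
  rcases Nat.even_or_odd (orderOf (a * b)) with ⟨m, hm⟩ | ⟨m, hm⟩
  · right
    have hm0 : 0 < m := by
      have := orderOf_pos (a * b)
      omega
    have hii : (a * b) ^ m * (a * b) ^ m = 1 := by rw [← pow_add, ← hm, pow_orderOf_eq_one]
    have hca : (a * b) ^ m * a = a * (a * b) ^ m := by
      have h := hpow m
      rw [inv_eq_of_mul_eq_one_right hii, mul_inv_eq_iff_eq_mul] at h
      exact h.symm
    have hcab : (a * b) ^ m * (a * b) = (a * b) * (a * b) ^ m := (Commute.pow_self _ m).eq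
    have hba : a * (a * b) = b := by rw [← mul_assoc, ha, one_mul]
    refine ⟨(a * b) ^ m, hii, fun h => ?_, hca, ?_⟩
    · have := Nat.le_of_dvd hm0 (orderOf_dvd_of_pow_eq_one h)
      omega
    · calc (a * b) ^ m * b = (a * b) ^ m * (a * (a * b)) := by rw [hba]
        _ = a * ((a * b) ^ m * (a * b)) := by rw [← mul_assoc, hca, mul_assoc]
        _ = a * ((a * b) * (a * b) ^ m) := by rw [hcab]
        _ = b * (a * b) ^ m := by rw [← mul_assoc, hba]
  · left
    refine isConj_iff.2 ⟨(a * b) ^ m, ?_⟩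
    have h1 : a * ((a * b) ^ m)⁻¹ = (a * b) ^ m * a := by
      have h := hpow m
      rw [mul_inv_eq_iff_eq_mul] at h
      calc a * ((a * b) ^ m)⁻¹ = a * (((a * b) ^ m)⁻¹ * a) * a⁻¹ := by group
        _ = (a * a) * (a * b) ^ m * a⁻¹ := by rw [← h]; group
        _ = (a * b) ^ m * a := by rw [ha, one_mul, hai]
    have h2 : (a * b) ^ m * (a * b) ^ m * (a * b) = 1 := by
      rw [← pow_add, ← pow_succ, ← two_mul, ← hm, pow_orderOf_eq_one]
    calc (a * b) ^ m * a * ((a * b) ^ m)⁻¹ = (a * b) ^ m * (a * b) ^ m * a := by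
          rw [mul_assoc, h1, mul_assoc]
      _ = (a * b) ^ m * (a * b) ^ m * (a * b) * b⁻¹ := by group
      _ = b := by rw [h2, one_mul, hbi]

/-- A subgroup with two classes of involutions, containing all their centralisers. -/
theorem eq_top_of_two_classes [Finite X] (H : Subgroup X) {z k : X} (hz : z * z = 1) (hz1 : z ≠ 1)
    (hzH : z ∈ H) (hk : k * k = 1) (hkH : k ∈ H) (hk1 : k ≠ 1) (hzk : ¬ IsConj z k)
    (hcent : ∀ t ∈ H, t * t = 1 → t ≠ 1 → ∀ g : X, g * t = t * g → g ∈ H)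
    (hfus : ∀ g : X, g * z * g⁻¹ ∈ H → ∃ h ∈ H, h * z * h⁻¹ = g * z * g⁻¹) : H = ⊤ := by
  rw [Subgroup.eq_top_iff']
  by_contra! hne
  obtain ⟨g, hg⟩ := hne
  have hbH : g * z * g⁻¹ ∉ H := fun h => by
    obtain ⟨c, hc, e⟩ := hfus g h
    refine hg ?_
    have hcz : (c⁻¹ * g) * z = z * (c⁻¹ * g) := by
      calc c⁻¹ * g * z = c⁻¹ * (g * z * g⁻¹) * g := by group
        _ = z * (c⁻¹ * g) := by rw [← e]; group
    have := mul_mem hc (hcent z hzH hz hz1 _ hcz)
    simpa using this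
  have hb : g * z * g⁻¹ * (g * z * g⁻¹) = 1 := by
    rw [show g * z * g⁻¹ * (g * z * g⁻¹) = g * (z * z) * g⁻¹ by group, hz]; group
  rcases isConj_or_exists_involution hk hb with h | ⟨i, hii, hi1, hik, hib⟩
  · exact hzk ((isConj_iff.2 ⟨g, rfl⟩).trans h.symm)
  · exact hbH (hcent i (hcent k hkH hk hk1 i hik) hii hi1 _ hib.symm)

namespace Local

theorem conj_mem_T0 [Finite X] {D : Local X} (L : Labelling D) {h x : X} (hh : h ∈ Subgroup.closure D.T0)
    (hx : x ∈ D.T0) (hsq : ∀ y ∈ D.T0, y * y = 1) : h * x * h⁻¹ ∈ D.T0 := by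
  induction hh using Subgroup.closure_induction generalizing x with
  | mem y hy =>
    obtain ⟨v, rfl⟩ := L.surj y hy
    obtain ⟨w, rfl⟩ := L.surj x hx
    rw [inv_eq_of_mul_eq_one_right (hsq _ hy), L.conj]
    exact L.mem _
  | one => simpa using hx
  | mul a b _ _ iha ihb =>
    rw [show a * b * x * (a * b)⁻¹ = a * (b * x * b⁻¹) * a⁻¹ by group]
    exact iha (ihb hx)
  | inv a _ iha =>
    obtain ⟨⟨y, hy⟩, hye⟩ := Finite.surjective_of_injective
      (f := fun y : D.T0 => (⟨a * y * a⁻¹, iha y.2⟩ : D.T0))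
      (fun y y' e => Subtype.ext (mul_left_cancel (mul_right_cancel (congrArg Subtype.val e)))) ⟨x, hx⟩
    have e : a * y * a⁻¹ = x := congrArg Subtype.val hye
    rw [← e, show a⁻¹ * (a * y * a⁻¹) * a⁻¹⁻¹ = y by group]
    exact hy

/-- The component generates the whole group. -/
theorem closure_T0_eq_top [Finite X] {D : Local X} (L : Labelling D) {k : X}
    (hsq : ∀ y ∈ D.T0, y * y = 1)
    (horb : ∀ x ∈ D.T0, ∃ h ∈ Subgroup.closure D.T0, h * D.z * h⁻¹ = x)
    (hk : k * k = 1) (hk1 : k ≠ 1) (hkX : k ∈ Subgroup.closure D.T0)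
    (hcases : ∀ x ∈ Subgroup.closure D.T0, x * x = 1 → x ≠ 1 →
      ∃ h ∈ Subgroup.closure D.T0, h * D.z * h⁻¹ = x ∨ h * (D.z * D.u0) * h⁻¹ = x ∨ h * k * h⁻¹ = x)
    (hlow : 147456 ≤ Nat.card ↥(Subgroup.centralizer ({D.z * D.u0} : Set X) ⊓ Subgroup.closure D.T0))
    (hB : Nat.card ↥(Subgroup.centralizer ({D.z * D.u0} : Set X)) ≤ 147456)
    (hsep : ¬ IsConj D.z k)
    (hC : ∀ g, g * k = k * g → g * D.z * g⁻¹ = D.z ∨ g * D.z * g⁻¹ ∈ D.G1) :
    Subgroup.closure D.T0 = ⊤ := by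
  set H := Subgroup.closure D.T0
  have hzT : D.z ∈ D.T0 := Or.inl rfl
  have hzH : D.z ∈ H := Subgroup.subset_closure hzT
  have hzu : Subgroup.centralizer ({D.z * D.u0} : Set X) ≤ H :=
    le_of_eq_of_le (Subgroup.eq_of_le_of_card_ge inf_le_left (hB.trans hlow)).symm inf_le_right
  have hkc : ∀ g, g * k = k * g → g ∈ H := by
    intro g hg
    have hx : g * D.z * g⁻¹ ∈ D.T0 := (hC g hg).elim (fun e => Or.inl e) fun e => Or.inr (Or.inl e)
    obtain ⟨h, hh, e⟩ := horb _ hx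
    have hgh : (h⁻¹ * g) * D.z = D.z * (h⁻¹ * g) := by
      calc h⁻¹ * g * D.z = h⁻¹ * (g * D.z * g⁻¹) * g := by group
        _ = D.z * (h⁻¹ * g) := by rw [← e]; group
    simpa using mul_mem hh (L.centralizer_z _ hgh)
  have hbase : ∀ t, t = D.z ∨ t = D.z * D.u0 ∨ t = k → ∀ g, g * t = t * g → g ∈ H := by
    rintro t (rfl | rfl | rfl) g hg
    exacts [L.centralizer_z g hg, hzu (Subgroup.mem_centralizer_singleton_iff.2 hg), hkc g hg]
  refine eq_top_of_two_classes H D.z_sq D.z_ne hzH hk hkX hk1 hsep ?_ ?_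
  · intro t ht htt ht1 g hg
    obtain ⟨h, hh, hcase⟩ := hcases t ht htt ht1
    obtain ⟨t', ht', e⟩ : ∃ t', (t' = D.z ∨ t' = D.z * D.u0 ∨ t' = k) ∧ h * t' * h⁻¹ = t := by
      rcases hcase with e | e | e
      exacts [⟨_, Or.inl rfl, e⟩, ⟨_, Or.inr (Or.inl rfl), e⟩, ⟨_, Or.inr (Or.inr rfl), e⟩]
    have hm := hbase t' ht' (h⁻¹ * g * h) (by
      calc h⁻¹ * g * h * t' = h⁻¹ * (g * t) * h := by rw [← e]; group
        _ = t' * (h⁻¹ * g * h) := by rw [hg, ← e]; group)
    have := mul_mem (mul_mem hh hm) (inv_mem hh)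
    simpa [mul_assoc] using this
  · intro g hg
    have hb : g * D.z * g⁻¹ * (g * D.z * g⁻¹) = 1 := by
      rw [show g * D.z * g⁻¹ * (g * D.z * g⁻¹) = g * (D.z * D.z) * g⁻¹ by group, D.z_sq]; group
    obtain ⟨h, hh, e | e | e⟩ := hcases _ hg hb (fun e => D.z_ne (conj_eq_one_iff.1 e))
    · exact ⟨h, hh, e⟩
    · exact absurd ((isConj_iff.2 ⟨g, rfl⟩).trans (isConj_iff.2 ⟨h, e⟩).symm) D.not_conj
    · exact absurd ((isConj_iff.2 ⟨g, rfl⟩).trans (isConj_iff.2 ⟨h, e⟩).symm) hsep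

end Local

end CfsgLib.FischerLarge.U62
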