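import Cfsg.Agent.Lib.FischerLarge.U62.Moves
import Cfsg.Agent.Lib.InvChar.UnitaryTVTwo

/-!
FischerLarge/U62: the group generated by a labelled component is `PSU(6,2)`.
-/

set_option autoImplicit false
set_option linter.unusedSectionVars false

namespace CfsgLib.FischerLarge.U62

open CfsgLib.InvChar.UnitaryTVTwo CfsgLib.ClassicalForms

variable {F : Type*} [Field F] [Fintype F]

/-- The Hermitian form. -/
local notation "hf" => Cfsg.hermForm 6 F 2

/-- Coordinatewise transport. -/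
def vmap (φ : K4 ≃+* F) (v : V6) : Fin 6 → F := fun i => φ (v i)

variable (φ : K4 ≃+* F)

theorem vmap_add (v w : V6) : vmap φ (v + w) = vmap φ v + vmap φ w := funext fun _ => map_add φ _ _

theorem vmap_smul (a : K4) (v : V6) : vmap φ (a • v) = φ a • vmap φ v := funext fun _ => map_mul φ _ _

theorem vmap_injective : Function.Injective (vmap φ) := fun _ _ h =>
  funext fun i => φ.injective (congrFun h i)

theorem vmap_pull (x : Fin 6 → F) : vmap φ (fun i => φ.symm (x i)) = x :=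
  funext fun _ => φ.apply_symm_apply _

theorem hf_vmap (v w : V6) : hf (vmap φ v) (vmap φ w) = φ (herm6 v w) := by
  simp [Cfsg.hermForm, Fin.sum_univ_six, herm6, vmap, pow_two, K4.conj]

theorem vmap_ne (v : Pt6) : vmap φ v.1 ≠ 0 := fun h =>
  v.2.1 (vmap_injective φ (h.trans (funext fun _ => (map_zero φ).symm)))

theorem vmap_iso (v : Pt6) : hf (vmap φ v.1) (vmap φ v.1) = 0 := by
  rw [hf_vmap, v.2.2, map_zero]

/-- An isotropic vector comes from a point. -/
theorem exists_pt {x : Fin 6 → F} (h0 : x ≠ 0) (h : hf x x = 0) : ∃ v : Pt6, vmap φ v.1 = x := by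
  refine ⟨⟨fun i => φ.symm (x i), fun e => h0 ?_, φ.injective ?_⟩, vmap_pull φ x⟩
  · rw [← vmap_pull φ x, e]
    exact funext fun _ => map_zero φ
  · rw [← hf_vmap, vmap_pull, map_zero]
    exact h

variable (hF : Fintype.card F = 4)
include hF

/-- The image of a point under an element of the special unitary group. -/
theorem exists_act (g : Cfsg.SU 6 F 2) (v : Pt6) : ∃ w : Pt6, act g (vmap φ v.1) = vmap φ w.1 := by
  have h0 : act g (vmap φ v.1) ≠ 0 := fun e => by
    have h := congrArg (act g⁻¹) e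
    rw [← act_mul, inv_mul_cancel, act_one] at h
    refine vmap_ne φ v (h.trans ?_)
    have := act_smul g⁻¹ (0 : F) (0 : Fin 6 → F)
    rwa [zero_smul, zero_smul] at this
  obtain ⟨w, hw⟩ := exists_pt φ h0 (by rw [act_herm, vmap_iso])
  exact ⟨w, hw.symm⟩

theorem act_tv_vmap (v w : Pt6) :
    act (tv hF (vmap φ v.1) (vmap_iso φ v)) (vmap φ w.1) = vmap φ (Pt6.refl v w).1 := by
  rw [act_tv, hf_vmap, ← vmap_smul, ← vmap_add]
  exact congrArg (vmap φ) (refl6_eq v.1 w.1).symm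

/-- The transvection images. -/
def pvSet : Set (Cfsg.PSU 6 F 2) := {p | ∃ v hv, v ≠ 0 ∧ p = pv hF v hv}

theorem isSimple : IsSimpleGroup (Cfsg.PSU 6 F 2) :=
  isSimpleGroup_psu (by rw [hF]; norm_num) (by norm_num) (by norm_num)

theorem pv_not_commute : ¬ Commute (pv hF _ (vmap_iso φ ptE))
    (pv hF _ (vmap_iso φ ⟨![0, 1, 0, 0, 1, 0], by decide⟩)) := fun hc => by
  have h := herm_eq_zero_of_commute hF (by norm_num) _ _ hc
  rw [hf_vmap, ← map_zero φ] at h
  exact absurd (φ.injective h) (by decide)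

theorem closure_pvSet (φ : K4 ≃+* F) : Subgroup.closure (pvSet hF) = ⊤ := by
  haveI : IsSimpleGroup (Cfsg.PSU 6 F 2) := isSimple hF
  have hinv : ∀ p ∈ pvSet hF, ∀ q : Cfsg.PSU 6 F 2, q * p * q⁻¹ ∈ pvSet hF := by
    rintro p ⟨v, hv, h0, rfl⟩ q
    obtain ⟨g, rfl⟩ := QuotientGroup.mk_surjective q
    refine ⟨act g v, by rw [act_herm, hv], fun e => h0 ?_, ?_⟩
    · have h := congrArg (act g⁻¹) e
      rw [← act_mul, inv_mul_cancel, act_one] at h
      rw [h]
      have := act_smul g⁻¹ (0 : F) (0 : Fin 6 → F)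
      rwa [zero_smul, zero_smul] at this
    · rw [pv, pv, ← QuotientGroup.mk_inv, ← QuotientGroup.mk_mul, ← QuotientGroup.mk_mul, conj_tv]
  have hN : (Subgroup.closure (pvSet hF)).Normal := ⟨fun x hx q => by
    have hle : Subgroup.closure (pvSet hF) ≤
        (Subgroup.closure (pvSet hF)).comap (MulAut.conj q).toMonoidHom :=
      (Subgroup.closure_le _).2 fun p hp => Subgroup.subset_closure (hinv p hp q)
    exact hle hx⟩
  refine hN.eq_bot_or_eq_top.resolve_left fun hb => pv_not_commute φ hF ?_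
  have h1 : pv hF _ (vmap_iso φ ptE) ∈ Subgroup.closure (pvSet hF) :=
    Subgroup.subset_closure ⟨_, _, vmap_ne φ _, rfl⟩
  rw [hb, Subgroup.mem_bot] at h1
  rw [h1]
  exact Commute.one_left _

theorem center_psu (φ : K4 ≃+* F) : Subgroup.center (Cfsg.PSU 6 F 2) = ⊥ := by
  haveI : IsSimpleGroup (Cfsg.PSU 6 F 2) := isSimple hF
  refine (inferInstance : (Subgroup.center (Cfsg.PSU 6 F 2)).Normal).eq_bot_or_eq_top.resolve_right
    fun ht => pv_not_commute φ hF ?_
  exact Subgroup.mem_center_iff.1 (ht ▸ Subgroup.mem_top _) _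

namespace Labelling

variable {X : Type*} [Group X] {D : Local X} (L : Labelling D)

/-- `x` acts on the members as `g` on the points. -/
def Compat (x : X) (g : Cfsg.SU 6 F 2) : Prop :=
  ∀ v w : Pt6, act g (vmap φ v.1) = vmap φ w.1 → x * L.f v * x⁻¹ = L.f w

theorem compat_one : L.Compat φ 1 (1 : Cfsg.SU 6 F 2) := fun v w h => by
  rw [act_one] at h
  rw [Subtype.ext (vmap_injective φ h)]; group

theorem compat_mul {x y : X} {g k : Cfsg.SU 6 F 2} (hx : L.Compat φ x g) (hy : L.Compat φ y k) :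
    L.Compat φ (x * y) (g * k) := fun v w h => by
  obtain ⟨u, hu⟩ := exists_act φ hF k v
  rw [act_mul, hu] at h
  rw [← hx u w h, ← hy v u hu]; group

theorem compat_inv {x : X} {g : Cfsg.SU 6 F 2} (hx : L.Compat φ x g) : L.Compat φ x⁻¹ g⁻¹ :=
  fun v w h => by
  have h' : act g (vmap φ w.1) = vmap φ v.1 := by rw [← h, ← act_mul, mul_inv_cancel, act_one]
  rw [← hx w v h']; group

theorem compat_f (v : Pt6) : L.Compat φ (L.f v) (tv hF _ (vmap_iso φ v)) := fun u w h => by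
  rw [act_tv_vmap] at h
  rw [L.conj_f, Subtype.ext (vmap_injective φ h)]

theorem exists_compat {x : X} (hx : x ∈ Subgroup.closure D.T0) : ∃ g, L.Compat φ x g := by
  induction hx using Subgroup.closure_induction with
  | mem t ht =>
    obtain ⟨v, rfl⟩ := L.surj t ht
    exact ⟨_, L.compat_f φ hF v⟩
  | one => exact ⟨1, L.compat_one φ hF⟩
  | mul a b _ _ ha hb =>
    obtain ⟨g, hg⟩ := ha
    obtain ⟨k, hk⟩ := hb
    exact ⟨g * k, L.compat_mul φ hF hg hk⟩
  | inv a _ ha =>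
    obtain ⟨g, hg⟩ := ha
    exact ⟨g⁻¹, L.compat_inv φ hF hg⟩

theorem exists_compat_psu (q : Cfsg.PSU 6 F 2) :
    ∃ x ∈ Subgroup.closure D.T0, ∃ g, L.Compat φ x g ∧ (QuotientGroup.mk g : Cfsg.PSU 6 F 2) = q := by
  have hq : q ∈ Subgroup.closure (pvSet hF) := closure_pvSet hF φ ▸ Subgroup.mem_top q
  induction hq using Subgroup.closure_induction with
  | mem p hp =>
    obtain ⟨v, hv, h0, rfl⟩ := hp
    obtain ⟨u, rfl⟩ := exists_pt φ h0 hv
    exact ⟨_, L.mem_closure u, _, L.compat_f φ hF u, rfl⟩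
  | one => exact ⟨1, one_mem _, 1, L.compat_one φ hF, rfl⟩
  | mul a b _ _ ha hb =>
    obtain ⟨x, hx, g, hg, rfl⟩ := ha
    obtain ⟨y, hy, k, hk, rfl⟩ := hb
    exact ⟨x * y, mul_mem hx hy, g * k, L.compat_mul φ hF hg hk, rfl⟩
  | inv a _ ha =>
    obtain ⟨x, hx, g, hg, rfl⟩ := ha
    exact ⟨x⁻¹, inv_mem hx, g⁻¹, L.compat_inv φ hF hg, rfl⟩

theorem compat_unique {x y : X} {g k : Cfsg.SU 6 F 2} (hx : L.Compat φ x g) (hy : L.Compat φ y k)
    (e : (QuotientGroup.mk g : Cfsg.PSU 6 F 2) = QuotientGroup.mk k) : x = y := by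
  refine L.eq_of_conj_eq fun v => ?_
  obtain ⟨u, hu⟩ := exists_act φ hF g v
  obtain ⟨w, hw⟩ := exists_act φ hF k v
  rw [hx v u hu, hy v w hw]
  obtain ⟨a, ha⟩ := center_scalar hF (by norm_num)
    (show k * g⁻¹ ∈ Subgroup.center (Cfsg.SU 6 F 2) by
      refine (QuotientGroup.eq_one_iff _).1 ?_
      rw [QuotientGroup.mk_mul, QuotientGroup.mk_inv, ← e, mul_inv_cancel])
  refine L.f_eq_of_smul (φ.symm a) (vmap_injective φ ?_)
  rw [vmap_smul, RingEquiv.apply_symm_apply, ← ha, ← hw, ← hu, ← act_mul, inv_mul_cancel_right]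

theorem compat_one_mk {g : Cfsg.SU 6 F 2} (hg : L.Compat φ 1 g) :
    (QuotientGroup.mk g : Cfsg.PSU 6 F 2) = 1 := by
  have hc : ∀ p ∈ pvSet hF, p * QuotientGroup.mk g = QuotientGroup.mk g * p := by
    rintro p ⟨v, hv, h0, rfl⟩
    obtain ⟨u, rfl⟩ := exists_pt φ h0 hv
    obtain ⟨w, hw⟩ := exists_act φ hF g u
    have h1 := hg u w hw
    rw [one_mul, inv_one, mul_one] at h1
    obtain ⟨a, ha⟩ := (L.eq_iff u w).1 h1
    have ha0 : a ≠ 0 := fun e => w.2.1 (by rw [ha, e, zero_smul])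
    have key : (QuotientGroup.mk g : Cfsg.PSU 6 F 2) * pv hF _ hv * (QuotientGroup.mk g)⁻¹ =
        pv hF _ hv := by
      rw [pv, ← QuotientGroup.mk_inv, ← QuotientGroup.mk_mul, ← QuotientGroup.mk_mul, conj_tv]
      have hiso : hf (φ a • vmap φ u.1) (φ a • vmap φ u.1) = 0 := by
        rw [← vmap_smul, ← ha, vmap_iso]
      exact (pv_congr hF _ hiso (by rw [hw, ha, vmap_smul])).trans
        (pv_smul hF (by simpa using ha0) hv hiso)
    exact (mul_inv_eq_iff_eq_mul.1 key).symm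
  have hcen : (QuotientGroup.mk g : Cfsg.PSU 6 F 2) ∈ Subgroup.center (Cfsg.PSU 6 F 2) := by
    refine Subgroup.mem_center_iff.2 fun q => ?_
    have hle : Subgroup.closure (pvSet hF) ≤
        Subgroup.centralizer ({(QuotientGroup.mk g : Cfsg.PSU 6 F 2)} : Set (Cfsg.PSU 6 F 2)) :=
      (Subgroup.closure_le _).2 fun p hp => Subgroup.mem_centralizer_singleton_iff.2 (hc p hp)
    exact Subgroup.mem_centralizer_singleton_iff.1 (hle (closure_pvSet hF φ ▸ Subgroup.mem_top q))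
  rwa [center_psu hF φ, Subgroup.mem_bot] at hcen

/-- The isomorphism with `PSU(6,2)`, sending members to transvection images. -/
theorem exists_equiv : ∃ (φ : K4 ≃+* F) (e : ↥(Subgroup.closure D.T0) ≃* Cfsg.PSU 6 F 2),
    ∀ v : Pt6, ∃ hv, e ⟨L.f v, L.mem_closure v⟩ = pv hF (fun i => φ (v.1 i)) hv := by
  classical
  let φ : K4 ≃+* F := FiniteField.ringEquivOfCardEq (K := K4) (K' := F) (by
    rw [hF, ← Nat.card_eq_fintype_card]; exact K4.card_eq)
  choose g hg using fun x : ↥(Subgroup.closure D.T0) => L.exists_compat φ hF x.2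
  have huniq : ∀ (x : ↥(Subgroup.closure D.T0)) (k : Cfsg.SU 6 F 2), L.Compat φ (x : X) k →
      (QuotientGroup.mk (g x) : Cfsg.PSU 6 F 2) = QuotientGroup.mk k := by
    intro x k hk
    have h := L.compat_one_mk φ hF
      (g := (g x)⁻¹ * k) (by simpa using L.compat_mul φ hF (L.compat_inv φ hF (hg x)) hk)
    rw [QuotientGroup.mk_mul, QuotientGroup.mk_inv, inv_mul_eq_one] at h
    exact h
  let e0 : ↥(Subgroup.closure D.T0) →* Cfsg.PSU 6 F 2 :=
    MonoidHom.mk' (fun x => QuotientGroup.mk (g x)) fun x y => by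
      rw [← QuotientGroup.mk_mul]
      exact huniq _ _ (L.compat_mul φ hF (hg x) (hg y))
  have hbij : Function.Bijective e0 := by
    refine ⟨fun x y h => Subtype.ext (L.compat_unique φ hF (hg x) (hg y) h), fun q => ?_⟩
    obtain ⟨x, hx, k, hk, rfl⟩ := L.exists_compat_psu φ hF q
    exact ⟨⟨x, hx⟩, huniq ⟨x, hx⟩ k hk⟩
  refine ⟨φ, MulEquiv.ofBijective e0 hbij, fun v => ⟨vmap_iso φ v, ?_⟩⟩
  exact huniq ⟨_, _⟩ _ (L.compat_f φ hF v)

/-- The group generated by a labelled component is `PSU(6,2)`. -/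
theorem nonempty_equiv (L : Labelling D) : Nonempty (↥(Subgroup.closure D.T0) ≃* Cfsg.PSU 6 F 2) := by
  obtain ⟨-, e, -⟩ := L.exists_equiv hF
  exact ⟨e⟩

end Labelling

end CfsgLib.FischerLarge.U62
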