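import Cfsg.Agent.Lib.FischerLarge.U62.Model

/-!
FischerLarge/U62: moving commuting members of a labelled component to standard position.
-/

set_option autoImplicit false
set_option linter.unusedSectionVars false
set_option maxRecDepth 100000
set_option maxHeartbeats 1000000
set_option synthInstance.maxSize 1000

namespace CfsgLib.FischerLarge.U62

/-- The vector of `u0`. -/
def ptR0 : Pt6 := ⟨![0, 0, 1, 1, 0, 0], by decide⟩

/-- The third base vector. -/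
def ptR1 : Pt6 := ⟨![0, 0, 0, 0, 1, 1], by decide⟩

theorem forall_v6 {P : V6 → Prop} :
    (∀ v, P v) ↔ ∀ a b c d g h : K4, P ![a, b, c, d, g, h] := by
  refine ⟨fun H _ _ _ _ _ _ => H _, fun H v => ?_⟩
  have : v = ![v 0, v 1, v 2, v 3, v 4, v 5] := by funext i; fin_cases i <;> rfl
  rw [this]
  exact H _ _ _ _ _ _

/-- Intermediate centres for the first stage. -/
def candA : List V6 :=
  [![0, 1, 0, 0, 0, 1], ![0, 1, 0, 0, 0, .om], ![0, 1, 0, 1, 1, 1], ![0, 1, 0, 0, 1, 0]]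

/-- Intermediate centres for the second stage. -/
def candB : List V6 := [![0, 0, 0, 1, 0, 1], ![0, 0, 0, 1, 0, .om]]

/-- Intermediate centre for the third stage. -/
def candC : List V6 := [![0, 0, 0, 0, 1, .om]]

theorem herm6_zero_symm {u v : V6} (h : herm6 u v = 0) : herm6 v u = 0 := by
  rw [herm6_symm, h, map_zero]

theorem eq_of_add_zero : ∀ a b : K4, a + b = 0 → b = a := by decide

theorem eq_vec6 (v : V6) : v = ![v 0, v 1, v 2, v 3, v 4, v 5] := by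
  funext i; fin_cases i <;> rfl

theorem perpE {a : V6} (h : herm6 a ptE.1 = 0) : a 1 = a 0 :=
  eq_of_add_zero _ _ (by simpa [herm6, ptE] using h)

theorem perpR0 {a : V6} (h : herm6 a ptR0.1 = 0) : a 3 = a 2 :=
  eq_of_add_zero _ _ (by simpa [herm6, ptR0] using h)

theorem perpR1 {a : V6} (h : herm6 a ptR1.1 = 0) : a 5 = a 4 :=
  eq_of_add_zero _ _ (by simpa [herm6, ptR1] using h)

theorem stageA_check : ∀ x c d g h : K4, Iso6 ![x, x, c, d, g, h] →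
    ∃ v ∈ candA, Iso6 v ∧ herm6 ![x, x, c, d, g, h] v ≠ 0 ∧ herm6 v ptE.1 ≠ 0 := by
  decide +kernel

theorem stageA (a : V6) (ha : Iso6 a) (h : herm6 a ptE.1 = 0) :
    ∃ d ∈ candA, Iso6 d ∧ herm6 a d ≠ 0 ∧ herm6 d ptE.1 ≠ 0 := by
  have e := eq_vec6 a
  rw [perpE h] at e
  rw [e] at ha ⊢
  exact stageA_check _ _ _ _ _ ha

theorem stageB_check : ∀ x c g h : K4, Iso6 ![x, x, c, c, g, h] →
    ¬ (c = 0 ∧ g = 0 ∧ h = 0) →
    ∃ d ∈ candB, Iso6 d ∧ herm6 d ptE.1 = 0 ∧ herm6 ![x, x, c, c, g, h] d ≠ 0 ∧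
      herm6 d ptR0.1 ≠ 0 := by
  decide +kernel

theorem stageB (a : V6) (ha : Iso6 a) (h : herm6 a ptR0.1 = 0) (he : herm6 a ptE.1 = 0)
    (hn : ¬ (a 2 = 0 ∧ a 3 = 0 ∧ a 4 = 0 ∧ a 5 = 0)) :
    ∃ d ∈ candB, Iso6 d ∧ herm6 d ptE.1 = 0 ∧ herm6 a d ≠ 0 ∧ herm6 d ptR0.1 ≠ 0 := by
  have e := eq_vec6 a
  rw [perpE he, perpR0 h] at e
  have := stageB_check (a 0) (a 2) (a 4) (a 5) (e ▸ ha)
    fun H => hn ⟨H.1, by rw [perpR0 h]; exact H.1, H.2⟩
  rwa [← e] at this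

theorem stageC_check : ∀ x c g : K4, ¬ g = 0 →
    ∃ d ∈ candC, Iso6 d ∧ herm6 d ptE.1 = 0 ∧ herm6 d ptR0.1 = 0 ∧
      herm6 ![x, x, c, c, g, g] d ≠ 0 ∧ herm6 d ptR1.1 ≠ 0 := by
  decide +kernel

theorem stageC (a : V6) (h : herm6 a ptR1.1 = 0) (he : herm6 a ptE.1 = 0)
    (hr : herm6 a ptR0.1 = 0) (hn : ¬ (a 4 = 0 ∧ a 5 = 0)) :
    ∃ d ∈ candC, Iso6 d ∧ herm6 d ptE.1 = 0 ∧ herm6 d ptR0.1 = 0 ∧ herm6 a d ≠ 0 ∧
      herm6 d ptR1.1 ≠ 0 := by
  have e := eq_vec6 a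
  rw [perpE he, perpR0 hr, perpR1 h] at e
  have := stageC_check (a 0) (a 2) (a 4) fun H => hn ⟨H, by rw [perpR1 h]; exact H⟩
  rwa [← e] at this

theorem lineE (a : V6) (h : herm6 a ptE.1 = 0) (hz : a 2 = 0 ∧ a 3 = 0 ∧ a 4 = 0 ∧ a 5 = 0) :
    a = a 0 • ptE.1 := by
  funext i
  fin_cases i <;> simp [ptE, perpE h, hz.1, hz.2.1, hz.2.2.1, hz.2.2.2]

theorem planeER (a : V6) (h : herm6 a ptE.1 = 0) (h' : herm6 a ptR0.1 = 0) (hz : a 4 = 0 ∧ a 5 = 0) :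
    a = a 0 • ptE.1 + a 2 • ptR0.1 := by
  funext i
  fin_cases i <;> simp [ptE, ptR0, perpE h, perpR0 h', hz.1, hz.2]

theorem iso6_line : ∀ β : K4, Iso6 (ptE.1 + β • ptR0.1) := by decide +kernel

/-- The points on the line of the first two base vectors. -/
def ptL (β : K4) : Pt6 := ⟨ptE.1 + β • ptR0.1, iso6_line β⟩

theorem line_orth : ∀ β : K4, herm6 ptE.1 (ptL β).1 = 0 ∧ herm6 (ptL β).1 ptE.1 = 0 := by
  decide +kernel

theorem line_orth₂ : ∀ β γ : K4, herm6 (ptL β).1 (ptL γ).1 = 0 := by decide +kernel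

theorem line_scalars : ∀ β A B : K4, β ≠ 0 →
    A + (A + K4.conj β * B) = (A + K4.conj (K4.om * β) * B) + (A + K4.conj (K4.om2 * β) * B) ∧
    B + (A + K4.conj β * B) * β = (A + K4.conj (K4.om * β) * B) * (K4.om * β) +
      (A + K4.conj (K4.om2 * β) * B) * (K4.om2 * β) := by
  decide +kernel

/-- The product of the three transvections on a line is the product of two. -/
theorem line_refl (w : V6) (β : K4) (hβ : β ≠ 0) :
    refl6 ptE.1 (refl6 ptR0.1 (refl6 (ptL β).1 w)) =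
      refl6 (ptL (K4.om * β)).1 (refl6 (ptL (K4.om2 * β)).1 w) := by
  have hER : herm6 ptR0.1 ptE.1 = 0 := by decide
  have hlE : herm6 (ptL β).1 ptE.1 = 0 := (line_orth β).2
  have hlR : herm6 (ptL β).1 ptR0.1 = 0 := by
    show herm6 (ptE.1 + β • ptR0.1) ptR0.1 = 0
    rw [herm6_add_left, herm6_smul_left, ptR0.2.2, mul_zero, add_zero, herm6_zero_symm hER]
  have hw : ∀ γ : K4, herm6 w (ptL γ).1 = herm6 w ptE.1 + K4.conj γ * herm6 w ptR0.1 := fun γ => by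
    show herm6 w (ptE.1 + γ • ptR0.1) = _
    rw [herm6_add_right, herm6_smul_right]
  obtain ⟨e1, e2⟩ := line_scalars β (herm6 w ptE.1) (herm6 w ptR0.1) hβ
  simp only [refl6_eq, herm6_add_left, herm6_smul_left, hER, hlE, hlR, line_orth₂, mul_zero, add_zero, hw]
  funext i
  show (w i + (herm6 w ptE.1 + K4.conj β * herm6 w ptR0.1) * (ptE.1 i + β * ptR0.1 i)) +
      herm6 w ptR0.1 * ptR0.1 i + herm6 w ptE.1 * ptE.1 i =
    (w i + (herm6 w ptE.1 + K4.conj (K4.om2 * β) * herm6 w ptR0.1) *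
      (ptE.1 i + K4.om2 * β * ptR0.1 i)) +
      (herm6 w ptE.1 + K4.conj (K4.om * β) * herm6 w ptR0.1) * (ptE.1 i + K4.om * β * ptR0.1 i)
  linear_combination ptE.1 i * e1 + ptR0.1 i * e2

theorem refl6_self (v : Pt6) : Pt6.refl v v = v := by
  refine Subtype.ext ?_
  show refl6 v.1 v.1 = v.1
  rw [refl6_eq, v.2.2, zero_smul, add_zero]

theorem refl6_fix {v w : V6} (h : herm6 w v = 0) : refl6 v w = w := by
  rw [refl6_eq, h, zero_smul, add_zero]

/-- The centre moving `a` to the line of `t`. -/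
theorem center_move {a t : V6} (ha : Iso6 a) (ht : Iso6 t) (h : herm6 a t ≠ 0) :
    Iso6 (a + herm6 a t • t) ∧ refl6 (a + herm6 a t • t) a = herm6 a t • t := by
  have hk : ∀ k : K4, k ≠ 0 → K4.conj k * k = 1 := by decide
  have hc : K4.conj (herm6 a t) * herm6 a t = 1 := hk _ h
  have h1 : herm6 a (a + herm6 a t • t) = 1 := by
    rw [herm6_add_right, herm6_smul_right, ha.2, zero_add, hc]
  have h2 : herm6 (a + herm6 a t • t) (a + herm6 a t • t) = 0 := by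
    rw [herm6_add_left, h1, herm6_smul_left, herm6_add_right, herm6_smul_right, ht.2, mul_zero,
      add_zero, herm6_symm a t, mul_comm, hc, K4.add_self]
  refine ⟨⟨fun e => ?_, h2⟩, ?_⟩
  · rw [e] at h1
    simp [herm6] at h1
  · rw [refl6_eq, h1, one_smul, ← add_assoc,
      show a + a = 0 from funext fun i => K4.add_self _, zero_add]

namespace Labelling

variable {X : Type*} [Group X] {D : Local X} (L : Labelling D)

theorem f_sq (v : Pt6) : L.f v * L.f v = 1 := by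
  have h := L.conj v v
  rw [refl6_self] at h
  exact mul_eq_right.1 h

theorem f_inv (v : Pt6) : (L.f v)⁻¹ = L.f v := inv_eq_of_mul_eq_one_right (L.f_sq v)

theorem conj_f (v w : Pt6) : L.f v * L.f w * (L.f v)⁻¹ = L.f (Pt6.refl v w) := by
  rw [L.f_inv, L.conj]

theorem mem_closure (v : Pt6) : L.f v ∈ Subgroup.closure D.T0 := Subgroup.subset_closure (L.mem v)

theorem f_eq_of_smul {v w : Pt6} (a : K4) (h : w.1 = a • v.1) : L.f v = L.f w :=
  (L.eq_iff v w).2 ⟨a, h⟩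

theorem f_fix {v s : Pt6} (h : herm6 s.1 v.1 = 0) : L.f v * L.f s * (L.f v)⁻¹ = L.f s := by
  rw [L.conj_f]
  congr 1
  exact Subtype.ext (refl6_fix h)

theorem f_commute {v s : Pt6} (h : herm6 s.1 v.1 = 0) : L.f v * L.f s = L.f s * L.f v :=
  mul_inv_eq_iff_eq_mul.1 (L.f_fix h)

/-- Orthogonality is commutation. -/
theorem herm6_of_commute {v w : Pt6} (h : L.f v * L.f w = L.f w * L.f v) : herm6 w.1 v.1 = 0 := by
  have h' : L.f v * L.f w * (L.f v)⁻¹ = L.f w := mul_inv_eq_iff_eq_mul.2 h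
  rw [L.conj_f] at h'
  obtain ⟨a, ha⟩ := (L.eq_iff _ _).1 h'
  by_contra hne
  have e : w.1 = a • (w.1 + herm6 w.1 v.1 • v.1) := by rw [← refl6_eq]; exact ha
  have h2 := congrArg (fun x => herm6 x v.1) e
  simp only [herm6_smul_left, herm6_add_left, v.2.2, mul_zero, add_zero] at h2
  have ha1 : a = 1 := mul_right_cancel₀ hne (by rw [one_mul]; exact h2.symm)
  rw [ha1, one_smul, left_eq_add] at e
  exact v.2.1 ((smul_eq_zero.1 e).resolve_left hne)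

/-- A member conjugating the point of `a` to that of `t`. -/
theorem exists_step {a t : Pt6} (h : herm6 a.1 t.1 ≠ 0) :
    ∃ x ∈ Subgroup.closure D.T0, x * L.f a * x⁻¹ = L.f t ∧
      ∀ s : Pt6, herm6 s.1 a.1 = 0 → herm6 s.1 t.1 = 0 → x * L.f s * x⁻¹ = L.f s := by
  obtain ⟨hI, he⟩ := center_move a.2 t.2 h
  refine ⟨L.f ⟨_, hI⟩, L.mem_closure _, ?_, fun s h1 h2 => L.f_fix ?_⟩
  · rw [L.conj_f]
    exact (L.f_eq_of_smul (herm6 a.1 t.1) he).symm
  · show herm6 s.1 (a.1 + herm6 a.1 t.1 • t.1) = 0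
    rw [herm6_add_right, herm6_smul_right, h1, h2, mul_zero, add_zero]

/-- Two steps through an intermediate point. -/
theorem exists_two_steps {a d t : Pt6} (h1 : herm6 a.1 d.1 ≠ 0) (h2 : herm6 d.1 t.1 ≠ 0) :
    ∃ x ∈ Subgroup.closure D.T0, x * L.f a * x⁻¹ = L.f t ∧ ∀ s : Pt6, herm6 s.1 a.1 = 0 →
      herm6 s.1 d.1 = 0 → herm6 s.1 t.1 = 0 → x * L.f s * x⁻¹ = L.f s := by
  obtain ⟨x, hx, hxa, hxs⟩ := L.exists_step h1
  obtain ⟨x', hx', hxd, hxs'⟩ := L.exists_step h2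
  refine ⟨x' * x, (Subgroup.closure _).mul_mem hx' hx, ?_, fun s e1 e2 e3 => ?_⟩
  · rw [← hxd, ← hxa]; group
  · calc x' * x * L.f s * (x' * x)⁻¹ = x' * (x * L.f s * x⁻¹) * x'⁻¹ := by group
      _ = L.f s := by rw [hxs s e1 e2, hxs' s e2 e3]

/-- Every point is moved to the base point. -/
theorem exists_move_one (a : Pt6) : ∃ x ∈ Subgroup.closure D.T0, x * L.f a * x⁻¹ = L.f ptE := by
  by_cases h : herm6 a.1 ptE.1 = 0
  · obtain ⟨d, -, hd, h1, h2⟩ := stageA a.1 a.2 h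
    obtain ⟨x, hx, e, -⟩ := L.exists_two_steps (d := ⟨d, hd⟩) (t := ptE) h1 h2
    exact ⟨x, hx, e⟩
  · obtain ⟨x, hx, e, -⟩ := L.exists_step h
    exact ⟨x, hx, e⟩

/-- An orthogonal point is moved to the second base point. -/
theorem exists_move_two {b : Pt6} (hb : herm6 b.1 ptE.1 = 0) (hne : L.f b ≠ L.f ptE) :
    ∃ x ∈ Subgroup.closure D.T0, x * L.f b * x⁻¹ = L.f ptR0 ∧
      x * L.f ptE * x⁻¹ = L.f ptE := by
  by_cases h : herm6 b.1 ptR0.1 = 0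
  · obtain ⟨d, -, hd, h0, h1, h2⟩ := stageB b.1 b.2 h hb fun H =>
      hne (L.f_eq_of_smul (b.1 0) (lineE b.1 hb H)).symm
    obtain ⟨x, hx, e, hs⟩ := L.exists_two_steps (d := ⟨d, hd⟩) (t := ptR0) h1 h2
    exact ⟨x, hx, e, hs _ (herm6_zero_symm hb) (herm6_zero_symm h0) (by decide)⟩
  · obtain ⟨x, hx, e, hs⟩ := L.exists_step h
    exact ⟨x, hx, e, hs _ (herm6_zero_symm hb) (by decide)⟩

/-- A point orthogonal to both is moved to the third base point, or lies on their line. -/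
theorem exists_move_three {c : Pt6} (hc : herm6 c.1 ptE.1 = 0) (hc' : herm6 c.1 ptR0.1 = 0)
    (hne : L.f c ≠ L.f ptE) (hne' : L.f c ≠ L.f ptR0) :
    (∃ x ∈ Subgroup.closure D.T0, x * L.f c * x⁻¹ = L.f ptR1 ∧
      x * L.f ptE * x⁻¹ = L.f ptE ∧ x * L.f ptR0 * x⁻¹ = L.f ptR0) ∨
    ∃ β : K4, β ≠ 0 ∧ L.f c = L.f (ptL β) := by
  by_cases hl : c.1 4 = 0 ∧ c.1 5 = 0
  · right
    have hpl := planeER c.1 hc hc' hl
    have h0 : c.1 0 ≠ 0 := fun e => hne' (L.f_eq_of_smul (c.1 2) (by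
      rw [e, zero_smul, zero_add] at hpl; exact hpl)).symm
    have h2 : c.1 2 ≠ 0 := fun e => hne (L.f_eq_of_smul (c.1 0) (by
      rw [e, zero_smul, add_zero] at hpl; exact hpl)).symm
    refine ⟨(c.1 0)⁻¹ * c.1 2, mul_ne_zero (inv_ne_zero h0) h2, (L.f_eq_of_smul (c.1 0) ?_).symm⟩
    show c.1 = c.1 0 • (ptE.1 + ((c.1 0)⁻¹ * c.1 2) • ptR0.1)
    rw [smul_add, smul_smul, mul_inv_cancel_left₀ h0]
    exact hpl
  left
  by_cases h : herm6 c.1 ptR1.1 = 0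
  · obtain ⟨d, -, hd, h0, h0', h1, h2⟩ := stageC c.1 h hc hc' hl
    obtain ⟨x, hx, e, hs⟩ := L.exists_two_steps (d := ⟨d, hd⟩) (t := ptR1) h1 h2
    exact ⟨x, hx, e, hs _ (herm6_zero_symm hc) (herm6_zero_symm h0) (by decide),
      hs _ (herm6_zero_symm hc') (herm6_zero_symm h0') (by decide)⟩
  · obtain ⟨x, hx, e, hs⟩ := L.exists_step h
    exact ⟨x, hx, e, hs _ (herm6_zero_symm hc) (by decide), hs _ (herm6_zero_symm hc') (by decide)⟩

theorem eq_of_conj_eq {x y : X} (h : ∀ v, x * L.f v * x⁻¹ = y * L.f v * y⁻¹) : x = y := by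
  refine (inv_mul_eq_one.1 (L.centralizer (y⁻¹ * x) fun t ht => ?_)).symm
  obtain ⟨v, rfl⟩ := L.surj t ht
  refine mul_inv_eq_iff_eq_mul.1 ?_
  calc y⁻¹ * x * L.f v * (y⁻¹ * x)⁻¹ = y⁻¹ * (x * L.f v * x⁻¹) * y := by group
    _ = L.f v := by rw [h v]; group

/-- Three members on a line multiply to a product of two. -/
theorem line_prod {β : K4} (hβ : β ≠ 0) :
    L.f ptE * L.f ptR0 * L.f (ptL β) = L.f (ptL (K4.om * β)) * L.f (ptL (K4.om2 * β)) := by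
  refine L.eq_of_conj_eq fun v => ?_
  have h3 : L.f ptE * L.f ptR0 * L.f (ptL β) * L.f v * (L.f ptE * L.f ptR0 * L.f (ptL β))⁻¹ =
      L.f (Pt6.refl ptE (Pt6.refl ptR0 (Pt6.refl (ptL β) v))) := by
    rw [← L.conj_f, ← L.conj_f, ← L.conj_f]; group
  have h2 : L.f (ptL (K4.om * β)) * L.f (ptL (K4.om2 * β)) * L.f v *
      (L.f (ptL (K4.om * β)) * L.f (ptL (K4.om2 * β)))⁻¹ =
      L.f (Pt6.refl (ptL (K4.om * β)) (Pt6.refl (ptL (K4.om2 * β)) v)) := by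
    rw [← L.conj_f, ← L.conj_f]; group
  rw [h3, h2]
  exact congrArg L.f (Subtype.ext (line_refl v.1 β hβ))

end Labelling

end CfsgLib.FischerLarge.U62
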