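import Cfsg.Agent.Lib.FischerLarge.U62.Points
import Cfsg.Agent.Lib.FischerLarge.U62.Moves
import Cfsg.Agent.Lib.FischerLarge.U62.Closure
import Cfsg.Agent.Lib.ClassicalForms.Unitary.Center
import Cfsg.Agent.Lib.FischerLarge.U62.Iso

/-!
FischerLarge/U62: a lower bound for the centraliser of the product of two commuting members.
-/

set_option autoImplicit false

namespace CfsgLib.FischerLarge.U62

variable {X : Type*} [Group X]

attribute [local irreducible] points6 perp6

/-- A subgroup is at most as large as its orbit on an element times the stabiliser of that element. -/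
theorem card_le_orbit_mul [Finite X] (H : Subgroup X) (a : X) {ι : Type*} (S : Finset ι) (f : ι → X)
    (hS : ∀ g ∈ H, ∃ i ∈ S, g * a * g⁻¹ = f i) :
    Nat.card H ≤ S.card * Nat.card ↥(H ⊓ Subgroup.centralizer ({a} : Set X)) := by
  classical
  have hle : (H ⊓ Subgroup.centralizer ({a} : Set X)) ≤ H := inf_le_left
  rw [← Nat.card_congr (Subgroup.subgroupOfEquivOfLe hle).toEquiv,
    Subgroup.card_eq_card_quotient_mul_card_subgroup
      ((H ⊓ Subgroup.centralizer ({a} : Set X)).subgroupOf H)]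
  refine Nat.mul_le_mul_right _ ?_
  choose i hi hie using fun g : H => hS g g.2
  let F : H ⧸ ((H ⊓ Subgroup.centralizer ({a} : Set X)).subgroupOf H) → {i // i ∈ S} := fun x =>
    ⟨i x.out, hi _⟩
  have hF : Function.Injective F := by
    intro x y e
    have h1 : (x.out : X) * a * (x.out : X)⁻¹ = (y.out : X) * a * (y.out : X)⁻¹ := by
      rw [hie, hie, show i x.out = i y.out from congrArg Subtype.val e]
    rw [← QuotientGroup.out_eq' x, ← QuotientGroup.out_eq' y]
    refine QuotientGroup.eq.2 ?_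
    rw [Subgroup.mem_subgroupOf, Subgroup.mem_inf, Subgroup.mem_centralizer_singleton_iff]
    refine ⟨Subtype.coe_prop _, ?_⟩
    simp only [Subgroup.coe_mul, Subgroup.coe_inv]
    calc (x.out : X)⁻¹ * y.out * a
        = (x.out : X)⁻¹ * ((y.out : X) * a * (y.out : X)⁻¹) * y.out := by group
      _ = a * ((x.out : X)⁻¹ * y.out) := by rw [← h1]; group
  calc Nat.card (H ⧸ ((H ⊓ Subgroup.centralizer ({a} : Set X)).subgroupOf H))
      ≤ Nat.card {i // i ∈ S} := Nat.card_le_card_of_injective F hF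
    _ = S.card := by rw [Nat.card_eq_fintype_card, Fintype.card_coe]

namespace Labelling

variable [Finite X] {D : Local X} (L : Labelling D)
include L

/-- The centraliser of `z * u0` in the component group has order at least `147456`. -/
theorem card_centralizer_ge_of_card (hcard : 9196830720 ≤ Nat.card ↥(Subgroup.closure D.T0))
    (hswap : ∃ g ∈ Subgroup.closure D.T0, g * D.z * g⁻¹ = D.u0 ∧ g * D.u0 * g⁻¹ = D.z) :
    147456 ≤ Nat.card ↥(Subgroup.centralizer ({D.z * D.u0} : Set X) ⊓ Subgroup.closure D.T0) := by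
  classical
  set H := Subgroup.closure D.T0
  have hsq : ∀ y ∈ D.T0, y * y = 1 := fun y hy => by
    obtain ⟨v, rfl⟩ := L.surj y hy
    exact L.f_sq v
  have hzT : D.z ∈ D.T0 := Or.inl rfl
  have hb : Iso6 baseV6 := by decide
  have hr : Iso6 (emb4 r0) := by decide
  have hu : L.f ⟨emb4 r0, hr⟩ = D.u0 := L.base₀ _ rfl
  have hpt : ∀ (v : Pt6), ∃ p, ∃ h : Iso6 p, p = (lead6 v.1)⁻¹ • v.1 ∧ L.f v = L.f ⟨p, h⟩ := fun v => by
    obtain ⟨hm, h0⟩ := exists_point6 v.2
    have hiso : Iso6 ((lead6 v.1)⁻¹ • v.1) := by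
      refine ⟨smul_ne_zero (inv_ne_zero h0) v.2.1, ?_⟩
      rw [herm6_smul_left, herm6_smul_right, v.2.2, mul_zero, mul_zero]
    exact ⟨_, hiso, rfl, (L.eq_iff _ _).2 ⟨(lead6 v.1)⁻¹, rfl⟩⟩
  let g6 : V6 → X := fun p => if h : Iso6 p then L.f ⟨p, h⟩ else 1
  have h1 := card_le_orbit_mul H D.z points6.toFinset g6 fun g hg => by
    obtain ⟨v, hv⟩ := L.surj _ (Local.conj_mem_T0 L hg hzT hsq)
    obtain ⟨p, hp, rfl, e⟩ := hpt v
    refine ⟨_, List.mem_toFinset.2 (exists_point6 v.2).1, ?_⟩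
    rw [← hv, e]
    simp only [g6, dif_pos hp]
  set H1 := H ⊓ Subgroup.centralizer ({D.z} : Set X) with hH1
  have h2 := card_le_orbit_mul H1 D.u0 perp6.toFinset g6 fun g hg => by
    rw [Subgroup.mem_inf, Subgroup.mem_centralizer_singleton_iff] at hg
    obtain ⟨v, hv⟩ := L.surj _ (Local.conj_mem_T0 L hg.1 (hu ▸ L.mem _) hsq)
    have hgz : g * D.z * g⁻¹ = D.z := by rw [hg.2]; group
    have hc : L.f v * L.f ptE = L.f ptE * L.f v := by
      rw [hv, L.base]
      calc g * D.u0 * g⁻¹ * D.z = g * D.u0 * g⁻¹ * (g * D.z * g⁻¹) := by rw [hgz]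
        _ = g * (D.u0 * D.z) * g⁻¹ := by group
        _ = g * (D.z * D.u0) * g⁻¹ := by rw [D.u0_comm]
        _ = (g * D.z * g⁻¹) * (g * D.u0 * g⁻¹) := by group
        _ = _ := by rw [hgz]
    have hperp : herm6 v.1 baseV6 = 0 := by rw [baseV6_eq]; exact L.herm6_of_commute hc.symm
    have hne : ∀ a : K4, v.1 ≠ a • baseV6 := fun a e => by
      have e1 : L.f v = D.z := by rw [← L.base]; exact ((L.eq_iff ptE v).2 ⟨a, baseV6_eq ▸ e⟩).symm
      rw [hv] at e1
      have e2 : L.f ⟨emb4 r0, hr⟩ = L.f ptE := by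
        rw [hu, L.base, ← (mul_left_cancel (mul_right_cancel (e1.trans hgz.symm)) : D.u0 = D.z)]
      obtain ⟨b, hb'⟩ := (L.eq_iff _ _).1 e2.symm
      have hd : ∀ b : K4, emb4 r0 ≠ b • ptE.1 := by decide
      exact hd b hb'
    obtain ⟨p, hp, rfl, e⟩ := hpt v
    refine ⟨_, List.mem_toFinset.2 (perp6_of v.2 hperp hne), ?_⟩
    rw [← hv, e]
    simp only [g6, dif_pos hp]
  have hl1 : points6.toFinset.card ≤ 693 := length_points6 ▸ List.toFinset_card_le _
  have hl2 : perp6.toFinset.card ≤ 180 := length_perp6 ▸ List.toFinset_card_le _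
  set H2 := H1 ⊓ Subgroup.centralizer ({D.u0} : Set X) with hH2
  set H3 := Subgroup.centralizer ({D.z * D.u0} : Set X) ⊓ H
  obtain ⟨g, hg, hgz, hgu⟩ := hswap
  have hle : H2 ≤ H3 := by
    intro c hc
    simp only [hH2, hH1, Subgroup.mem_inf, Subgroup.mem_centralizer_singleton_iff] at hc
    refine Subgroup.mem_inf.2 ⟨Subgroup.mem_centralizer_singleton_iff.2 ?_, hc.1.1⟩
    rw [← mul_assoc, hc.1.2, mul_assoc, hc.2, mul_assoc]
  have hg3 : g ∈ H3 := by
    refine Subgroup.mem_inf.2 ⟨Subgroup.mem_centralizer_singleton_iff.2 ?_, hg⟩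
    calc g * (D.z * D.u0) = (g * D.z * g⁻¹) * (g * D.u0 * g⁻¹) * g := by group
      _ = D.z * D.u0 * g := by rw [hgz, hgu, D.u0_comm]
  have hg2 : g ∉ H2 := fun h => by
    simp only [hH2, hH1, Subgroup.mem_inf, Subgroup.mem_centralizer_singleton_iff] at h
    rw [h.1.2, mul_inv_cancel_right] at hgz
    have e2 : L.f ⟨emb4 r0, hr⟩ = L.f ptE := by rw [hu, L.base, hgz]
    obtain ⟨b, hb'⟩ := (L.eq_iff _ _).1 e2.symm
    have hd : ∀ b : K4, emb4 r0 ≠ b • ptE.1 := by decide
    exact hd b hb'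
  have hlt : 2 * Nat.card H2 ≤ Nat.card H3 := by
    obtain ⟨k, hk⟩ := Subgroup.card_dvd_of_le hle
    have hne : k ≠ 1 := fun e => hg2 (by
      have := Subgroup.eq_of_le_of_card_ge hle (by rw [hk, e, mul_one])
      rwa [this])
    have hpos : 0 < Nat.card H3 := Nat.card_pos
    have hk0 : k ≠ 0 := fun e => by rw [e, mul_zero] at hk; omega
    rw [hk, mul_comm 2]
    exact Nat.mul_le_mul_left _ (by omega)
  have h3 : Nat.card H ≤ 693 * (180 * Nat.card H2) :=
    le_trans h1 (Nat.mul_le_mul hl1 (le_trans h2 (Nat.mul_le_mul_right _ hl2)))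
  omega

/-- An element of the component group interchanging `z` and `u0`. -/
theorem exists_swap_mem : ∃ g ∈ Subgroup.closure D.T0,
    g * D.z * g⁻¹ = D.u0 ∧ g * D.u0 * g⁻¹ = D.z := by
  have hu : L.f ptR0 = D.u0 := L.base₀ _ (by decide)
  have hd : ∀ b : K4, ptR0.1 ≠ b • ptE.1 := by decide
  have hne : L.f ptR0 ≠ L.f ptE := fun e => by
    obtain ⟨b, hb⟩ := (L.eq_iff _ _).1 e.symm
    exact hd b hb
  obtain ⟨g, hg, e⟩ := L.exists_move_one ptR0
  have hsq : ∀ y ∈ D.T0, y * y = 1 := fun y hy => by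
    obtain ⟨u, rfl⟩ := L.surj y hy
    exact L.f_sq u
  obtain ⟨b, hb⟩ := L.surj _ (Local.conj_mem_T0 L hg (L.mem ptE) hsq)
  have hbE : L.f b ≠ L.f ptE := fun e' =>
    hne (mul_left_cancel (mul_right_cancel (e.trans (e'.symm.trans hb))))
  have hperp : herm6 b.1 ptE.1 = 0 := L.herm6_of_commute (by
    have hc : L.f ptE * L.f ptR0 = L.f ptR0 * L.f ptE := L.f_commute (by decide)
    rw [← e, hb]
    calc g * L.f ptR0 * g⁻¹ * (g * L.f ptE * g⁻¹) = g * (L.f ptR0 * L.f ptE) * g⁻¹ := by group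
      _ = g * (L.f ptE * L.f ptR0) * g⁻¹ := by rw [hc]
      _ = _ := by group)
  obtain ⟨g', hg', e1, e2⟩ := L.exists_move_two hperp hbE
  refine ⟨g' * g, (Subgroup.closure _).mul_mem hg' hg, ?_, ?_⟩
  · rw [← L.base, show g' * g * L.f ptE * (g' * g)⁻¹ = g' * (g * L.f ptE * g⁻¹) * g'⁻¹ by group,
      ← hb, e1, hu]
  · rw [← hu, show g' * g * L.f ptR0 * (g' * g)⁻¹ = g' * (g * L.f ptR0 * g⁻¹) * g'⁻¹ by group,
      e, e2, L.base]

theorem card_centralizer_ge :
    147456 ≤ Nat.card ↥(Subgroup.centralizer ({D.z * D.u0} : Set X) ⊓ Subgroup.closure D.T0) := by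
  refine L.card_centralizer_ge_of_card ?_ L.exists_swap_mem
  obtain ⟨φ, e, -⟩ := L.exists_equiv (F := K4) (rfl : Fintype.card K4 = 4)
  have hF : Nat.card K4 = 2 ^ 2 := K4.card_eq.trans (by norm_num)
  have h1 := CfsgLib.ClassicalForms.card_psu_mul (n := 6) (q := 2) hF (by norm_num)
  rw [← Nat.card_congr e.toEquiv, CfsgLib.ClassicalForms.card_gu hF 6] at h1
  norm_num [Finset.prod_range_succ, Nat.even_iff] at h1
  omega

end Labelling

end CfsgLib.FischerLarge.U62
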