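import Cfsg.Agent.Lib.FischerLarge.U62.Tables

/-!
FischerLarge/U62: facts on isotropic vectors of the four-dimensional hermitian space, by kernel checks.
-/

set_option autoImplicit false

namespace CfsgLib.FischerLarge.U62

/-- A field element from a number. -/
def digit : ℕ → K4
  | 0 => .zero | 1 => .one | 2 => .om | _ => .om2

/-- A number from a field element. -/
def undigit : K4 → ℕ
  | .zero => 0 | .one => 1 | .om => 2 | .om2 => 3

/-- A vector from its code. -/
def dec4 (n : ℕ) : V4 := ![digit (n / 64), digit (n / 16 % 4), digit (n / 4 % 4), digit (n % 4)]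

/-- The code of a vector. -/
def enc4 (v : V4) : ℕ := 64 * undigit (v 0) + 16 * undigit (v 1) + 4 * undigit (v 2) + undigit (v 3)

theorem enc4_lt (v : V4) : enc4 v < 256 := by
  have : ∀ a, undigit a < 4 := by decide
  have h0 := this (v 0); have h1 := this (v 1); have h2 := this (v 2); have h3 := this (v 3)
  simp only [enc4]; omega

theorem dec_enc (v : V4) : dec4 (enc4 v) = v := by
  have hl : ∀ a, undigit a < 4 := by decide
  have hd : ∀ a, digit (undigit a) = a := by decide
  have h0 := hl (v 0); have h1 := hl (v 1); have h2 := hl (v 2); have h3 := hl (v 3)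
  have e : ∀ i, dec4 (enc4 v) i = v i := by
    intro i
    fin_cases i <;> simp [dec4, enc4] <;> refine Eq.trans ?_ (hd _) <;> congr 1 <;> omega
  exact funext e

/-- The value of a word of transvections. -/
def run (l : List V4) (v : V4) : V4 := l.foldr (fun c w => tau c w) v

/-- Equality of vectors as a Boolean. -/
def veq (v w : V4) : Bool := v 0 == w 0 && v 1 == w 1 && v 2 == w 2 && v 3 == w 3

theorem veq_eq {v w : V4} (h : veq v w = true) : v = w := by
  simp only [veq, Bool.and_eq_true, beq_iff_eq] at h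
  funext i; fin_cases i
  exacts [h.1.1.1, h.1.1.2, h.1.2, h.2]

/-- Isotropy as a Boolean. -/
def isoB (v : V4) : Bool := !(veq v 0) && herm v v == 0

theorem isoB_iff (v : V4) : isoB v = true ↔ Iso v := by
  simp only [isoB, Bool.and_eq_true, Bool.not_eq_true', beq_iff_eq, Iso]
  constructor
  · rintro ⟨h1, h2⟩
    refine ⟨fun e => ?_, h2⟩
    subst e; revert h1; decide
  · rintro ⟨h1, h2⟩
    refine ⟨?_, h2⟩
    by_contra h
    exact h1 (veq_eq (Bool.not_eq_false _ ▸ h))

theorem checkAll : ((List.range 256).all fun n => !(isoB (dec4 n)) ||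
    tblAll.any fun e => e.1 == n && e.2.all (fun c => isoB (dec4 c)) &&
      veq (run (e.2.map dec4) r0) (dec4 n)) = true := by decide +kernel

theorem checkOrth : ((List.range 256).all fun n => !(isoB (dec4 n)) || herm (dec4 n) r0 != 0 ||
    (([1, 2, 3] : List ℕ).any fun a => veq (dec4 n) (digit a • r0)) ||
    tblOrth.any fun e => e.1 == n && e.2.1.all (fun c => isoB (dec4 c) && herm r0 (dec4 c) == 0) &&
      digit e.2.2 != 0 && veq (run (e.2.1.map dec4) r1) (digit e.2.2 • dec4 n)) = true := by decide +kernel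

/-- A point not orthogonal to `r0`. -/
def s0 : V4 := ![0, 1, 0, 1]

theorem checkFar : ((List.range 256).all fun n => !(isoB (dec4 n)) || herm (dec4 n) r0 == 0 ||
    tblFar.any fun e => e.1 == n && e.2.1.all (fun c => isoB (dec4 c) && herm r0 (dec4 c) == 0) &&
      digit e.2.2 != 0 && veq (run (e.2.1.map dec4) s0) (digit e.2.2 • dec4 n)) = true := by decide +kernel

theorem of_range {p : ℕ → Bool} (h : (List.range 256).all p = true) (v : V4) : p (enc4 v) = true :=
  List.all_eq_true.1 h _ (List.mem_range.2 (enc4_lt v))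

theorem reach {r : V4} (hr : Iso r) : ∃ l : List V4, (∀ c ∈ l, Iso c) ∧ run l r0 = r := by
  have h := of_range checkAll r
  simp only [dec_enc, (isoB_iff r).2 hr, Bool.not_true, Bool.false_or, List.any_eq_true, Bool.and_eq_true,
    List.all_eq_true] at h
  obtain ⟨e, -, ⟨-, h1⟩, h2⟩ := h
  refine ⟨e.2.map dec4, fun c hc => ?_, veq_eq h2⟩
  obtain ⟨k, hk, rfl⟩ := List.mem_map.1 hc
  exact (isoB_iff _).1 (h1 k hk)

theorem reach_orth {s : V4} (hs : Iso s) (h0 : herm s r0 = 0) :
    (∃ a : K4, s = a • r0) ∨ ∃ a : K4, a ≠ 0 ∧ ∃ l : List V4, (∀ c ∈ l, Iso c ∧ herm r0 c = 0) ∧ run l r1 = a • s := by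
  have h := of_range checkOrth s
  simp only [dec_enc, (isoB_iff s).2 hs, h0, Bool.not_true, Bool.false_or, Bool.or_eq_true, List.any_eq_true,
    Bool.and_eq_true, List.all_eq_true, bne_self_eq_false, beq_iff_eq, bne_iff_ne] at h
  rcases h with ⟨a, -, ha⟩ | ⟨e, -, ⟨⟨-, h1⟩, ha⟩, h2⟩
  · exact Or.inl ⟨digit a, veq_eq ha⟩
  · refine Or.inr ⟨digit e.2.2, ha, e.2.1.map dec4, fun c hc => ?_, veq_eq h2⟩
    obtain ⟨k, hk, rfl⟩ := List.mem_map.1 hc
    exact ⟨(isoB_iff _).1 (h1 k hk).1, (h1 k hk).2⟩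

theorem reach_far {s : V4} (hs : Iso s) (h0 : herm s r0 ≠ 0) :
    ∃ a : K4, a ≠ 0 ∧ ∃ l : List V4, (∀ c ∈ l, Iso c ∧ herm r0 c = 0) ∧ run l s0 = a • s := by
  have h := of_range checkFar s
  simp only [dec_enc, (isoB_iff s).2 hs, Bool.not_true, Bool.false_or, Bool.or_eq_true, List.any_eq_true,
    Bool.and_eq_true, List.all_eq_true, beq_iff_eq, bne_iff_ne, h0, false_or] at h
  obtain ⟨e, -, ⟨⟨-, h1⟩, ha⟩, h2⟩ := h
  refine ⟨digit e.2.2, ha, e.2.1.map dec4, fun c hc => ?_, veq_eq h2⟩
  obtain ⟨k, hk, rfl⟩ := List.mem_map.1 hc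
  exact ⟨(isoB_iff _).1 (h1 k hk).1, (h1 k hk).2⟩

theorem checkSub : ((List.range 256).all fun n => !(isoB (dec4 n)) ||
    ((([1, 2, 3] : List ℕ).any fun a => veq (dec4 n) (digit a • r0))) ||
    (List.range 256).any fun k => isoB (dec4 k) && herm (dec4 k) r0 == 0 && herm (dec4 k) (dec4 n) != 0) = true := by
  decide +kernel

theorem checkCommon : ((List.range 256).all fun n => !(isoB (dec4 n)) ||
    (List.range 256).any fun k => isoB (dec4 k) && herm (dec4 k) r0 == 0 && herm (dec4 k) (dec4 n) == 0) = true := by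
  decide +kernel

theorem sub_perp0 {s : V4} (hs : Iso s) (h : ∀ k, Iso k → herm k r0 = 0 → herm k s = 0) :
    ∃ a : K4, s = a • r0 := by
  have hc := of_range checkSub s
  simp only [dec_enc, (isoB_iff s).2 hs, Bool.not_true, Bool.false_or, Bool.or_eq_true, List.any_eq_true,
    Bool.and_eq_true, beq_iff_eq, bne_iff_ne] at hc
  rcases hc with ⟨a, -, ha⟩ | ⟨k, -, ⟨h1, h2⟩, h3⟩
  · exact ⟨_, veq_eq ha⟩
  · exact absurd (h _ ((isoB_iff _).1 h1) h2) h3

theorem common0 {s : V4} (hs : Iso s) : ∃ k, Iso k ∧ herm k r0 = 0 ∧ herm k s = 0 := by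
  have hc := of_range checkCommon s
  simp only [dec_enc, (isoB_iff s).2 hs, Bool.not_true, Bool.false_or, List.any_eq_true,
    Bool.and_eq_true, beq_iff_eq] at hc
  obtain ⟨k, -, ⟨h1, h2⟩, h3⟩ := hc
  exact ⟨_, (isoB_iff _).1 h1, h2, h3⟩

/-- The twelve points orthogonal to `r0`, other than it. -/
def orth0 (i : Fin 12) : V4 := dec4 (([5, 6, 7, 85, 86, 87, 89, 90, 91, 93, 94, 95] : List ℕ).getD i.val 0)

/-- The three points orthogonal to `r0` and `s0`. -/
def com0 (j : Fin 3) : V4 := dec4 (([85, 89, 93] : List ℕ).getD j.val 0)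

theorem checkPerp : ((List.range 256).all fun n => !(isoB (dec4 n)) || herm (dec4 n) r0 != 0 ||
    ((([1, 2, 3] : List ℕ).any fun a => veq (dec4 n) (digit a • r0))) ||
    (List.finRange 12).any fun i => ([1, 2, 3] : List ℕ).any fun a => veq (dec4 n) (digit a • orth0 i)) = true := by
  decide +kernel

theorem perp0 {s : V4} (hs : Iso s) (h : herm s r0 = 0) :
    (∃ a : K4, s = a • r0) ∨ ∃ i, ∃ a : K4, s = a • orth0 i := by
  have hc := of_range checkPerp s
  simp only [dec_enc, (isoB_iff s).2 hs, h, Bool.not_true, Bool.false_or, bne_self_eq_false, Bool.or_eq_true,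
    List.any_eq_true] at hc
  rcases hc with ⟨a, -, ha⟩ | ⟨i, -, a, -, ha⟩
  · exact Or.inl ⟨_, veq_eq ha⟩
  · exact Or.inr ⟨i, _, veq_eq ha⟩

theorem checkCom : ((List.finRange 3).all fun j => isoB (com0 j) && herm (com0 j) r0 == 0 &&
    herm (com0 j) s0 == 0 && ([1, 2, 3] : List ℕ).all (fun a => !veq (com0 j) (digit a • r0)) &&
    (List.finRange 3).all fun k => j == k || ([1, 2, 3] : List ℕ).all fun a => !veq (com0 j) (digit a • com0 k)) = true := by
  decide +kernel

theorem com0_spec (j : Fin 3) : Iso (com0 j) ∧ herm (com0 j) r0 = 0 ∧ herm (com0 j) s0 = 0 := by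
  have hc := List.all_eq_true.1 checkCom j (List.mem_finRange j)
  simp only [Bool.and_eq_true, beq_iff_eq] at hc
  exact ⟨(isoB_iff _).1 hc.1.1.1.1, hc.1.1.1.2, hc.1.1.2⟩

theorem com0_indep {j k : Fin 3} {a : K4} (h : com0 j = a • com0 k) : j = k := by
  by_contra hne
  have hc := List.all_eq_true.1 checkCom j (List.mem_finRange j)
  simp only [Bool.and_eq_true, Bool.or_eq_true, beq_iff_eq, List.all_eq_true] at hc
  have h2 := (hc.2 k (List.mem_finRange k)).resolve_left hne
  have ha : a ≠ 0 := by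
    rintro rfl
    exact (com0_spec j).1.1 (by rw [h, zero_smul])
  obtain ⟨m, hm, rfl⟩ : ∃ m ∈ ([1, 2, 3] : List ℕ), digit m = a := by
    rcases K4.cases4 a with rfl | rfl | rfl | rfl
    · exact absurd rfl ha
    exacts [⟨1, by simp, rfl⟩, ⟨2, by simp, rfl⟩, ⟨3, by simp, rfl⟩]
  have := h2 m hm
  rw [h] at this
  simp [veq] at this

theorem span0 {P : V4 → Prop} (hadd : ∀ u v, P u → P v → P (u + v)) (h0 : ∀ r, Iso r → P r) (v : V4) : P v := by
  have hz : P 0 := by
    have := hadd _ _ (h0 r0 (by decide)) (h0 r0 (by decide))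
    rwa [show r0 + r0 = 0 by decide] at this
  have hb : ∀ (i : Fin 4) (a : K4), P (Pi.single i a) := by
    intro i a
    have hd : ∀ (i : Fin 4) (a : K4), a = 0 ∨ ∃ j : Fin 4, ∃ b : K4,
        Iso ((Pi.single j (b * K4.om) : V4) + Pi.single i (b * K4.om2)) ∧
        Iso ((Pi.single j (b * K4.om) : V4) + Pi.single i (b * 1)) ∧
          b * K4.om2 + b * 1 = a := by decide +kernel
    rcases hd i a with rfl | ⟨j, b, h1, h2, h3⟩
    · rwa [Pi.single_zero]
    · have := hadd _ _ (h0 _ h1) (h0 _ h2)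
      have e : (Pi.single j (b * K4.om) : V4) + Pi.single i (b * K4.om2) +
          (Pi.single j (b * K4.om) + Pi.single i (b * 1)) = Pi.single i a := by
        rw [← h3, Pi.single_add]
        funext m
        simp only [Pi.add_apply]
        linear_combination K4.add_self ((Pi.single j (b * K4.om) : V4) m)
      rwa [e] at this
  have hv : v = Pi.single 0 (v 0) + Pi.single 1 (v 1) + Pi.single 2 (v 2) + Pi.single 3 (v 3) := by
    funext m; fin_cases m <;> simp
  rw [hv]
  exact hadd _ _ (hadd _ _ (hadd _ _ (hb _ _) (hb _ _)) (hb _ _)) (hb _ _)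

end CfsgLib.FischerLarge.U62
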