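import Cfsg.Agent.Lib.FischerLarge.U62.Moves
import Cfsg.Agent.Lib.FischerLarge.U62.Closure
import Cfsg.Agent.Lib.FischerLarge.U62.Iso
import Cfsg.Agent.Lib.Fischer.UnitaryInvolution

/-!
FischerLarge/U62: the involutions of the component group fall into the classes of `z`, `z * u0` and
`z * u0 * u1`.
-/

set_option autoImplicit false

namespace CfsgLib.FischerLarge.U62

open CfsgLib.InvChar.UnitaryTVTwo

theorem conj_sq_K4 : ∀ a : K4, K4.conj a = a * a := by decide

theorem herm6_eq_hermForm {F : Type*} [Field F] (φ : K4 ≃+* F) (v w : V6) :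
    Cfsg.hermForm 6 F 2 (fun i => φ (v i)) (fun i => φ (w i)) = φ (herm6 v w) := by
  simp only [Cfsg.hermForm, herm6, Fin.sum_univ_six, map_add, map_mul, conj_sq_K4, pow_two]

namespace Labelling

set_option linter.unusedSectionVars false

variable {X : Type*} [Group X] [Finite X] {D : Local X} (L : Labelling D)
include L

theorem f_ptR0 : L.f ptR0 = D.u0 := L.base₀ _ (by decide)

/-- Every member of the component is conjugate to `z` in the group it generates. -/
theorem exists_conj_z {x : X} (hx : x ∈ D.T0) :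
    ∃ h ∈ Subgroup.closure D.T0, h * D.z * h⁻¹ = x := by
  obtain ⟨a, rfl⟩ := L.surj x hx
  obtain ⟨g, hg, e⟩ := L.exists_move_one a
  exact ⟨g⁻¹, (Subgroup.closure _).inv_mem hg, by rw [← L.base, ← e]; group⟩

omit L in
theorem conj_commute {g a b : X} (h : a * b = b * a) :
    g * a * g⁻¹ * (g * b * g⁻¹) = g * b * g⁻¹ * (g * a * g⁻¹) := by
  calc g * a * g⁻¹ * (g * b * g⁻¹) = g * (a * b) * g⁻¹ := by group
    _ = g * (b * a) * g⁻¹ := by rw [h]
    _ = _ := by group

/-- Conjugates of members are members. -/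
theorem move_point {g : X} (hg : g ∈ Subgroup.closure D.T0) (v : Pt6) :
    ∃ v', g * L.f v * g⁻¹ = L.f v' := by
  have hsq : ∀ y ∈ D.T0, y * y = 1 := fun y hy => by
    obtain ⟨u, rfl⟩ := L.surj y hy
    exact L.f_sq u
  obtain ⟨v', hv'⟩ := L.surj _ (Local.conj_mem_T0 L hg (L.mem v) hsq)
  exact ⟨v', hv'.symm⟩

/-- Two commuting different members. -/
theorem pair_case {a b : Pt6} (hab : L.f a * L.f b = L.f b * L.f a) (hne : L.f a ≠ L.f b) :
    ∃ h ∈ Subgroup.closure D.T0, h * (D.z * D.u0) * h⁻¹ = L.f a * L.f b := by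
  obtain ⟨g, hg, ea⟩ := L.exists_move_one a
  obtain ⟨b', eb⟩ := L.move_point hg b
  have hb'E : L.f b' ≠ L.f ptE := fun e => hne (mul_left_cancel (mul_right_cancel
    (ea.trans (e.symm.trans eb.symm))))
  have hperp : herm6 b'.1 ptE.1 = 0 := L.herm6_of_commute (by
    rw [← eb, ← ea]; exact conj_commute hab)
  obtain ⟨g', hg', eb', ee⟩ := L.exists_move_two hperp hb'E
  refine ⟨(g' * g)⁻¹, (Subgroup.closure _).inv_mem ((Subgroup.closure _).mul_mem hg' hg), ?_⟩
  have e1 : g' * g * (L.f a * L.f b) * (g' * g)⁻¹ = D.z * D.u0 := by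
    calc g' * g * (L.f a * L.f b) * (g' * g)⁻¹
        = g' * (g * L.f a * g⁻¹) * g'⁻¹ * (g' * (g * L.f b * g⁻¹) * g'⁻¹) := by group
      _ = _ := by rw [ea, eb, eb', ee, L.base, L.f_ptR0]
  rw [← e1]
  group

/-- Three commuting members, pairwise different. -/
theorem triple_case {a b c : Pt6} (hab : L.f a * L.f b = L.f b * L.f a)
    (hac : L.f a * L.f c = L.f c * L.f a) (hbc : L.f b * L.f c = L.f c * L.f b)
    (h1 : L.f a * L.f b * L.f c ≠ 1) (nab : L.f a ≠ L.f b) (nac : L.f a ≠ L.f c)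
    (nbc : L.f b ≠ L.f c) :
    ∃ h ∈ Subgroup.closure D.T0, h * (D.z * D.u0) * h⁻¹ = L.f a * L.f b * L.f c ∨
      h * (D.z * D.u0 * L.f ptR1) * h⁻¹ = L.f a * L.f b * L.f c := by
  obtain ⟨g, hg, ea⟩ := L.exists_move_one a
  obtain ⟨b', eb⟩ := L.move_point hg b
  have hb'E : L.f b' ≠ L.f ptE := fun e => nab (mul_left_cancel (mul_right_cancel
    (ea.trans (e.symm.trans eb.symm))))
  obtain ⟨g', hg', eb', ee⟩ := L.exists_move_two
    (L.herm6_of_commute (by rw [← eb, ← ea]; exact conj_commute hab)) hb'E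
  set G := g' * g with hG
  have hGm : G ∈ Subgroup.closure D.T0 := (Subgroup.closure _).mul_mem hg' hg
  have eA : G * L.f a * G⁻¹ = L.f ptE := by
    rw [hG, show g' * g * L.f a * (g' * g)⁻¹ = g' * (g * L.f a * g⁻¹) * g'⁻¹ by group, ea, ee]
  have eB : G * L.f b * G⁻¹ = L.f ptR0 := by
    rw [hG, show g' * g * L.f b * (g' * g)⁻¹ = g' * (g * L.f b * g⁻¹) * g'⁻¹ by group, eb, eb']
  obtain ⟨c', ec⟩ := L.move_point hGm c
  have hc1 : herm6 c'.1 ptE.1 = 0 := L.herm6_of_commute (by rw [← ec, ← eA]; exact conj_commute hac)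
  have hc2 : herm6 c'.1 ptR0.1 = 0 := L.herm6_of_commute (by rw [← ec, ← eB]; exact conj_commute hbc)
  have n1 : L.f c' ≠ L.f ptE := fun e => nac (mul_left_cancel (mul_right_cancel
    (eA.trans (e.symm.trans ec.symm))))
  have n2 : L.f c' ≠ L.f ptR0 := fun e => nbc (mul_left_cancel (mul_right_cancel
    (eB.trans (e.symm.trans ec.symm))))
  have eP : G * (L.f a * L.f b * L.f c) * G⁻¹ = L.f ptE * L.f ptR0 * L.f c' := by
    rw [← eA, ← eB, ← ec]; group
  rcases L.exists_move_three hc1 hc2 n1 n2 with ⟨k, hk, e1, e2, e3⟩ | ⟨β, hβ, eβ⟩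
  · refine ⟨(k * G)⁻¹, (Subgroup.closure _).inv_mem ((Subgroup.closure _).mul_mem hk hGm), Or.inr ?_⟩
    have e4 : k * G * (L.f a * L.f b * L.f c) * (k * G)⁻¹ = D.z * D.u0 * L.f ptR1 := by
      calc k * G * (L.f a * L.f b * L.f c) * (k * G)⁻¹
          = k * (G * (L.f a * L.f b * L.f c) * G⁻¹) * k⁻¹ := by group
        _ = k * L.f ptE * k⁻¹ * (k * L.f ptR0 * k⁻¹) * (k * L.f c' * k⁻¹) := by rw [eP]; group
        _ = _ := by rw [e1, e2, e3, L.base, L.f_ptR0]
    rw [← e4]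
    group
  · rw [eβ, L.line_prod hβ] at eP
    have hne : L.f (ptL (K4.om * β)) ≠ L.f (ptL (K4.om2 * β)) := fun e => by
      rw [e, L.f_sq, conj_eq_one_iff] at eP
      exact h1 eP
    obtain ⟨m, hm, em⟩ := L.pair_case (L.f_commute (line_orth₂ _ _)) hne
    refine ⟨G⁻¹ * m, (Subgroup.closure _).mul_mem ((Subgroup.closure _).inv_mem hGm) hm, Or.inl ?_⟩
    rw [← eP] at em
    calc G⁻¹ * m * (D.z * D.u0) * (G⁻¹ * m)⁻¹ = G⁻¹ * (m * (D.z * D.u0) * m⁻¹) * G := by group
      _ = L.f a * L.f b * L.f c := by rw [em]; group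

/-- The classes of involutions of the component group. -/
theorem involution_cases {x : X} (hx : x ∈ Subgroup.closure D.T0) (h2 : x * x = 1)
    (h1 : x ≠ 1) :
    ∃ h ∈ Subgroup.closure D.T0, h * D.z * h⁻¹ = x ∨ h * (D.z * D.u0) * h⁻¹ = x ∨
      h * (D.z * D.u0 * L.f ptR1) * h⁻¹ = x := by
  have hF : Fintype.card K4 = 4 := rfl
  obtain ⟨φ, e, he⟩ := L.exists_equiv hF
  obtain ⟨l, hlen, hl, hcomm, hprod⟩ := CfsgLib.Fischer.UnitaryInvolution.exists_pv_list hF
    (x := e ⟨x, hx⟩) (by rw [← map_mul, show (⟨x, hx⟩ : Subgroup.closure D.T0) * ⟨x, hx⟩ = 1 from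
      Subtype.ext h2, map_one])
  have hpt : ∀ p ∈ l, ∃ a : Pt6, e ⟨L.f a, L.mem_closure a⟩ = p := by
    intro p hp
    obtain ⟨v, hv, hv0, rfl⟩ := hl p hp
    have hvw : (fun i => φ (φ.symm (v i))) = v := funext fun i => φ.apply_symm_apply _
    have hiso : Iso6 (fun i => φ.symm (v i)) := by
      refine ⟨fun h0 => hv0 ?_, φ.injective ?_⟩
      · funext i
        exact φ.symm.injective ((congrFun h0 i).trans (map_zero φ.symm).symm)
      · rw [← herm6_eq_hermForm, hvw, map_zero]; exact hv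
    obtain ⟨hv', ea⟩ := he ⟨_, hiso⟩
    exact ⟨⟨_, hiso⟩, ea.trans (pv_congr hF hv' hv hvw)⟩
  have hfc : ∀ a b : Pt6, Commute (e ⟨L.f a, L.mem_closure a⟩) (e ⟨L.f b, L.mem_closure b⟩) →
      L.f a * L.f b = L.f b * L.f a := by
    intro a b h
    have h' := h.eq
    rw [← map_mul, ← map_mul] at h'
    exact congrArg Subtype.val (e.injective h')
  match l, hlen, hpt, hcomm, hprod with
  | [], _, _, _, hprod =>
    have : (⟨x, hx⟩ : Subgroup.closure D.T0) = 1 := e.injective (by simpa using hprod.symm)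
    exact absurd (congrArg Subtype.val this) h1
  | [p], _, hpt, _, hprod =>
    obtain ⟨a, rfl⟩ := hpt p (by simp)
    have : (⟨L.f a, L.mem_closure a⟩ : Subgroup.closure D.T0) = ⟨x, hx⟩ :=
      e.injective (by simpa using hprod)
    obtain ⟨h, hh, eh⟩ := L.exists_conj_z (L.mem a)
    exact ⟨h, hh, Or.inl (eh.trans (congrArg Subtype.val this))⟩
  | [p, q], _, hpt, hcomm, hprod =>
    obtain ⟨a, rfl⟩ := hpt p (by simp)
    obtain ⟨b, rfl⟩ := hpt q (by simp)
    have hx' : L.f a * L.f b = x := congrArg Subtype.val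
      (e.injective ((map_mul e _ _).trans (by simpa using hprod)) :
        (⟨L.f a, L.mem_closure a⟩ : Subgroup.closure D.T0) * ⟨L.f b, L.mem_closure b⟩ = ⟨x, hx⟩)
    have hab := hfc a b (hcomm _ (by simp) _ (by simp))
    by_cases hne : L.f a = L.f b
    · rw [hne, L.f_sq] at hx'
      exact absurd hx'.symm h1
    obtain ⟨h, hh, eh⟩ := L.pair_case hab hne
    exact ⟨h, hh, Or.inr (Or.inl (eh.trans hx'))⟩
  | [p, q, r], _, hpt, hcomm, hprod =>
    obtain ⟨a, rfl⟩ := hpt p (by simp)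
    obtain ⟨b, rfl⟩ := hpt q (by simp)
    obtain ⟨c, rfl⟩ := hpt r (by simp)
    have hx' : L.f a * L.f b * L.f c = x := congrArg Subtype.val
      (e.injective (by rw [map_mul, map_mul, mul_assoc]; simpa using hprod) :
        (⟨L.f a, L.mem_closure a⟩ : Subgroup.closure D.T0) * ⟨L.f b, L.mem_closure b⟩ *
          ⟨L.f c, L.mem_closure c⟩ = ⟨x, hx⟩)
    have hab := hfc a b (hcomm _ (by simp) _ (by simp))
    have hac := hfc a c (hcomm _ (by simp) _ (by simp))
    have hbc := hfc b c (hcomm _ (by simp) _ (by simp))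
    have single : ∀ d : Pt6, L.f d = x → ∃ h ∈ Subgroup.closure D.T0, h * D.z * h⁻¹ = x ∨
        h * (D.z * D.u0) * h⁻¹ = x ∨ h * (D.z * D.u0 * L.f ptR1) * h⁻¹ = x := fun d hd => by
      obtain ⟨h, hh, eh⟩ := L.exists_conj_z (L.mem d)
      exact ⟨h, hh, Or.inl (eh.trans hd)⟩
    by_cases nab : L.f a = L.f b
    · rw [nab, L.f_sq, one_mul] at hx'
      exact single c hx'
    by_cases nac : L.f a = L.f c
    · rw [hab, mul_assoc, nac, L.f_sq, mul_one] at hx'
      exact single b hx'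
    by_cases nbc : L.f b = L.f c
    · rw [mul_assoc, nbc, L.f_sq, mul_one] at hx'
      exact single a hx'
    obtain ⟨h, hh, eh⟩ := L.triple_case hab hac hbc (hx' ▸ h1) nab nac nbc
    rw [hx'] at eh
    exact ⟨h, hh, Or.inr eh⟩
  | _ :: _ :: _ :: _ :: _, hlen, _, _, _ =>
    exact absurd hlen (by simp)

theorem third_sq : D.z * D.u0 * L.f ptR1 * (D.z * D.u0 * L.f ptR1) = 1 := by
  have h1 : L.f ptR1 * (D.z * D.u0) = D.z * D.u0 * L.f ptR1 := by
    rw [← L.base, ← L.f_ptR0]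
    exact (Commute.mul_right (L.f_commute (by decide) : Commute (L.f ptR1) (L.f ptE))
      (L.f_commute (by decide) : Commute (L.f ptR1) (L.f ptR0))).eq
  calc D.z * D.u0 * L.f ptR1 * (D.z * D.u0 * L.f ptR1)
      = D.z * D.u0 * (L.f ptR1 * (D.z * D.u0)) * L.f ptR1 := by group
    _ = D.z * (D.u0 * D.z) * D.u0 * (L.f ptR1 * L.f ptR1) := by rw [h1]; group
    _ = 1 := by
      rw [D.u0_comm, L.f_sq, ← mul_assoc, D.z_sq, one_mul, mul_one, ← L.f_ptR0, L.f_sq]

theorem third_mem : D.z * D.u0 * L.f ptR1 ∈ Subgroup.closure D.T0 := by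
  rw [← L.base, ← L.f_ptR0]
  exact (Subgroup.closure _).mul_mem ((Subgroup.closure _).mul_mem (L.mem_closure _) (L.mem_closure _))
    (L.mem_closure _)

theorem third_ne : D.z * D.u0 * L.f ptR1 ≠ 1 := by
  intro h
  obtain ⟨g, -, e⟩ := L.exists_conj_z (L.mem ptR1)
  refine D.not_conj (isConj_iff.2 ⟨g, ?_⟩)
  rw [e]
  exact (mul_eq_one_iff_eq_inv.1 h).trans (L.f_inv _) |>.symm

end Labelling

end CfsgLib.FischerLarge.U62
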