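import Cfsg.Agent.Lib.FischerLarge.U62.Witt
import Cfsg.Agent.Lib.FischerLarge.StabSixMinus

/-!
FischerLarge/U62: coordinates on the orthogonal space of a vector of the short orbit; its stabiliser acts as
the special unitary group.
-/

set_option autoImplicit false
set_option linter.style.haveILetI false
set_option linter.unusedSectionVars false

namespace CfsgLib.FischerLarge.U62

open scoped Classical
open Cfsg Matrix CfsgLib.Fischer.UnitaryPoint

variable {V : Type*} [AddCommGroup V] [Module K4 V] [Finite V] {P : Type*} [Group P] [Finite P]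

/-- Coordinates on `v^⊥/⟨v⟩`. -/
structure Coord (L : Subgroup (V ≃ₗ[K4] V)) (h : V → V → K4) (v : V) (φ : V →ₗ[K4] V4) : Prop where
  zero : φ v = 0
  herm : ∀ a b, h a v = 0 → h b v = 0 → U62.herm (φ a) (φ b) = h a b
  ker : ∀ a, h a v = 0 → φ a = 0 → ∃ k : K4, a = k • v
  surj : ∀ w, ∃ a, h a v = 0 ∧ φ a = w
  act : ∀ g ∈ L, g v = v → ∃ B : Cfsg.SU 4 K4 2, ∀ a, h a v = 0 → φ (g a) = mat B *ᵥ φ a
  real : ∀ B : Cfsg.SU 4 K4 2, ∃ g ∈ L, g v = v ∧ ∀ a, h a v = 0 → φ (g a) = mat B *ᵥ φ a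
  faithful : ∀ g ∈ L, g v = v → (∀ a, h a v = 0 → φ (g a) = φ a) → g = 1

/-- A change of coordinates by an isometry. -/
theorem Coord.change {L : Subgroup (V ≃ₗ[K4] V)} {h : V → V → K4} {v : V} {φ : V →ₗ[K4] V4}
    (H : Coord L h v φ) (A : Cfsg.SU 4 K4 2) : Coord L h v ((Matrix.mulVecLin (mat A)).comp φ) := by
  have happ : ∀ a, ((Matrix.mulVecLin (mat A)).comp φ) a = mat A *ᵥ φ a := fun a => rfl
  have hinj : ∀ u w : V4, mat A *ᵥ u = mat A *ᵥ w → u = w := fun u w e => by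
    rw [← su_inv_mulVec' A u, e, su_inv_mulVec']
  refine ⟨by rw [happ, H.zero, Matrix.mulVec_zero], fun a b ha hb => ?_, fun a ha e => H.ker a ha ?_, fun w => ?_,
    fun g hg hv => ?_, fun B => ?_, fun g hg hv e => H.faithful g hg hv fun a ha => hinj _ _ ?_⟩
  · rw [happ, happ, herm_su]; exact H.herm a b ha hb
  · exact hinj _ 0 (by rw [Matrix.mulVec_zero, ← happ]; exact e)
  · obtain ⟨a, ha, e⟩ := H.surj (mat A⁻¹ *ᵥ w)
    exact ⟨a, ha, by rw [happ, e, su_inv_mulVec]⟩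
  · obtain ⟨B, hB⟩ := H.act g hg hv
    refine ⟨A * B * A⁻¹, fun a ha => ?_⟩
    rw [happ, happ, hB a ha, mat_mul, mat_mul, ← Matrix.mulVec_mulVec, ← Matrix.mulVec_mulVec, su_inv_mulVec']
  · obtain ⟨g, hg, hv, e⟩ := H.real (A⁻¹ * B * A)
    refine ⟨g, hg, hv, fun a ha => ?_⟩
    rw [happ, happ, e a ha, mat_mul, mat_mul, ← Matrix.mulVec_mulVec, ← Matrix.mulVec_mulVec, su_inv_mulVec]
  · exact e a ha

variable {L : Subgroup (V ≃ₗ[K4] V)} {f : L →* P} {h : V → V → K4} {ψ : V ≃ₗ[K4] (Fin 6 → K4)}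

/-- The last four coordinates. -/
theorem exists_coord_base (c : Cover L f h) (hψ : Ortho h ψ) (hm : HasMonomial L ψ)
    (hcard : Nat.card (baseStab L ψ) = 25920) : ∃ φ, Coord L h (base ψ) φ := by
  haveI : Finite (V ≃ₗ[K4] V) := finite_equiv
  haveI : Fact (Nat.Prime 5) := ⟨by norm_num⟩
  obtain ⟨eB⟩ := nonempty_baseStab c hψ hm hcard
  haveI := isSimple_su4 (F := K4) K4.card_fintype
  haveI : IsSimpleGroup (baseStab L ψ) := eB.isSimpleGroup
  have hinjA : Function.Injective (toSU c hψ) := by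
    refine (MonoidHom.ker_eq_bot_iff _).1 (((toSU c hψ).normal_ker).eq_bot_or_eq_top.resolve_right fun ht => ?_)
    obtain ⟨y, hy⟩ := exists_prime_orderOf_dvd_card' (G := baseStab L ψ) 5 (by rw [hcard]; norm_num)
    have h1 : toSU c hψ y = 1 := MonoidHom.mem_ker.1 (ht ▸ Subgroup.mem_top y)
    have := no_five c hψ h1 (by rw [← hy, pow_orderOf_eq_one])
    rw [this, orderOf_one] at hy
    norm_num at hy
  have hbij : Function.Bijective (toSU c hψ) :=
    hinjA.bijective_of_nat_card_le (by rw [hcard, natCard_su4 (F := K4) K4.card_fintype])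
  let d : baseStab L ψ →* K4 :=
    { toFun := fun g => (block ψ ((g : L) : V ≃ₗ[K4] V)).det
      map_one' := by
        rw [OneMemClass.coe_one, OneMemClass.coe_one, block_one, Matrix.det_one]
      map_mul' := fun g g' => by
        rw [Subgroup.coe_mul, block_mul c hψ g.2 g'.2, Matrix.det_mul] }
  have hdet : ∀ g : baseStab L ψ, block ψ ((g : L) : V ≃ₗ[K4] V) = mat (toSU c hψ g) := by
    intro g
    have hd : d g = 1 := by
      rcases (d.normal_ker).eq_bot_or_eq_top with hb | ht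
      · have := Nat.card_le_card_of_injective d ((MonoidHom.ker_eq_bot_iff _).1 hb)
        rw [hcard, K4.card_eq] at this
        omega
      · exact MonoidHom.mem_ker.1 (ht ▸ Subgroup.mem_top g)
    show _ = ((block ψ ((g : L) : V ≃ₗ[K4] V)).det)⁻¹ • block ψ ((g : L) : V ≃ₗ[K4] V)
    rw [show (block ψ ((g : L) : V ≃ₗ[K4] V)).det = 1 from hd, inv_one, one_smul]
  set φ : V →ₗ[K4] V4 := (LinearMap.funLeft K4 K4 e4).comp ψ.toLinearMap
  have happ : ∀ a, φ a = fun j => ψ a (e4 j) := fun a => rfl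
  have hperp : ∀ {a}, h a (base ψ) = 0 → ψ a 0 + ψ a 1 = 0 := fun ha => by rwa [herm_base c hψ] at ha
  have hstab : ∀ {g}, (hg : g ∈ L) → g (base ψ) = base ψ → ∀ a, h a (base ψ) = 0 →
      ∃ hb, φ (g a) = mat (toSU c hψ ⟨⟨g, hg⟩, hb⟩) *ᵥ φ a := fun {g} hg hv a ha => by
    refine ⟨hv, funext fun i => ?_⟩
    rw [← hdet]
    exact block_apply c hψ (g := ⟨g, hg⟩) hv (hperp ha) i
  refine ⟨φ, ?_, fun a b ha hb => ?_, fun a ha e => ⟨ψ a 0, ?_⟩, fun w => ⟨emb ψ w, ?_, ?_⟩, fun g hg hv => ?_,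
    fun B => ?_, fun g hg hv e => ?_⟩
  · rw [happ]; funext j; rw [base_coord, u₀_e4]; rfl
  · have hd : ∀ p q r s : K4, p + q = 0 → r + s = 0 → p * K4.conj r + q * K4.conj s = 0 := by decide
    rw [hψ.form, sum_six, ← hermForm_eq, Cfsg.hermForm, hd _ _ _ _ (hperp ha) (hperp hb), zero_add]
    exact Finset.sum_congr rfl fun j _ => by rw [happ, happ, pow_two]; rfl
  · conv_lhs => rw [decomp (hperp ha)]
    rw [show (fun j => ψ a (e4 j)) = 0 from e, map_zero, add_zero]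
  · rw [herm_base c hψ, (emb_coord w).1, (emb_coord w).2.1, add_zero]
  · rw [happ]; exact funext (emb_coord w).2.2
  · exact ⟨toSU c hψ ⟨⟨g, hg⟩, hv⟩, fun a ha => (hstab hg hv a ha).2⟩
  · obtain ⟨⟨⟨g, hg⟩, hv⟩, rfl⟩ := hbij.2 B
    exact ⟨g, hg, hv, fun a ha => (hstab hg hv a ha).2⟩
  · have h1 : toSU c hψ ⟨⟨g, hg⟩, hv⟩ = 1 := su_ext fun w => by
      have hw : h (emb ψ w) (base ψ) = 0 := by
        rw [herm_base c hψ, (emb_coord w).1, (emb_coord w).2.1, add_zero]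
      have h2 := (hstab hg hv _ hw).2
      rw [e _ hw, show φ (emb ψ w) = w from funext (emb_coord w).2.2] at h2
      rw [← h2]
      show w = (1 : Matrix (Fin 4) (Fin 4) K4) *ᵥ w
      rw [Matrix.one_mulVec]
    exact congrArg (fun a : baseStab L ψ => ((a : L) : V ≃ₗ[K4] V)) (hinjA (h1.trans (map_one _).symm))

end CfsgLib.FischerLarge.U62
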