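import Cfsg.Agent.Lib.FischerLarge.U62.Adj

/-!
FischerLarge/U62: the members at distance two from `z`: a section of the lines, a regular orbit of `Q`.
-/

set_option autoImplicit false

namespace CfsgLib.FischerLarge.U62

variable {X : Type*} [Group X] {D : Local X}

theorem card_K4 : Fintype.card K4 = 4 := rfl

theorem orth_step {r s : V4} (hr : Iso r) (hs : Iso s) (h : herm s r = 0) {a : K4} {w : X} (h1 : w ≠ D.z)
    (h2 : w ∉ D.G1) (ha : D.Adj (D.m r a) w) : ∃ b, D.Adj (D.m s b) w := by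
  by_cases hpar : ∃ l : K4, s = l • r
  · obtain ⟨l, rfl⟩ := hpar
    have hl := hs.ne_of_smul rfl
    exact ⟨a * l⁻¹, by rw [D.m_smul hr hl, mul_assoc, inv_mul_cancel₀ hl, mul_one]; exact ha⟩
  obtain ⟨g, hu, -⟩ := id ha
  have hzu : D.Adj (D.m r a) D.z := (adj_z_iff.2 (D.mem_G1 hr a)).symm
  obtain ⟨p, c, hp, hz⟩ := hzu.transport hu
  obtain ⟨p', c', hp', hwe⟩ := ha.transport hu
  have hnc : ¬ D.z * w = w * D.z := not_commute_G2 (D.mem_G1 hr a) ha h1 h2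
  have hpp : herm p' p ≠ 0 := fun e => hnc (by
    conv_lhs => rw [hz, hwe]
    conv_rhs => rw [hz, hwe]
    exact (conj_commute_iff g _ _).2 ((D.m_commute_iff hp hp' _ _).2 (herm_eq_zero_symm e)))
  obtain ⟨cj, hcj, hind⟩ := perp_common hp hp' hpp
  obtain ⟨o, ho⟩ := perp_twelve hr
  have key : ∀ jb : Fin 3 × K4, ∃ i, ∃ e : K4, Iso (o i) ∧
      g * D.m (cj jb.1) jb.2 * g⁻¹ = D.m (o i) e ∧ D.Adj (D.m (o i) e) w := by
    intro jb
    obtain ⟨hc1, hc2, hc3⟩ := hcj jb.1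
    have hy : D.Adj (D.m r a) (g * D.m (cj jb.1) jb.2 * g⁻¹) := hu ▸ adj_of_transport hc1 _
    have hyz : g * D.m (cj jb.1) jb.2 * g⁻¹ * D.z = D.z * (g * D.m (cj jb.1) jb.2 * g⁻¹) := by
      conv_lhs => rw [hz]
      conv_rhs => rw [hz]
      exact (conj_commute_iff g _ _).2 ((D.m_commute_iff hc1 hp _ _).2 hc2)
    have hyw : g * D.m (cj jb.1) jb.2 * g⁻¹ * w = w * (g * D.m (cj jb.1) jb.2 * g⁻¹) := by
      rw [hwe]
      exact (conj_commute_iff g _ _).2 ((D.m_commute_iff hc1 hp' _ _).2 hc3)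
    have hne : g * D.m (cj jb.1) jb.2 * g⁻¹ ≠ D.z := fun e => hnc (by rw [← e]; exact hyw)
    have hyG : g * D.m (cj jb.1) jb.2 * g⁻¹ ∈ D.G1 :=
      adj_z_iff.1 (adj_of_commute hzu hy hne.symm hyz.symm)
    have hadj : D.Adj (g * D.m (cj jb.1) jb.2 * g⁻¹) w := adj_w_of_commute hyG ha h2 hy hyw
    obtain ⟨q, e, hq, hqe⟩ := D.G1_iff.1 hyG
    have hqr : herm q r = 0 := (D.m_commute_iff hq hr e a).1 (hqe ▸ hy.comm.symm)
    rcases ho q hq hqr with ⟨l, rfl⟩ | ⟨i, l, rfl⟩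
    · have hl := hq.ne_of_smul rfl
      rw [D.m_smul hr hl] at hqe
      have := line_unique hr h1 h2 ha (hqe ▸ hadj)
      exact absurd (by rw [hqe, ← this]) hy.ne
    · have hl := hq.ne_of_smul rfl
      have hoi : Iso (o i) := by
        have := hq.smul (inv_ne_zero hl)
        rwa [smul_smul, inv_mul_cancel₀ hl, one_smul] at this
      rw [D.m_smul hoi hl] at hqe
      exact ⟨i, e * l, hoi, hqe, hqe ▸ hadj⟩
  choose ι ε hio heq hadj using key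
  have hinj : Function.Injective ι := by
    intro x y hxy
    have e1 : D.m (o (ι x)) (ε x) = D.m (o (ι y)) (ε y) := by
      have h4 := hadj y
      rw [← hxy] at h4 ⊢
      rw [line_unique (hio x) h1 h2 (hadj x) h4]
    have e2 : D.m (cj x.1) x.2 = D.m (cj y.1) y.2 := by
      have : g * D.m (cj x.1) x.2 * g⁻¹ = g * D.m (cj y.1) y.2 * g⁻¹ := by rw [heq x, heq y, e1]
      exact mul_left_cancel (mul_right_cancel this)
    obtain ⟨l, -, hl, hb⟩ := D.m_inj (hcj x.1).1 (hcj y.1).1 e2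
    have hj := hind _ _ _ hl
    rw [hj] at hl
    have hl1 : l = 1 := by
      have h3 : (1 - l) • cj x.1 = 0 := by rw [sub_smul, one_smul, ← hl, sub_self]
      exact (sub_eq_zero.1 ((smul_eq_zero.1 h3).resolve_right (hcj x.1).1.1)).symm
    rw [hl1, mul_one] at hb
    exact Prod.ext hj.symm hb
  have hbij : Function.Bijective ι := by
    rw [Fintype.bijective_iff_injective_and_card]
    exact ⟨hinj, by rw [Fintype.card_prod, Fintype.card_fin, Fintype.card_fin, card_K4]⟩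
  rcases ho s hs h with ⟨l, hl⟩ | ⟨i, l, rfl⟩
  · exact absurd ⟨l, hl⟩ hpar
  obtain ⟨jb, rfl⟩ := hbij.2 i
  have hl := hs.ne_of_smul rfl
  exact ⟨ε jb * l⁻¹, by rw [D.m_smul (hio jb) hl, mul_assoc, inv_mul_cancel₀ hl, mul_one]; exact hadj jb⟩

theorem secant {w : X} (hw : w ∈ D.G2) {s : V4} (hs : Iso s) : ∃ b, D.Adj (D.m s b) w := by
  obtain ⟨⟨u, hu, huw⟩, h1, h2⟩ := hw
  obtain ⟨r, a, hr, rfl⟩ := D.G1_iff.1 hu
  obtain ⟨k, hk, hkr, hks⟩ := common hr hs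
  obtain ⟨b, hb⟩ := orth_step hr hk hkr h1 h2 huw
  exact orth_step hk hs (herm_eq_zero_symm hks) h1 h2 hb

theorem not_commute_far {w : X} (hw : w ∈ D.G2) : ¬ D.z * w = w * D.z := by
  obtain ⟨⟨u, hu, huw⟩, h1, h2⟩ := hw
  exact not_commute_G2 hu huw h1 h2

theorem conj_mem_G2 {c w : X} (hc : c * D.z = D.z * c) (hw : w ∈ D.G2) : c * w * c⁻¹ ∈ D.G2 := by
  obtain ⟨⟨u, hu, huw⟩, h1, h2⟩ := hw
  refine ⟨⟨c * u * c⁻¹, conj_mem_G1 hc hu, huw.conj c⟩, fun e => h1 ?_, fun e => h2 ?_⟩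
  · calc w = c⁻¹ * (c * w * c⁻¹) * c := by group
      _ = D.z := by rw [e, mul_assoc, ← hc, inv_mul_cancel_left]
  · have := conj_mem_G1 (inv_comm_z hc) e
    rwa [show c⁻¹ * (c * w * c⁻¹) * c⁻¹⁻¹ = w by group] at this

theorem σ_mem_G1 {x : X} (hx : x ∈ D.G1) : D.σ x ∈ D.G1 := by
  obtain ⟨r, a, hr, rfl⟩ := D.G1_iff.1 hx
  rw [D.σ_m hr]
  exact D.mem_G1 hr _

theorem σ_mem_G2 {w : X} (hw : w ∈ D.G2) : D.σ w ∈ D.G2 := by
  obtain ⟨⟨u, hu, huw⟩, h1, h2⟩ := hw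
  refine ⟨⟨D.σ u, σ_mem_G1 hu, huw.map_σ⟩, fun e => h1 (D.σ.injective (e.trans D.σ_z.symm)), fun e => h2 ?_⟩
  have := σ_mem_G1 (σ_mem_G1 e)
  rwa [D.σ_cube] at this

theorem th_zp_conj_m {r : V4} (hr : Iso r) (v : V4) (e : Bool) (a : K4) :
    D.th v * D.zp e * D.m r a * (D.th v * D.zp e)⁻¹ = D.m r (herm v r + a) := by
  rw [show D.th v * D.zp e * D.m r a * (D.th v * D.zp e)⁻¹ = D.th v * (D.zp e * D.m r a * (D.zp e)⁻¹) * (D.th v)⁻¹
    by group, D.conj_zp (D.m_comm_z hr a), D.th_conj_m hr]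

theorem free {w : X} (hw : w ∈ D.G2) {q : X} (hq : q ∈ D.Q) (h : q * w * q⁻¹ = w) : q = 1 := by
  obtain ⟨e, he⟩ := D.exists_rep hq
  have hv : D.π q = 0 := eq_zero_of_perp fun r hr => by
    obtain ⟨a, ha⟩ := secant hw hr
    have h1 := ha.conj q
    rw [h, show q * D.m r a * q⁻¹ = D.m r (herm (D.π q) r + a) by
      conv_lhs => rw [he]
      exact th_zp_conj_m hr _ e a] at h1
    have h2 := line_unique hr hw.2.1 hw.2.2 ha h1
    have : herm (D.π q) r = 0 := by linear_combination -h2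
    exact herm_eq_zero_symm this
  rw [hv, D.th_zero, one_mul] at he
  cases e
  · exact he
  · exfalso
    refine not_commute_far hw ?_
    rw [he, show D.zp true = D.z from rfl] at h
    calc D.z * w = D.z * w * D.z⁻¹ * D.z := by group
      _ = w * D.z := by rw [h]

theorem exists_act_fix {w : X} (hw : w ∈ D.G2) {g : V4 → V4} (hg : Gam g) :
    ∃ p, p * D.z = D.z * p ∧ p * w = w * p ∧ D.Acts p g := by
  induction hg with
  | refl => exact ⟨1, by group, by group, fun q _ => by rw [one_mul, inv_one, mul_one]⟩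
  | @step g r hr _ ih =>
    obtain ⟨p, hp, hpw, hpa⟩ := ih
    obtain ⟨a, ha⟩ := secant hw hr
    refine ⟨D.m r a * p, mul_comm_z (D.m_comm_z hr a) hp, ?_,
      Local.Acts.mul (g := tau r) (h := g) hp (D.m_acts hr a) hpa⟩
    rw [mul_assoc, hpw, ← mul_assoc, ha.comm, mul_assoc]

theorem transitive {w w' : X} (hw : w ∈ D.G2) (hw' : w' ∈ D.G2) :
    ∃ c, c * D.z = D.z * c ∧ c * w * c⁻¹ = w' := by
  obtain ⟨u, ⟨d, hd, rfl⟩, hu⟩ := hw.1
  obtain ⟨u', ⟨d', hd', rfl⟩, hu'⟩ := hw'.1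
  -- move both common neighbours to `u0`
  have hx := conj_mem_G2 (inv_comm_z hd) hw
  have hx' := conj_mem_G2 (inv_comm_z hd') hw'
  have h1 : D.Adj D.u0 (d⁻¹ * w * d⁻¹⁻¹) := by
    have := hu.conj d⁻¹
    rwa [show d⁻¹ * (d * D.u0 * d⁻¹) * d⁻¹⁻¹ = D.u0 by group] at this
  have h2 : D.Adj D.u0 (d'⁻¹ * w' * d'⁻¹⁻¹) := by
    have := hu'.conj d'⁻¹
    rwa [show d'⁻¹ * (d' * D.u0 * d'⁻¹) * d'⁻¹⁻¹ = D.u0 by group] at this
  obtain ⟨g, hg1, hg2⟩ := D.exists_swap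
  obtain ⟨s, b, hs, he⟩ := h1.transport hg1.symm
  obtain ⟨s', b', hs', he'⟩ := h2.transport hg1.symm
  have hfar : ∀ {x : X} {p : V4} {a : K4}, x ∈ D.G2 → Iso p → x = g * D.m p a * g⁻¹ → herm p r0 ≠ 0 := by
    intro x p a hx hp hxe h0
    refine not_commute_far hx ?_
    rw [hxe, ← hg2]
    refine (conj_commute_iff g _ _).2 ?_
    have := (D.m_commute_iff r0_iso hp 0 a).2 (herm_eq_zero_symm h0)
    rwa [D.m_zero, D.t_r0] at this
  have hf := hfar hx hs he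
  have hf' := hfar hx' hs' he'
  obtain ⟨k1, l1, hk1, hl1, hk1r, hk1s⟩ := to_far r0_iso hs hf
  obtain ⟨k2, l2, hk2, hl2, hk2r, hk2s⟩ := to_far r0_iso hs' hf'
  obtain ⟨k1', hk1', hi1, hi2⟩ := hk1.exists_inv
  obtain ⟨e, hfe, hea⟩ := D.exists_fix_act (hk2.comp hk1')
  have hr0 : k2 (k1' r0) = r0 := by rw [← hk1r, hi1, hk1r, hk2r]
  have hss : k2 (k1' s) = (l1⁻¹ * l2) • s' := by
    have : s = l1⁻¹ • k1 s0 := by rw [hk1s, smul_smul, inv_mul_cancel₀ hl1, one_smul]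
    rw [this, hk1'.lin.2.1, hi1, hk2.lin.2.1, hk2s, smul_smul]
  obtain ⟨v, hv0, hv1⟩ := exists_two_herm r0_iso hs' (fun e => hf' (herm_eq_zero_symm e)) 0
    (b * (l1⁻¹ * l2) + b')
  have hfix : D.th v * e * D.u0 * (D.th v * e)⁻¹ = D.u0 := by
    rw [show D.th v * e * D.u0 * (D.th v * e)⁻¹ = D.th v * (e * D.u0 * e⁻¹) * (D.th v)⁻¹ by group, ← D.t_r0,
      D.conj_t hfe (hk2.comp hk1') hea r0_iso]
    show D.th v * D.t (k2 (k1' r0)) * _ = _
    rw [hr0, D.th_conj_t r0_iso, hv0, D.m_zero]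
  have hmv : D.th v * e * D.m s b * (D.th v * e)⁻¹ = D.m s' b' := by
    rw [show D.th v * e * D.m s b * (D.th v * e)⁻¹ = D.th v * (e * D.m s b * e⁻¹) * (D.th v)⁻¹ by group,
      D.conj_m hfe (hk2.comp hk1') hea hs]
    show D.th v * D.m (k2 (k1' s)) b * _ = _
    rw [hss, D.m_smul hs' (mul_ne_zero (inv_ne_zero hl1) hl2), D.th_conj_m hs', hv1]
    congr 1
    linear_combination K4.add_self (b * (l1⁻¹ * l2))
  have hez : D.th v * e * D.z = D.z * (D.th v * e) := mul_comm_z (D.Q_comm _ (D.th_mem v)) hfe.1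
  have hc : g * (D.th v * e) * g⁻¹ * D.z = D.z * (g * (D.th v * e) * g⁻¹) := by
    conv_lhs => rw [← hg2]
    conv_rhs => rw [← hg2]
    refine (conj_commute_iff g _ _).2 ?_
    conv_rhs => rw [← hfix]
    group
  refine ⟨d' * (g * (D.th v * e) * g⁻¹) * d⁻¹, mul_comm_z (mul_comm_z hd' hc) (inv_comm_z hd), ?_⟩
  calc d' * (g * (D.th v * e) * g⁻¹) * d⁻¹ * w * (d' * (g * (D.th v * e) * g⁻¹) * d⁻¹)⁻¹
      = d' * ((g * (D.th v * e) * g⁻¹) * (d⁻¹ * w * d⁻¹⁻¹) * (g * (D.th v * e) * g⁻¹)⁻¹) * d'⁻¹ := by group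
    _ = d' * (g * ((D.th v * e) * D.m s b * (D.th v * e)⁻¹) * g⁻¹) * d'⁻¹ := by rw [he]; group
    _ = d' * (d'⁻¹ * w' * d'⁻¹⁻¹) * d'⁻¹ := by rw [hmv, he']
    _ = w' := by group

theorem regular {w w' : X} (hw : w ∈ D.G2) (hw' : w' ∈ D.G2) : ∃ q ∈ D.Q, q * w * q⁻¹ = w' := by
  obtain ⟨c, hc, hcw⟩ := transitive hw hw'
  obtain ⟨g, hg, hga⟩ := D.act c hc
  obtain ⟨g', hg', h1, h2⟩ := hg.exists_inv
  obtain ⟨p, hp, hpw, hpa⟩ := exists_act_fix hw hg'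
  have hq : c * p ∈ D.Q := D.faithful _ (mul_comm_z hc hp)
    ((Local.Acts.mul (g := g) (h := g') hp hga hpa).congr h2)
  refine ⟨c * p, hq, ?_⟩
  rw [show c * p * w * (c * p)⁻¹ = c * (p * w) * p⁻¹ * c⁻¹ by group, hpw]
  conv_rhs => rw [← hcw]
  group

end CfsgLib.FischerLarge.U62
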