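import Cfsg.Agent.Lib.FischerLarge.U62.Scalar

/-!
FischerLarge/U62: the four-group of the duads inside the first three points, its centraliser, and the quotient.
The point `3` completes the tetrad of `z`; the point `4` lies in another tetrad.
-/

set_option autoImplicit false
set_option linter.style.haveILetI false
set_option linter.unusedSectionVars false
set_option linter.unusedVariables false

namespace CfsgLib.FischerLarge.U62

open scoped Classical symmDiff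
open Cfsg CfsgLib.Golay

universe u

variable {G : Type u} [Group G] {z : G}

theorem tb_small : tb (pt 0) = 0 ∧ tb (pt 1) = 0 ∧ tb (pt 2) = 0 ∧ tb (pt 3) = 0 ∧ tb (pt 4) = 1 := by decide +kernel

theorem pt_small_ne : pt 0 ≠ pt 1 ∧ pt 0 ≠ pt 2 ∧ pt 0 ≠ pt 3 ∧ pt 1 ≠ pt 2 ∧ pt 1 ≠ pt 3 ∧ pt 2 ≠ pt 3 := by
  decide +kernel

theorem tb_zero_cases {p : GolayPt} (h : tb p = 0) : p = pt 0 ∨ p = pt 1 ∨ p = pt 2 ∨ p = pt 3 := by
  have hd : ∀ k : Fin 4, tp 0 k = pt 0 ∨ tp 0 k = pt 1 ∨ tp 0 k = pt 2 ∨ tp 0 k = pt 3 := by decide +kernel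
  obtain ⟨k, hk⟩ := exists_tp p
  rw [h] at hk
  exact hk ▸ hd k

theorem five_injective {p q : GolayPt} (hp : p ≠ pt 0 ∧ p ≠ pt 1 ∧ p ≠ pt 2) (hq : q ≠ pt 0 ∧ q ≠ pt 1 ∧ q ≠ pt 2)
    (hpq : p ≠ q) : Function.Injective ![pt 0, pt 1, pt 2, p, q] := by
  obtain ⟨h01, h02, -, h12, -, -⟩ := pt_small_ne
  intro i j h
  fin_cases i <;> fin_cases j <;> simp_all

/-- A point outside the first three. -/
def Out (p : GolayPt) : Prop := p ≠ pt 0 ∧ p ≠ pt 1 ∧ p ≠ pt 2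

theorem out_three : Out (pt 3) := ⟨pt_small_ne.2.2.1.symm, pt_small_ne.2.2.2.2.1.symm, pt_small_ne.2.2.2.2.2.symm⟩

theorem out_of_tb {p : GolayPt} (h : tb p ≠ 0) : Out p :=
  ⟨fun e => h (e ▸ tb_small.1), fun e => h (e ▸ tb_small.2.1), fun e => h (e ▸ tb_small.2.2.1)⟩

theorem out_four : Out (pt 4) := out_of_tb (by rw [tb_small.2.2.2.2]; decide)

variable [Finite G] {P : Type} [Group P] [Finite P] {Q M : Subgroup (Cz z)} [hQn : Q.Normal] {V : Type u}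
  [AddCommGroup V] [Module K4 V] [Finite V] {L : Subgroup (V ≃ₗ[K4] V)} {f : L →* P} {h : V → V → K4}
  {π : Cz z → V}

variable (Ly : Layer z (QG' Q))

theorem D_mul_chain (p q r : GolayPt) :
    Ly.D p q * Ly.D p r = Ly.D q r ∧ Ly.D p q * Ly.D r q = Ly.D p r := by
  constructor
  · rw [Ly.D_symm p q, Ly.D_trans]
  · rw [Ly.D_symm r q, Ly.D_trans]

/-- The four-group. -/
def fourGroup : Subgroup G where
  carrier := {g | g = 1 ∨ g = Ly.D (pt 0) (pt 1) ∨ g = Ly.D (pt 0) (pt 2) ∨ g = Ly.D (pt 1) (pt 2)}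
  one_mem' := Or.inl rfl
  inv_mem' := by
    rintro g (rfl | rfl | rfl | rfl) <;> simp [Ly.D_inv]
  mul_mem' := by
    have e := fun p q r => D_mul_chain Ly p q r
    rintro g g' (rfl | rfl | rfl | rfl) (rfl | rfl | rfl | rfl)
    · exact Or.inl (one_mul _)
    · exact Or.inr (Or.inl (one_mul _))
    · exact Or.inr (Or.inr (Or.inl (one_mul _)))
    · exact Or.inr (Or.inr (Or.inr (one_mul _)))
    · exact Or.inr (Or.inl (mul_one _))
    · exact Or.inl (Ly.D_mul_self _ _)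
    · exact Or.inr (Or.inr (Or.inr (e _ _ _).1))
    · exact Or.inr (Or.inr (Or.inl (Ly.D_trans _ _ _)))
    · exact Or.inr (Or.inr (Or.inl (mul_one _)))
    · exact Or.inr (Or.inr (Or.inr ((e _ _ _).1.trans (Ly.D_symm _ _))))
    · exact Or.inl (Ly.D_mul_self _ _)
    · exact Or.inr (Or.inl (e _ _ _).2)
    · exact Or.inr (Or.inr (Or.inr (mul_one _)))
    · refine Or.inr (Or.inr (Or.inl ?_))
      rw [Ly.comm _ (Ly.D_mem _ _) _ (Ly.D_mem _ _), Ly.D_trans]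
    · refine Or.inr (Or.inl ?_)
      rw [Ly.comm _ (Ly.D_mem _ _) _ (Ly.D_mem _ _), (e _ _ _).2]
    · exact Or.inl (Ly.D_mul_self _ _)

theorem mem_fourGroup {g : G} : g ∈ fourGroup Ly ↔
    g = 1 ∨ g = Ly.D (pt 0) (pt 1) ∨ g = Ly.D (pt 0) (pt 2) ∨ g = Ly.D (pt 1) (pt 2) := Iff.rfl

theorem D_mem_fourGroup {p q : GolayPt} (hp : p = pt 0 ∨ p = pt 1 ∨ p = pt 2)
    (hq : q = pt 0 ∨ q = pt 1 ∨ q = pt 2) : Ly.D p q ∈ fourGroup Ly := by
  rw [mem_fourGroup]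
  rcases hp with rfl | rfl | rfl <;> rcases hq with rfl | rfl | rfl <;>
    simp [Ly.D_self, Ly.D_symm (pt 1) (pt 0), Ly.D_symm (pt 2) (pt 0), Ly.D_symm (pt 2) (pt 1)]

theorem fourGroup_le : fourGroup Ly ≤ Ly.A := by
  rintro g (rfl | rfl | rfl | rfl)
  exacts [one_mem _, Ly.D_mem _ _, Ly.D_mem _ _, Ly.D_mem _ _]

theorem card_fourGroup : Nat.card (fourGroup Ly) = 4 := by
  obtain ⟨h01, h02, -, h12, -, -⟩ := pt_small_ne
  show Nat.card ({g | g = 1 ∨ g = Ly.D (pt 0) (pt 1) ∨ g = Ly.D (pt 0) (pt 2) ∨ g = Ly.D (pt 1) (pt 2)} : Set G) = 4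
  rw [Nat.card_coe_set_eq]
  have e : {g | g = 1 ∨ g = Ly.D (pt 0) (pt 1) ∨ g = Ly.D (pt 0) (pt 2) ∨ g = Ly.D (pt 1) (pt 2)} =
      ({1, Ly.D (pt 0) (pt 1), Ly.D (pt 0) (pt 2), Ly.D (pt 1) (pt 2)} : Set G) := rfl
  rw [e]
  have n1 : ∀ {p q}, p ≠ q → (1 : G) ≠ Ly.D p q := fun h => (Ly.D_ne_one h).symm
  have n2 : Ly.D (pt 0) (pt 1) ≠ Ly.D (pt 0) (pt 2) := fun e => by
    rcases Ly.D_eq_D h01 e with ⟨-, e'⟩ | ⟨e', -⟩
    exacts [h12 e', h02 e']
  have n3 : Ly.D (pt 0) (pt 1) ≠ Ly.D (pt 1) (pt 2) := fun e => by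
    rcases Ly.D_eq_D h01 e with ⟨e', -⟩ | ⟨e', -⟩
    exacts [h01 e', h02 e']
  have n4 : Ly.D (pt 0) (pt 2) ≠ Ly.D (pt 1) (pt 2) := fun e => by
    rcases Ly.D_eq_D h02 e with ⟨e', -⟩ | ⟨e', -⟩
    exacts [h01 e', h02 e']
  rw [Set.ncard_insert_of_notMem (by simp [n1 h01, n1 h02, n1 h12]),
    Set.ncard_insert_of_notMem (by simp [n2, n3]), Set.ncard_pair n4]

theorem fourGroup_elem : IsElementaryAbelian 2 (fourGroup Ly) :=
  ⟨⟨⟨fun a b => Subtype.ext (Ly.comm _ (fourGroup_le Ly a.2) _ (fourGroup_le Ly b.2))⟩⟩, fun a ha => by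
    rw [pow_two]; exact Ly.sq _ (fourGroup_le Ly ha)⟩

/-- The centraliser of the four-group. -/
abbrev CE : Subgroup G := Subgroup.centralizer (fourGroup Ly : Set G)

theorem fourGroup_le_CE : fourGroup Ly ≤ CE Ly := fun g hg =>
  Subgroup.mem_centralizer_iff.2 fun e he => Ly.comm _ (fourGroup_le Ly he) _ (fourGroup_le Ly hg)

theorem A_le_CE : Ly.A ≤ CE Ly := fun g hg =>
  Subgroup.mem_centralizer_iff.2 fun e he => Ly.comm _ (fourGroup_le Ly he) _ hg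

/-- The four-group inside its centraliser. -/
abbrev NE : Subgroup (CE Ly) := (fourGroup Ly).subgroupOf (CE Ly)

instance NE_normal : (NE Ly).Normal := ⟨fun n hn g => by
  have e : (g : G) * (n : G) = (n : G) * (g : G) := (Subgroup.mem_centralizer_iff.1 g.2 _ hn).symm
  have : g * n * g⁻¹ = n := Subtype.ext (by
    show (g : G) * n * (g : G)⁻¹ = n
    rw [e, mul_inv_cancel_right])
  rw [this]; exact hn⟩

/-- The quotient. -/
abbrev XE : Type u := ↥(CE Ly) ⧸ NE Ly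

/-- The projection. -/
abbrev mkE : ↥(CE Ly) →* XE Ly := QuotientGroup.mk' (NE Ly)

theorem mk_eq_iff {a b : CE Ly} : mkE Ly a = mkE Ly b ↔ ∃ e ∈ fourGroup Ly, (a : G) = (b : G) * e := by
  show (QuotientGroup.mk a : XE Ly) = QuotientGroup.mk b ↔ _
  rw [eq_comm, QuotientGroup.eq]
  constructor
  · intro h
    exact ⟨_, Subgroup.mem_subgroupOf.1 h, (mul_inv_cancel_left (b : G) (a : G)).symm⟩
  · rintro ⟨e, he, h⟩
    refine Subgroup.mem_subgroupOf.2 ?_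
    rw [Subgroup.coe_mul, Subgroup.coe_inv, h, inv_mul_cancel_left]
    exact he

theorem mk_eq_one_iff {a : CE Ly} : mkE Ly a = 1 ↔ (a : G) ∈ fourGroup Ly := by
  show (QuotientGroup.mk a : XE Ly) = 1 ↔ _
  rw [QuotientGroup.eq_one_iff]; rfl

/-- The image of a duad. -/
def dX (p q : GolayPt) : XE Ly := mkE Ly ⟨Ly.D p q, A_le_CE Ly (Ly.D_mem p q)⟩

/-- The normalising elements fixing the three points centralise the four-group. -/
theorem mem_CE_of_fix {g : ↥(Subgroup.normalizer (Ly.A : Set G))} (h0 : Ly.act g (pt 0) = pt 0)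
    (h1 : Ly.act g (pt 1) = pt 1) (h2 : Ly.act g (pt 2) = pt 2) : (g : G) ∈ CE Ly := by
  have key : ∀ p q, Ly.act g p = p → Ly.act g q = q → Ly.D p q * (g : G) = (g : G) * Ly.D p q := fun p q hp hq => by
    refine (mul_inv_eq_iff_eq_mul.1 ?_).symm
    rw [Ly.conj_D, hp, hq]
  refine Subgroup.mem_centralizer_iff.2 ?_
  rintro e (rfl | rfl | rfl | rfl)
  exacts [by rw [one_mul, mul_one], key _ _ h0 h1, key _ _ h0 h2, key _ _ h1 h2]

theorem fix_of_mem_CE {g : ↥(Subgroup.normalizer (Ly.A : Set G))} (hg : (g : G) ∈ CE Ly) :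
    Ly.act g (pt 0) = pt 0 ∧ Ly.act g (pt 1) = pt 1 ∧ Ly.act g (pt 2) = pt 2 := by
  obtain ⟨h01, h02, -, h12, -, -⟩ := pt_small_ne
  have key : ∀ p q, Ly.D p q ∈ fourGroup Ly → Ly.D p q = Ly.D (Ly.act g p) (Ly.act g q) := fun p q hd => by
    rw [← Ly.conj_D, ← Subgroup.mem_centralizer_iff.1 hg _ hd, mul_inv_cancel_right]
  have e1 := Ly.D_eq_D h01 (key _ _ (D_mem_fourGroup Ly (Or.inl rfl) (Or.inr (Or.inl rfl))))
  have e2 := Ly.D_eq_D h02 (key _ _ (D_mem_fourGroup Ly (Or.inl rfl) (Or.inr (Or.inr rfl))))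
  rcases e1 with ⟨a0, a1⟩ | ⟨a0, a1⟩ <;> rcases e2 with ⟨b0, b2⟩ | ⟨b0, b2⟩
  · exact ⟨a0.symm, a1.symm, b2.symm⟩
  · exact absurd (Ly.act_injective g (a0.symm.trans b0)) h02
  · exact absurd (Ly.act_injective g (a0.symm.trans b0)) h01.symm
  · exact absurd (Ly.act_injective g (a0.symm.trans b0)) h12

/-- Five-transitivity inside the centraliser. -/
theorem exists_CE_map {p q p' q' : GolayPt} (hp : Out p) (hq : Out q) (hpq : p ≠ q) (hp' : Out p') (hq' : Out q')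
    (hpq' : p' ≠ q') : ∃ g : ↥(Subgroup.normalizer (Ly.A : Set G)), (g : G) ∈ CE Ly ∧
      Ly.act g (pt 0) = pt 0 ∧ Ly.act g (pt 1) = pt 1 ∧ Ly.act g (pt 2) = pt 2 ∧
      Ly.act g p = p' ∧ Ly.act g q = q' := by
  obtain ⟨g, hg⟩ := Ly.exists_map ![pt 0, pt 1, pt 2, p, q] ![pt 0, pt 1, pt 2, p', q']
    (five_injective hp hq hpq) (five_injective hp' hq' hpq')
  have h0 := hg 0
  have h1 := hg 1
  have h2 := hg 2
  exact ⟨g, mem_CE_of_fix Ly h0 h1 h2, h0, h1, h2, hg 3, hg 4⟩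

theorem conj_dX {g : ↥(Subgroup.normalizer (Ly.A : Set G))} (hg : (g : G) ∈ CE Ly) (p q : GolayPt) :
    mkE Ly ⟨g, hg⟩ * dX Ly p q * (mkE Ly ⟨g, hg⟩)⁻¹ = dX Ly (Ly.act g p) (Ly.act g q) := by
  rw [dX, ← map_inv, ← map_mul, ← map_mul]
  exact congrArg (mkE Ly) (Subtype.ext (Ly.conj_D g p q))

theorem dX_mul_chain (p q r : GolayPt) : dX Ly p q * dX Ly q r = dX Ly p r := by
  rw [dX, dX, ← map_mul]
  exact congrArg (mkE Ly) (Subtype.ext (Ly.D_trans p q r))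

theorem dX_symm (p q : GolayPt) : dX Ly p q = dX Ly q p := congrArg (mkE Ly) (Subtype.ext (Ly.D_symm p q))

theorem dX_sq (p q : GolayPt) : dX Ly p q * dX Ly p q = 1 := by
  rw [dX, ← map_mul, ← map_one (mkE Ly)]
  exact congrArg (mkE Ly) (Subtype.ext (Ly.D_mul_self p q))

theorem dX_eq_one {p q : GolayPt} (hp : p = pt 0 ∨ p = pt 1 ∨ p = pt 2)
    (hq : q = pt 0 ∨ q = pt 1 ∨ q = pt 2) : dX Ly p q = 1 :=
  (mk_eq_one_iff Ly).2 (D_mem_fourGroup Ly hp hq)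

variable {Ly}
variable (C : Ctx Q M L f h π Ly)
include C

theorem z_mem_CE : z ∈ CE Ly := A_le_CE Ly Ly.z_mem

theorem fourGroup_le_Q : fourGroup Ly ≤ QG' Q := by
  obtain ⟨t0, t1, t2, -, -⟩ := tb_small
  rintro g (rfl | rfl | rfl | rfl)
  exacts [one_mem _, C.in_tet_mem (by rw [t0, t1]), C.in_tet_mem (by rw [t0, t2]), C.in_tet_mem (by rw [t1, t2])]

theorem z_eq_three : Ly.D (pt 0) (pt 1) * Ly.D (pt 2) (pt 3) = z := by
  obtain ⟨t0, t1, t2, t3, -⟩ := tb_small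
  obtain ⟨h01, h02, h03, h12, h13, h23⟩ := pt_small_ne
  exact C.std.z_eq h01 h02 h03 h12 h13 h23 (by rw [t0, t1]) (by rw [t0, t2]) (by rw [t0, t3])

theorem mk_z : mkE Ly ⟨z, z_mem_CE C⟩ = dX Ly (pt 2) (pt 3) :=
  (mk_eq_iff Ly).2 ⟨_, D_mem_fourGroup Ly (Or.inl rfl) (Or.inr (Or.inl rfl)),
    (z_eq_three C).symm.trans (Ly.comm _ (Ly.D_mem _ _) _ (Ly.D_mem _ _))⟩

theorem z_notMem_four : z ∉ fourGroup Ly := by
  obtain ⟨h01, h02, -, h12, -, -⟩ := pt_small_ne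
  rintro (e | e | e | e)
  exacts [Ly.z_ne_one e, C.D_ne_z h01 e.symm, C.D_ne_z h02 e.symm, C.D_ne_z h12 e.symm]

theorem z_mul_four {e : G} (he : e ∈ fourGroup Ly) (h1 : e ≠ 1) : ¬ IsConj z (z * e) := by
  obtain ⟨t0, t1, t2, -, -⟩ := tb_small
  obtain ⟨h01, h02, -, h12, -, -⟩ := pt_small_ne
  have key : ∀ p q, p ≠ q → tb q = tb p → ¬ IsConj z (z * Ly.D p q) := fun p q hpq h => by
    obtain ⟨r, s, hrs, -, -, -, -, -, -, e⟩ := C.std.mul_pair hpq h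
    rw [e]; exact Ly.D_not_conj hrs
  rcases he with rfl | rfl | rfl | rfl
  exacts [absurd rfl h1, key _ _ h01 (by rw [t0, t1]), key _ _ h02 (by rw [t0, t2]), key _ _ h12 (by rw [t1, t2])]

/-- Lifts of the centraliser of the image of `z` centralise `z`. -/
theorem comm_lift {c : CE Ly} (hc : mkE Ly c * mkE Ly ⟨z, z_mem_CE C⟩ = mkE Ly ⟨z, z_mem_CE C⟩ * mkE Ly c) :
    (c : G) * z = z * (c : G) := by
  rw [← map_mul, ← map_mul, mk_eq_iff] at hc
  obtain ⟨e, he, hce⟩ := hc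
  simp only [Subgroup.coe_mul] at hce
  have e2 : (c : G) * z * (c : G)⁻¹ = z * e := by
    rw [hce, mul_assoc z, ← Subgroup.mem_centralizer_iff.1 c.2 _ he, ← mul_assoc, mul_inv_cancel_right]
  by_cases h1 : e = 1
  · rw [h1, mul_one] at hce; exact hce
  · exact absurd (isConj_iff.2 ⟨_, e2⟩) (z_mul_four C he h1)

variable {x : Cz z} (hx : ScalarElt Q π x)
include hx

theorem x_perm (hd : Ly.act (C.xN hx) (pt 3) = pt 3) {p : GolayPt} (hp : p = pt 0 ∨ p = pt 1 ∨ p = pt 2) :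
    (Ly.act (C.xN hx) p = pt 0 ∨ Ly.act (C.xN hx) p = pt 1 ∨ Ly.act (C.xN hx) p = pt 2) ∧
      Ly.act (C.xN hx) p ≠ p := by
  obtain ⟨t0, t1, t2, t3, -⟩ := tb_small
  obtain ⟨-, -, h03, -, h13, h23⟩ := pt_small_ne
  have hp0 : tb p = 0 := by rcases hp with rfl | rfl | rfl <;> assumption
  have hp3 : p ≠ pt 3 := by rcases hp with rfl | rfl | rfl <;> assumption
  have htb : tb (Ly.act (C.xN hx) p) = 0 := (C.x_tb hx p).trans hp0
  refine ⟨?_, fun e => hp3 (C.x_fixed_unique hx (by rw [t3, hp0]) e hd)⟩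
  rcases tb_zero_cases htb with e | e | e | e
  · exact Or.inl e
  · exact Or.inr (Or.inl e)
  · exact Or.inr (Or.inr e)
  · exact absurd (Ly.act_injective _ (e.trans hd.symm)) hp3

theorem x_conj_four (hd : Ly.act (C.xN hx) (pt 3) = pt 3) {e : G} (he : e ∈ fourGroup Ly) :
    (x : G) * e * (x : G)⁻¹ ∈ fourGroup Ly := by
  rcases he with rfl | rfl | rfl | rfl
  · rw [mul_one, mul_inv_cancel]; exact one_mem _
  all_goals
    rw [show (x : G) = ((C.xN hx : ↥(Subgroup.normalizer (Ly.A : Set G))) : G) from rfl, Ly.conj_D]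
    exact D_mem_fourGroup Ly (x_perm C hx hd (by tauto)).1 (x_perm C hx hd (by tauto)).1

theorem x_conj_CE (hd : Ly.act (C.xN hx) (pt 3) = pt 3) {c : G} (hc : c ∈ CE Ly) :
    (x : G) * c * (x : G)⁻¹ ∈ CE Ly := by
  refine Subgroup.mem_centralizer_iff.2 fun e he => ?_
  have h2 := x_conj_four C hx hd (x_conj_four C hx hd he)
  have hx3 : (x : G) * (x : G) * (x : G) = 1 := by
    have := congrArg Subtype.val hx.1
    rwa [Subgroup.coe_pow, pow_succ, pow_two, OneMemClass.coe_one] at this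
  have key := Subgroup.mem_centralizer_iff.1 hc _ h2
  have hinv : (x : G)⁻¹ * e * (x : G) = (x : G) * ((x : G) * e * (x : G)⁻¹) * (x : G)⁻¹ := by
    calc (x : G)⁻¹ * e * (x : G)
        = (x : G)⁻¹ * (((x : G) * (x : G) * (x : G)) * e * ((x : G) * (x : G) * (x : G))⁻¹) * (x : G) := by
          rw [hx3, one_mul, inv_one, mul_one]
      _ = _ := by group
  calc e * ((x : G) * c * (x : G)⁻¹) = (x : G) * (((x : G)⁻¹ * e * (x : G)) * c) * (x : G)⁻¹ := by group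
    _ = (x : G) * (((x : G) * ((x : G) * e * (x : G)⁻¹) * (x : G)⁻¹) * c) * (x : G)⁻¹ := by
      rw [hinv]
    _ = (x : G) * (c * ((x : G) * ((x : G) * e * (x : G)⁻¹) * (x : G)⁻¹)) * (x : G)⁻¹ := by rw [key]
    _ = (x : G) * c * (x : G)⁻¹ * ((x : G) * (x : G) * (x : G) * e * ((x : G) * (x : G) * (x : G))⁻¹) := by group
    _ = (x : G) * c * (x : G)⁻¹ * e := by rw [hx3, one_mul, inv_one, mul_one]

end CfsgLib.FischerLarge.U62
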