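import Cfsg.Agent.Lib.FischerLarge.U62.Cert

/-!
FischerLarge/U62: the group generated by the transvections on the four-dimensional hermitian space.
-/

set_option autoImplicit false

namespace CfsgLib.FischerLarge.U62

theorem herm_zero_left (v : V4) : herm 0 v = 0 := by
  have := herm_smul_left 0 0 v
  rwa [zero_smul, zero_mul] at this

theorem herm_zero_right (v : V4) : herm v 0 = 0 := by rw [herm_symm, herm_zero_left, map_zero]

theorem herm_eq_zero_symm {u v : V4} (h : herm u v = 0) : herm v u = 0 := by rw [herm_symm, h, map_zero]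

theorem vadd_self (v : V4) : v + v = 0 := funext fun _ => K4.add_self _

theorem tau_eq (r v : V4) : tau r v = v + herm v r • r := funext fun _ => rfl

theorem tau_add (r u v : V4) : tau r (u + v) = tau r u + tau r v := by
  rw [tau_eq, tau_eq, tau_eq, herm_add_left, add_smul]; abel

theorem tau_smul (r : V4) (a : K4) (v : V4) : tau r (a • v) = a • tau r v := by
  rw [tau_eq, tau_eq, herm_smul_left, mul_smul, smul_add]

theorem herm_self_bit : ∀ v : V4, herm v v = 0 ∨ herm v v = 1 := by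
  intro v
  have : ∀ a b c d : K4, a * K4.conj a + b * K4.conj b + c * K4.conj c + d * K4.conj d = 0 ∨
      a * K4.conj a + b * K4.conj b + c * K4.conj c + d * K4.conj d = 1 := by decide
  exact this _ _ _ _

theorem tau_herm {r : V4} (hr : herm r r = 0) (u v : V4) : herm (tau r u) (tau r v) = herm u v := by
  rw [tau_eq, tau_eq, herm_add_left, herm_add_right, herm_add_right, herm_smul_left, herm_smul_left,
    herm_smul_right, herm_smul_right, hr, herm_symm v r]
  linear_combination K4.add_self (herm u r * K4.conj (herm v r))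

theorem tau_tau {r : V4} (hr : herm r r = 0) (v : V4) : tau r (tau r v) = v := by
  rw [tau_eq r (tau r v), tau_eq r v, herm_add_left, herm_smul_left, hr, mul_zero, add_zero, add_assoc,
    vadd_self, add_zero]

theorem norm_one {a : K4} (ha : a ≠ 0) : K4.conj a * a = 1 := by
  have : ∀ a : K4, a ≠ 0 → K4.conj a * a = 1 := by decide
  exact this a ha

theorem tau_smul_center {a : K4} (ha : a ≠ 0) (r v : V4) : tau (a • r) v = tau r v := by
  rw [tau_eq, tau_eq, herm_smul_right, smul_smul,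
    show K4.conj a * herm v r * a = K4.conj a * a * herm v r by ring, norm_one ha, one_mul]

theorem Iso.smul {r : V4} (hr : Iso r) {a : K4} (ha : a ≠ 0) : Iso (a • r) :=
  ⟨fun h => hr.1 ((smul_eq_zero.1 h).resolve_left ha),
    by rw [herm_smul_left, herm_smul_right, hr.2, mul_zero, mul_zero]⟩

theorem Iso.ne_of_smul {r s : V4} (hs : Iso s) {a : K4} (h : s = a • r) : a ≠ 0 := by
  rintro rfl
  exact hs.1 (by rw [h, zero_smul])

theorem Gam.lin {g : V4 → V4} (hg : Gam g) :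
    (∀ u v, g (u + v) = g u + g v) ∧ (∀ (a : K4) v, g (a • v) = a • g v) ∧
      (∀ u v, herm (g u) (g v) = herm u v) := by
  induction hg with
  | refl => exact ⟨fun _ _ => rfl, fun _ _ => rfl, fun _ _ => rfl⟩
  | @step g r hr _ ih =>
    exact ⟨fun u v => by show tau r _ = _; rw [ih.1, tau_add], fun a v => by show tau r _ = _; rw [ih.2.1, tau_smul],
      fun u v => by rw [tau_herm hr.2, ih.2.2]⟩

theorem Gam.tau {r : V4} (hr : Iso r) : Gam (U62.tau r) := Gam.step hr Gam.refl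

theorem Gam.comp {g h : V4 → V4} (hg : Gam g) (hh : Gam h) : Gam (fun v => g (h v)) := by
  induction hg with
  | refl => exact hh
  | @step g r hr _ ih => exact Gam.step hr ih

theorem Gam.exists_inv {g : V4 → V4} (hg : Gam g) : ∃ g', Gam g' ∧ (∀ v, g' (g v) = v) ∧ ∀ v, g (g' v) = v := by
  induction hg with
  | refl => exact ⟨_, Gam.refl, fun _ => rfl, fun _ => rfl⟩
  | @step g r hr _ ih =>
    obtain ⟨g', hg', h1, h2⟩ := ih
    refine ⟨fun v => g' (U62.tau r v), hg'.comp (Gam.tau hr), fun v => ?_, fun v => ?_⟩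
    · show g' (U62.tau r (U62.tau r (g v))) = v
      rw [tau_tau hr.2, h1]
    · show U62.tau r (g (g' (U62.tau r v))) = v
      rw [h2, tau_tau hr.2]

theorem Gam.injective {g : V4 → V4} (hg : Gam g) : Function.Injective g := by
  obtain ⟨g', -, h, -⟩ := hg.exists_inv
  exact fun u v e => by rw [← h u, e, h]

theorem Gam.map_zero {g : V4 → V4} (hg : Gam g) : g 0 = 0 := by
  have := hg.lin.2.1 0 0
  rwa [zero_smul, zero_smul] at this

theorem Gam.iso {g : V4 → V4} (hg : Gam g) {r : V4} (hr : Iso r) : Iso (g r) :=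
  ⟨fun h => hr.1 (hg.injective (h.trans hg.map_zero.symm)), by rw [hg.lin.2.2]; exact hr.2⟩

theorem Gam.conj_tau {g : V4 → V4} (hg : Gam g) (r v : V4) : g (U62.tau r v) = U62.tau (g r) (g v) := by
  rw [tau_eq, tau_eq, hg.lin.1, hg.lin.2.1, hg.lin.2.2]

theorem Gam.run {l : List V4} (hl : ∀ c ∈ l, Iso c) : Gam (U62.run l) := by
  induction l with
  | nil => exact Gam.refl
  | cons c l ih =>
    exact Gam.step (hl c (List.mem_cons_self ..)) (ih fun d hd => hl d (List.mem_cons_of_mem _ hd))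

theorem run_fix {l : List V4} {r : V4} (hl : ∀ c ∈ l, herm r c = 0) : run l r = r := by
  induction l with
  | nil => rfl
  | cons c l ih =>
    show tau c (run l r) = r
    rw [ih fun d hd => hl d (List.mem_cons_of_mem _ hd), tau_eq, hl c (List.mem_cons_self ..), zero_smul, add_zero]

theorem eq_zero_of_perp {r : V4} (h : ∀ k, Iso k → herm k r = 0) : r = 0 := by
  have h' : ∀ v, herm v r = 0 := span0 (P := fun v => herm v r = 0)
    (fun u v hu hv => by rw [herm_add_left, hu, hv, add_zero]) h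
  funext i
  have hi := h' (Pi.single i 1)
  fin_cases i <;> simp [herm] at hi <;> exact hi

theorem exists_not_perp {r : V4} (hr : r ≠ 0) : ∃ k, Iso k ∧ herm k r ≠ 0 := by
  by_contra h
  exact hr (eq_zero_of_perp fun k hk => not_not.1 fun hne => h ⟨k, hk, hne⟩)

theorem exists_herm {r : V4} (hr : r ≠ 0) (a : K4) : ∃ v, herm v r = a := by
  obtain ⟨k, -, hk⟩ := exists_not_perp hr
  exact ⟨(a * (herm k r)⁻¹) • k, by rw [herm_smul_left, mul_assoc, inv_mul_cancel₀ hk, mul_one]⟩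

theorem parallel_of_tau {r s : V4} (hr : Iso r) (hs : Iso s) (h : ∀ v, tau r v = tau s v) : ∃ a : K4, s = a • r := by
  obtain ⟨v, hv⟩ := exists_herm hs.1 1
  have := h v
  rw [tau_eq, tau_eq, hv, one_smul, add_right_inj] at this
  exact ⟨_, this.symm⟩

theorem to_base {r : V4} (hr : Iso r) : ∃ g, Gam g ∧ g r0 = r := by
  obtain ⟨l, hl, h⟩ := reach hr
  exact ⟨_, Gam.run hl, h⟩

theorem to_orth {r s : V4} (hr : Iso r) (hs : Iso s) (h : herm s r = 0) (hne : ∀ a : K4, s ≠ a • r) :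
    ∃ (g : V4 → V4) (a : K4), Gam g ∧ a ≠ 0 ∧ g r0 = r ∧ g r1 = a • s := by
  obtain ⟨g, hg, hgr⟩ := to_base hr
  obtain ⟨g', hg', h1, h2⟩ := hg.exists_inv
  rcases reach_orth (hg'.iso hs) (by rw [← hg.lin.2.2, h2, hgr]; exact h) with ⟨a, ha⟩ | ⟨a, ha, l, hl, hrun⟩
  · exact absurd (by rw [← h2 s, ha, hg.lin.2.1, hgr]) (hne a)
  · refine ⟨fun v => g (run l v), a, hg.comp (Gam.run fun c hc => (hl c hc).1), ha, ?_, ?_⟩
    · show g (run l r0) = r
      rw [run_fix fun c hc => (hl c hc).2, hgr]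
    · show g (run l r1) = _
      rw [hrun, hg.lin.2.1, h2]

theorem to_far {r s : V4} (hr : Iso r) (hs : Iso s) (h : herm s r ≠ 0) :
    ∃ (g : V4 → V4) (a : K4), Gam g ∧ a ≠ 0 ∧ g r0 = r ∧ g s0 = a • s := by
  obtain ⟨g, hg, hgr⟩ := to_base hr
  obtain ⟨g', hg', h1, h2⟩ := hg.exists_inv
  obtain ⟨a, ha, l, hl, hrun⟩ := reach_far (hg'.iso hs) (by rw [← hg.lin.2.2, h2, hgr]; exact h)
  refine ⟨fun v => g (run l v), a, hg.comp (Gam.run fun c hc => (hl c hc).1), ha, ?_, ?_⟩
  · show g (run l r0) = r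
    rw [run_fix fun c hc => (hl c hc).2, hgr]
  · show g (run l s0) = _
    rw [hrun, hg.lin.2.1, h2]

theorem sub_perp {r s : V4} (hr : Iso r) (hs : Iso s) (h : ∀ k, Iso k → herm k r = 0 → herm k s = 0) :
    ∃ a : K4, s = a • r := by
  obtain ⟨g, hg, hgr⟩ := to_base hr
  obtain ⟨g', hg', h1, h2⟩ := hg.exists_inv
  obtain ⟨a, ha⟩ := sub_perp0 (hg'.iso hs) fun k hk hk0 => by
    rw [← hg.lin.2.2, h2]
    exact h _ (hg.iso hk) (by rw [← hgr, hg.lin.2.2]; exact hk0)
  exact ⟨a, by rw [← h2 s, ha, hg.lin.2.1, hgr]⟩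

theorem common {r s : V4} (hr : Iso r) (hs : Iso s) : ∃ k, Iso k ∧ herm k r = 0 ∧ herm k s = 0 := by
  obtain ⟨g, hg, hgr⟩ := to_base hr
  obtain ⟨g', hg', h1, h2⟩ := hg.exists_inv
  obtain ⟨k, hk, hk0, hks⟩ := common0 (hg'.iso hs)
  exact ⟨g k, hg.iso hk, by rw [← hgr, hg.lin.2.2]; exact hk0, by rw [← h2 s, hg.lin.2.2]; exact hks⟩

theorem perp_twelve {r : V4} (hr : Iso r) : ∃ o : Fin 12 → V4,
    ∀ s, Iso s → herm s r = 0 → (∃ a : K4, s = a • r) ∨ ∃ i, ∃ a : K4, s = a • o i := by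
  obtain ⟨g, hg, hgr⟩ := to_base hr
  obtain ⟨g', hg', h1, h2⟩ := hg.exists_inv
  refine ⟨fun i => g (orth0 i), fun s hs h => ?_⟩
  rcases perp0 (hg'.iso hs) (by rw [← hg.lin.2.2, h2, hgr]; exact h) with ⟨a, ha⟩ | ⟨i, a, ha⟩
  · exact Or.inl ⟨a, by rw [← h2 s, ha, hg.lin.2.1, hgr]⟩
  · exact Or.inr ⟨i, a, by rw [← h2 s, ha, hg.lin.2.1]⟩

theorem perp_common {r s : V4} (hr : Iso r) (hs : Iso s) (h : herm s r ≠ 0) : ∃ c : Fin 3 → V4,
    (∀ j, Iso (c j) ∧ herm (c j) r = 0 ∧ herm (c j) s = 0) ∧ ∀ j k, ∀ a : K4, c j = a • c k → j = k := by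
  obtain ⟨g, a, hg, ha, hgr, hgs⟩ := to_far hr hs h
  refine ⟨fun j => g (com0 j), fun j => ⟨hg.iso (com0_spec j).1, ?_, ?_⟩, fun j k b e => ?_⟩
  · rw [← hgr, hg.lin.2.2]; exact (com0_spec j).2.1
  · have h3 : herm (g (com0 j)) (g s0) = 0 := by rw [hg.lin.2.2]; exact (com0_spec j).2.2
    rw [hgs, herm_smul_right] at h3
    exact (mul_eq_zero.1 h3).resolve_left ((map_ne_zero _).2 ha)
  · refine com0_indep (a := b) (hg.injective ?_)
    rw [hg.lin.2.1]; exact e

end CfsgLib.FischerLarge.U62
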