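import Cfsg.Agent.Lib.FischerLarge.U62.Far

/-!
FischerLarge/U62: the base member at distance two, its neighbours, closure of the component.
-/

set_option autoImplicit false

namespace CfsgLib.FischerLarge.U62

variable {X : Type*} [Group X] {D : Local X}

theorem G2_nonempty : ∃ w, w ∈ D.G2 := by
  obtain ⟨g, hg1, hg2⟩ := D.exists_swap
  have hadj : D.Adj D.u0 (g * D.m s0 0 * g⁻¹) := hg1 ▸ adj_of_transport s0_iso 0
  have hnc : ¬ D.z * (g * D.m s0 0 * g⁻¹) = g * D.m s0 0 * g⁻¹ * D.z := by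
    intro h
    rw [← hg2] at h
    have h1 := (conj_commute_iff g _ _).1 h
    rw [← D.t_r0, ← D.m_zero, D.m_commute_iff r0_iso s0_iso] at h1
    exact absurd h1 (by decide)
  refine ⟨_, ⟨D.u0, ⟨1, by group, by group⟩, hadj⟩, fun e => hnc ?_, fun e => hnc ?_⟩
  · rw [e]
  · exact (adj_z_iff.2 e).comm

theorem exists_base : ∃ w, w ∈ D.G2 ∧ D.σ w = w := by
  obtain ⟨w, hw⟩ := G2_nonempty (D := D)
  obtain ⟨q0, hq0, he⟩ := regular hw (σ_mem_G2 hw)
  obtain ⟨p, hp, e, hpe⟩ := D.exists_shift q0 hq0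
  have hp' := D.σ_mem p hp
  have hpw := conj_mem_G2 (D.Q_comm p hp) hw
  refine ⟨p * w * p⁻¹, hpw, ?_⟩
  obtain ⟨b, hb⟩ : ∃ b, D.σ p * q0 = p * D.zp b := by
    refine ⟨xor e (herm (D.π q0) (D.π (D.σ p))).b1, ?_⟩
    rw [D.swap hq0 hp', hpe, mul_assoc, D.zp_mul]
  have h1 : D.σ (p * w * p⁻¹) = D.zp b * (p * w * p⁻¹) * (D.zp b)⁻¹ := by
    rw [_root_.map_mul, _root_.map_mul, _root_.map_inv, ← he,
      show D.σ p * (q0 * w * q0⁻¹) * (D.σ p)⁻¹ = (D.σ p * q0) * w * (D.σ p * q0)⁻¹ by group, hb,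
      D.zp_central hp]
    group
  have h3 := D.σ_cube (p * w * p⁻¹)
  generalize p * w * p⁻¹ = w' at h1 h3 hpw ⊢
  have h2 : D.σ (D.σ w') = w' := by
    rw [h1, _root_.map_mul, _root_.map_mul, _root_.map_inv, h1, D.σ_zp, D.zp_inv]
    calc D.zp b * (D.zp b * w' * D.zp b) * D.zp b = (D.zp b * D.zp b) * w' * (D.zp b * D.zp b) := by group
      _ = w' := by rw [D.zp_sq, one_mul, mul_one]
  rwa [h2] at h3

variable (D)

/-- The member at distance two fixed by `σ`. -/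
noncomputable def Local.W : X := (exists_base (D := D)).choose

variable {D}

theorem Local.W_mem : D.W ∈ D.G2 := (exists_base (D := D)).choose_spec.1

theorem Local.σ_W : D.σ D.W = D.W := (exists_base (D := D)).choose_spec.2

theorem G2_rep {x : X} (hx : x ∈ D.G2) : ∃ q ∈ D.Q, x = q * D.W * q⁻¹ := by
  obtain ⟨q, hq, h⟩ := regular D.W_mem hx
  exact ⟨q, hq, h.symm⟩

theorem conj_W_eq {q q' : X} (hq : q ∈ D.Q) (hq' : q' ∈ D.Q) (h : q * D.W * q⁻¹ = q' * D.W * q'⁻¹) : q = q' := by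
  have := free D.W_mem (D.Q.mul_mem (D.Q.inv_mem hq') hq) (by
    calc q'⁻¹ * q * D.W * (q'⁻¹ * q)⁻¹ = q'⁻¹ * (q * D.W * q⁻¹) * q' := by group
      _ = D.W := by rw [h]; group)
  exact (inv_mul_eq_one.1 this).symm

theorem adj_t_W {r : V4} (hr : Iso r) : D.Adj (D.t r) D.W := by
  obtain ⟨a, ha⟩ := secant D.W_mem hr
  have h1 := ha.map_σ
  rw [D.σ_W, D.σ_m hr] at h1
  have h2 := line_unique hr D.W_mem.2.1 D.W_mem.2.2 ha h1
  have : ∀ x : K4, x = K4.om * x → x = 0 := by decide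
  rw [this a h2, D.m_zero] at ha
  exact ha

theorem adj_m_conj_W {r : V4} (hr : Iso r) (v : V4) (e : Bool) (a : K4) :
    D.Adj (D.m r a) (D.th v * D.zp e * D.W * (D.th v * D.zp e)⁻¹) ↔ a = herm v r := by
  have h0 := (adj_t_W (D := D) hr).conj (D.th v * D.zp e)
  rw [← D.m_zero, th_zp_conj_m hr, add_zero] at h0
  refine ⟨fun h => ?_, fun h => h ▸ h0⟩
  have hmem := conj_mem_G2 (D.Q_comm _ (D.Q.mul_mem (D.th_mem v) (D.zp_mem e))) D.W_mem
  exact line_unique hr hmem.2.1 hmem.2.2 h h0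

theorem adj_of_commute_far {u w : X} (hu : u ∈ D.G1) (hw : w ∈ D.G2) (h : u * w = w * u) : D.Adj u w := by
  obtain ⟨r, a, hr, rfl⟩ := D.G1_iff.1 hu
  obtain ⟨b, hb⟩ := secant hw hr
  by_cases hne : D.m r b = D.m r a
  · rw [← hne]; exact hb
  exfalso
  have hadj := adj_m hr hr b a hr.2 hne
  have hz : D.Adj (D.m r b) D.z := (adj_z_iff.2 (D.mem_G1 hr b)).symm
  refine not_commute_far hw ?_
  refine ((commute_set_eq hz hadj (fun k hk hkz => ?_) hb).2 h.symm).symm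
  by_cases hk' : k = D.z
  · rw [hk']; exact (D.m_comm_z hr a).symm
  · obtain ⟨p, c, hp, rfl⟩ := D.G1_iff.1 (adj_z_iff.1 (adj_of_commute hz hk (Ne.symm hk') hkz.symm))
    exact (D.m_commute_iff hp hr c a).2 ((D.m_commute_iff hp hr c b).1 hk.comm.symm)

theorem z_W_braid : D.z * D.W * D.z = D.W * D.z * D.W := by
  have h := adj_t_W (D := D) r0_iso
  have hz : D.Adj (D.t r0) D.z := by
    rw [← D.m_zero]; exact (adj_z_iff.2 (D.mem_G1 r0_iso 0)).symm
  exact braid_of_not_commute hz h (not_commute_far D.W_mem)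

theorem lift_conj_W {r : V4} (hr : Iso r) (a : K4) {g : X} {q : V4} {e : K4} (hq : Iso q)
    (hu : D.t r = g * D.z * g⁻¹) (hw : D.W = g * D.m q e * g⁻¹) :
    ∃ f, D.th (a • r) * D.W * (D.th (a • r))⁻¹ = g * D.m q f * g⁻¹ := by
  by_cases ha : a = 0
  · refine ⟨e, ?_⟩
    rw [ha, zero_smul, D.th_zero, one_mul, inv_one, mul_one, hw]
  have hzr : D.Adj (D.t r) D.z := by rw [← D.m_zero]; exact (adj_z_iff.2 (D.mem_G1 hr 0)).symm
  have hmr : D.Adj (D.t r) (D.m r a) := by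
    rw [← D.m_zero]
    refine adj_m hr hr 0 a hr.2 fun h => ?_
    obtain ⟨l, hl0, -, h2⟩ := D.m_inj hr hr h
    exact ha ((mul_eq_zero.1 h2.symm).resolve_right hl0)
  obtain ⟨p, c, hp, hz⟩ := hzr.transport hu
  obtain ⟨p2, c2, hp2, hm⟩ := hmr.transport hu
  obtain ⟨l, hl⟩ := sub_perp hp hp2 fun k hk hk0 => by
    have h1 : D.Adj (D.t r) (g * D.m k 0 * g⁻¹) := hu ▸ adj_of_transport hk 0
    have h2 : g * D.m k 0 * g⁻¹ * D.z = D.z * (g * D.m k 0 * g⁻¹) := by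
      conv_lhs => rw [hz]
      conv_rhs => rw [hz]
      exact (conj_commute_iff g _ _).2 ((D.m_commute_iff hk hp _ _).2 hk0)
    have h3 : g * D.m k 0 * g⁻¹ * D.m r a = D.m r a * (g * D.m k 0 * g⁻¹) := by
      by_cases hkz : g * D.m k 0 * g⁻¹ = D.z
      · rw [hkz]; exact (D.m_comm_z hr a).symm
      · obtain ⟨s, d, hs, he⟩ := D.G1_iff.1 (adj_z_iff.1 (adj_of_commute hzr h1 (Ne.symm hkz) h2.symm))
        have hsr : herm r s = 0 := (D.m_commute_iff hr hs 0 d).1 (by rw [D.m_zero, ← he]; exact h1.comm)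
        rw [he]
        exact ((D.m_commute_iff hr hs a d).2 hsr).symm
    rw [hm, conj_commute_iff, D.m_commute_iff hk hp2] at h3
    exact h3
  have hl0 := hp2.ne_of_smul hl
  have hP : D.m p c * D.m p2 c2 ∈ D.Q := by
    have hact : D.Acts (D.m p c * D.m p2 c2) (fun v => v) :=
      (Local.Acts.mul (g := tau p) (h := tau p2) (D.m_comm_z hp2 c2) (D.m_acts hp c) (D.m_acts hp2 c2)).congr
        fun v => by rw [hl, tau_smul_center hl0, tau_tau hp.2]
    exact D.faithful _ (mul_comm_z (D.m_comm_z hp c) (D.m_comm_z hp2 c2)) hact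
  obtain ⟨b, hb⟩ := D.exists_rep hP
  refine ⟨herm (D.π (D.m p c * D.m p2 c2)) q + e, ?_⟩
  have hconj : D.th (a • r) * D.W * (D.th (a • r))⁻¹ = D.z * D.m r a * D.W * (D.z * D.m r a)⁻¹ := by
    have ht : D.t r * D.W = D.W * D.t r := (adj_t_W hr).comm
    have e1 : D.z * D.m r a = D.th (a • r) * D.t r := by
      rw [Local.m, show decide (a ≠ 0) = true by simpa using ha, show D.zp true = D.z from rfl]
      calc D.z * (D.th (a • r) * D.z * D.t r) = (D.z * D.th (a • r)) * D.z * D.t r := by group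
        _ = D.th (a • r) * (D.z * D.z) * D.t r := by rw [← D.Q_comm _ (D.th_mem _)]; group
        _ = D.th (a • r) * D.t r := by rw [D.z_sq, mul_one]
    rw [e1, show D.th (a • r) * D.t r * D.W * (D.th (a • r) * D.t r)⁻¹ =
      D.th (a • r) * (D.t r * D.W * (D.t r)⁻¹) * (D.th (a • r))⁻¹ by group, ht, mul_inv_cancel_right]
  rw [hconj, ← th_zp_conj_m hq (D.π (D.m p c * D.m p2 c2)) b e, ← hb]
  conv_lhs => rw [hz, hm, hw]
  group

theorem adj_W_conj {v : V4} (hv : Iso v) : D.Adj D.W (D.th v * D.W * (D.th v)⁻¹) := by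
  obtain ⟨g, hu, -⟩ := id (adj_t_W (D := D) hv)
  obtain ⟨q, e, hq, hw⟩ := (adj_t_W (D := D) hv).transport hu
  obtain ⟨f, hf⟩ := lift_conj_W hv 1 hq hu hw
  rw [one_smul] at hf
  have h2 : D.Adj (D.t v) (D.th v * D.W * (D.th v)⁻¹) := by
    have := (adj_t_W (D := D) hv).conj (D.th v)
    rwa [D.th_conj_t hv, hv.2, D.m_zero] at this
  refine adj_of_commute (adj_t_W hv) h2 (fun h => ?_) ?_
  · have h3 := free D.W_mem (D.th_mem v) h.symm
    refine hv.1 ?_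
    rw [← D.π_th v, h3, D.π_one]
  · rw [hf, hw, conj_commute_iff]
    exact (D.m_commute_iff hq hq _ _).2 hq.2

theorem near_W {x : X} (h : D.Adj D.W x) :
    ∃ r, Iso r ∧ (x = D.t r ∨ (D.Adj (D.t r) x ∧
      ∀ k, D.Adj D.W k → k * D.t r = D.t r * k → k * x = x * k)) := by
  obtain ⟨g, hW, -⟩ := id h
  obtain ⟨s, b, hs, hx⟩ := h.transport hW
  have hG2 : g⁻¹ * D.z * g⁻¹⁻¹ ∈ D.G2 := by
    have ha : D.Adj D.W (D.t r0) := (adj_t_W r0_iso).symm
    obtain ⟨p, c, hp, hp'⟩ := ha.transport hW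
    have hnc : ¬ D.z * (g⁻¹ * D.z * g⁻¹⁻¹) = g⁻¹ * D.z * g⁻¹⁻¹ * D.z := by
      intro e
      refine not_commute_far D.W_mem ?_
      have := (conj_commute_iff g _ _).2 e
      rw [← hW, show g * (g⁻¹ * D.z * g⁻¹⁻¹) * g⁻¹ = D.z by group] at this
      exact this.symm
    refine ⟨⟨D.m p c, D.mem_G1 hp c, ?_⟩, fun e => hnc (by rw [e]), fun e => hnc (adj_z_iff.2 e).comm⟩
    refine Local.Adj.of_conj (g := g) ?_
    rw [← hp', show g * (g⁻¹ * D.z * g⁻¹⁻¹) * g⁻¹ = D.z by group, ← D.m_zero]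
    exact (adj_z_iff.2 (D.mem_G1 r0_iso 0)).symm
  obtain ⟨b', hb'⟩ := secant hG2 hs
  have hy := hb'.conj g
  rw [show g * (g⁻¹ * D.z * g⁻¹⁻¹) * g⁻¹ = D.z by group] at hy
  obtain ⟨r, a, hr, hya⟩ := D.G1_iff.1 (adj_z_iff.1 hy.symm)
  have hWy : D.Adj D.W (g * D.m s b' * g⁻¹) := hW ▸ adj_of_transport hs b'
  have ha : a = 0 := by
    have h1 := (hya ▸ hWy).symm
    exact line_unique hr D.W_mem.2.1 D.W_mem.2.2 h1 (by rw [D.m_zero]; exact adj_t_W hr)
  rw [ha, D.m_zero] at hya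
  refine ⟨r, hr, ?_⟩
  by_cases hxy : x = D.t r
  · exact Or.inl hxy
  refine Or.inr ⟨?_, fun k hk hkt => ?_⟩
  · refine (adj_of_commute (hya ▸ hWy) h (Ne.symm hxy) ?_)
    rw [← hya, hx, conj_commute_iff]
    exact (D.m_commute_iff hs hs _ _).2 hs.2
  · obtain ⟨p, c, hp, rfl⟩ := hk.transport hW
    rw [← hya, conj_commute_iff, D.m_commute_iff hp hs] at hkt
    rw [hx, conj_commute_iff]
    exact (D.m_commute_iff hp hs _ _).2 hkt

theorem exists_conj_of_adj_W {x : X} (hx : x ∈ D.G2) (h : D.Adj D.W x) :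
    ∃ v, Iso v ∧ x = D.th v * D.W * (D.th v)⁻¹ := by
  obtain ⟨r, hr, hor⟩ := near_W h
  rcases hor with rfl | ⟨hux, hline⟩
  · exact absurd (by rw [← D.m_zero]; exact D.mem_G1 hr 0) hx.2.2
  obtain ⟨g, hu, -⟩ := id (adj_t_W (D := D) hr)
  obtain ⟨q, e, hq, hw⟩ := (adj_t_W (D := D) hr).transport hu
  obtain ⟨q', e', hq', hxe⟩ := hux.transport hu
  obtain ⟨l, hl⟩ := sub_perp hq hq' fun k hk hk0 => by
    have h1 : D.Adj (D.t r) (g * D.m k 0 * g⁻¹) := hu ▸ adj_of_transport hk 0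
    have h2 : g * D.m k 0 * g⁻¹ * x = x * (g * D.m k 0 * g⁻¹) := by
      by_cases hkW : g * D.m k 0 * g⁻¹ = D.W
      · rw [hkW]; exact h.comm
      · refine hline _ (adj_of_commute (adj_t_W hr) h1 (Ne.symm hkW) ?_) h1.comm.symm
        rw [hw, conj_commute_iff]
        exact ((D.m_commute_iff hk hq _ _).2 hk0).symm
    rw [hxe, conj_commute_iff, D.m_commute_iff hk hq'] at h2
    exact h2
  have hl0 := hq'.ne_of_smul hl
  rw [hl, D.m_smul hq hl0] at hxe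
  choose f hf using fun a => lift_conj_W hr a hq hu hw
  have hinj : Function.Injective f := by
    intro a a' haa
    have h1 := conj_W_eq (D.th_mem _) (D.th_mem _) (((hf a).trans (by rw [haa])).trans (hf a').symm)
    have h2 := congrArg D.π h1
    rw [D.π_th, D.π_th] at h2
    by_contra hne
    exact hne (sub_eq_zero.1 ((smul_eq_zero.1 (show (a - a') • r = 0 by rw [sub_smul, h2, sub_self])).resolve_right hr.1))
  obtain ⟨a, ha⟩ := (Finite.injective_iff_surjective.1 hinj) (e' * l)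
  by_cases ha0 : a = 0
  · exfalso
    refine h.ne ?_
    have h3 := hf a
    rw [ha, ha0, zero_smul, D.th_zero, one_mul, inv_one, mul_one] at h3
    rw [h3, hxe]
  · exact ⟨a • r, hr.smul ha0, by rw [hf a, ha, hxe]⟩

theorem mem_T0_of_adj {x y : X} (hx : x ∈ D.T0) (h : D.Adj x y) : y ∈ D.T0 := by
  have hG : ∀ {x y : X}, x ∈ D.G1 → D.Adj x y → y ∈ D.T0 := by
    intro x y hx h
    by_cases hy : y = D.z
    · exact Or.inl hy
    by_cases hc : D.z * y = y * D.z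
    · exact Or.inr (Or.inl (adj_z_iff.1 (adj_of_commute (adj_z_iff.2 hx).symm h (Ne.symm hy) hc)))
    · exact Or.inr (Or.inr ⟨⟨x, hx, h⟩, hy, fun e => hc (adj_z_iff.2 e).comm⟩)
  rcases hx with rfl | hx | hx
  · exact Or.inr (Or.inl (adj_z_iff.1 h))
  · exact hG hx h
  · obtain ⟨q, hq, rfl⟩ := G2_rep hx
    have h' := h.conj q⁻¹
    rw [show q⁻¹ * (q * D.W * q⁻¹) * q⁻¹⁻¹ = D.W by group] at h'
    have hy : y = q * (q⁻¹ * y * q⁻¹⁻¹) * q⁻¹ := by group
    obtain ⟨r, hr, e | ⟨hr', -⟩⟩ := near_W h'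
    · refine Or.inr (Or.inl ?_)
      rw [hy, e, ← D.m_zero]
      exact conj_mem_G1 (D.Q_comm q hq) (D.mem_G1 hr 0)
    · have hadj := hr'.conj q
      rw [← hy] at hadj
      exact hG (by rw [← D.m_zero]; exact conj_mem_G1 (D.Q_comm q hq) (D.mem_G1 hr 0)) hadj

theorem conj_mem_T0 {g x : X} (hg : g * D.z * g⁻¹ ∈ D.T0) (hx : x ∈ D.T0) : g * x * g⁻¹ ∈ D.T0 := by
  rcases hx with rfl | hx | ⟨⟨u, hu, huw⟩, -, -⟩
  · exact hg
  · exact mem_T0_of_adj hg ((adj_z_iff.2 hx).conj g)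
  · exact mem_T0_of_adj (mem_T0_of_adj hg ((adj_z_iff.2 hu).conj g)) (huw.conj g)

theorem exists_conj_z_of_mem {x : X} (hx : x ∈ D.T0) : ∃ g, x = g * D.z * g⁻¹ := by
  rcases hx with rfl | hx | ⟨⟨u, -, huw⟩, -, -⟩
  · exact ⟨1, by group⟩
  · obtain ⟨g, hg, -⟩ := (adj_z_iff.2 hx).symm
    exact ⟨g, hg⟩
  · obtain ⟨g, hg, -⟩ := huw.symm
    exact ⟨g, hg⟩

theorem third_base {x : X} (hx : x ∈ D.T0) (h : ∀ r, Iso r → x * D.t r = D.t r * x) :
    x = D.z ∨ x = D.W ∨ x = D.z * D.W * D.z := by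
  rcases hx with hx | hx | hx
  · exact Or.inl hx
  · exfalso
    obtain ⟨r, a, hr, rfl⟩ := D.G1_iff.1 hx
    obtain ⟨k, hk, hkr⟩ := exists_not_perp hr.1
    have := h k hk
    rw [← D.m_zero, D.m_commute_iff hr hk] at this
    exact hkr (herm_eq_zero_symm this)
  · obtain ⟨q, hq, rfl⟩ := G2_rep hx
    obtain ⟨e, he⟩ := D.exists_rep hq
    have hv : D.π q = 0 := eq_zero_of_perp fun r hr => by
      have h1 := adj_of_commute_far (u := D.t r) (by rw [← D.m_zero]; exact D.mem_G1 hr 0) hx (h r hr).symm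
      rw [← D.m_zero, he, adj_m_conj_W hr] at h1
      exact herm_eq_zero_symm h1.symm
    rw [he, hv, D.th_zero, one_mul]
    cases e
    · exact Or.inr (Or.inl (by simp [Local.zp]))
    · exact Or.inr (Or.inr (by simp [Local.zp, D.z_inv]))

end CfsgLib.FischerLarge.U62
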