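import Cfsg.Agent.Lib.FischerLarge.U62.Four
import Cfsg.Agent.Lib.FischerLarge.U62.Coord

/-!
FischerLarge/U62: the centraliser of the four-group modulo the four-group has the local data of `PSU(6,2)`.
-/

set_option autoImplicit false
set_option linter.style.haveILetI false
set_option linter.unusedSectionVars false

namespace CfsgLib.FischerLarge.U62

open scoped Classical symmDiff
open Cfsg CfsgLib.Golay CfsgLib.Fischer.UnitaryPoint

universe u

variable {G : Type u} [Group G] [Finite G] {z : G} {P : Type} [Group P] [Finite P] {Q M : Subgroup (Cz z)}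
  [hQn : Q.Normal] {V : Type u} [AddCommGroup V] [Module K4 V] [Finite V] {L : Subgroup (V ≃ₗ[K4] V)} {f : L →* P}
  {h : V → V → K4} {π : Cz z → V} {Ly : Layer z (QG' Q)}

/-- The setting: a scalar element fixing the points `3`, `4` and a point `pf` of the third tetrad. -/
structure Setup (Q M : Subgroup (Cz z)) [Q.Normal] (L : Subgroup (V ≃ₗ[K4] V)) (f : L →* P) (h : V → V → K4)
    (π : Cz z → V) (Ly : Layer z (QG' Q)) (x : Cz z) (pf : GolayPt) : Prop where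
  ctx : Ctx Q M L f h π Ly
  hx : ScalarElt Q π x
  hd : Ly.act (ctx.xN hx) (pt 3) = pt 3
  he : Ly.act (ctx.xN hx) (pt 4) = pt 4
  hpf : tb pf = 2
  hfix : Ly.act (ctx.xN hx) pf = pf

variable {x : Cz z} {pf : GolayPt}

/-- The base vector. -/
noncomputable abbrev baseV (π : Cz z → V) (Ly : Layer z (QG' Q)) : V := vecG π (Ly.D (pt 0) (pt 1))

namespace Setup

variable (S : Setup Q M L f h π Ly x pf)
include S

theorem out_pf : Out pf := out_of_tb (by rw [S.hpf]; decide)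

theorem pf_ne : pt 3 ≠ pf ∧ pt 4 ≠ pf := by
  constructor <;> intro e <;> have := S.hpf <;> rw [← e] at this <;> revert this <;> decide +kernel

theorem mem_Q_duad {p q : GolayPt} (h' : tb q = tb p) : Ly.D p q ∈ QG' Q := S.ctx.in_tet_mem h'

theorem base_mem : Ly.D (pt 0) (pt 1) ∈ QG' Q :=
  S.mem_Q_duad (by rw [tb_small.1, tb_small.2.1])

theorem v_ne : baseV π Ly ≠ 0 := S.ctx.vec_duad pt_small_ne.1 (by rw [tb_small.1, tb_small.2.1])

theorem hx3 : (x : G) * (x : G) * (x : G) = 1 := by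
  have := congrArg Subtype.val S.hx.1
  rwa [Subgroup.coe_pow, pow_succ, pow_two, OneMemClass.coe_one] at this

theorem vecG_inv {a : G} (ha : a ∈ QG' Q) : vecG π a⁻¹ = vecG π a := by
  obtain ⟨ha1, ha2⟩ := mem_QG'.1 ha
  rw [show a⁻¹ = (((⟨a, ha1⟩ : Cz z)⁻¹ : Cz z) : G) from rfl, vecG_coe, S.ctx.frame.map_inv ha2,
    show vecG π a = π ⟨a, ha1⟩ from dif_pos ha1]

/-- The second generator of the four-group, with vector `ω v`. -/
theorem exists_om : ∃ e ∈ fourGroup Ly, vecG π e = (K4.om : K4) • baseV π Ly ∧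
    ∀ c : G, Ly.D (pt 0) (pt 1) * c = c * Ly.D (pt 0) (pt 1) → e * c = c * e → c ∈ CE Ly := by
  set e1 := Ly.D (pt 0) (pt 1)
  have he1 : e1 ∈ fourGroup Ly := D_mem_fourGroup Ly (Or.inl rfl) (Or.inr (Or.inl rfl))
  have hv : vecG π ((x : G) * e1 * (x : G)⁻¹) = (K4.om : K4) • baseV π Ly := S.ctx.x_vec S.hx S.base_mem
  refine ⟨_, x_conj_four S.ctx S.hx S.hd he1, hv, fun c h1 h2 => Subgroup.mem_centralizer_iff.2 fun e he => ?_⟩
  have hom : ∀ a : V, (K4.om : K4) • a = a → a = 0 := fun a ha => by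
    have h' : ((K4.om : K4) + 1) • a = 0 := by rw [add_smul, one_smul, ha, S.ctx.frame.add_self]
    exact (smul_eq_zero.1 h').resolve_left (by decide)
  have hne1 : (x : G) * e1 * (x : G)⁻¹ ≠ 1 := fun e' => Ly.D_ne_one pt_small_ne.1 (conj_eq_one_iff.1 e')
  have hne2 : (x : G) * e1 * (x : G)⁻¹ ≠ e1 := fun e' => S.v_ne (hom _ (by rw [← hv, e']))
  have hcom : Commute c e1 := h1.symm
  have hcom' : Commute c ((x : G) * e1 * (x : G)⁻¹) := h2.symm
  rcases x_conj_four S.ctx S.hx S.hd he1 with e' | e' | e' | e'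
  · exact absurd e' hne1
  · exact absurd e' hne2
  · rw [e'] at hcom'
    rcases he with rfl | rfl | rfl | rfl
    exacts [by rw [one_mul, mul_one], h1, hcom'.symm.eq,
      by rw [← (D_mul_chain Ly (pt 0) (pt 1) (pt 2)).1]; exact (hcom.mul_right hcom').symm.eq]
  · rw [e'] at hcom'
    rcases he with rfl | rfl | rfl | rfl
    exacts [by rw [one_mul, mul_one], h1,
      by rw [← Ly.D_trans (pt 0) (pt 1) (pt 2)]; exact (hcom.mul_right hcom').symm.eq, hcom'.symm.eq]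

theorem four_vec {e : G} (he : e ∈ fourGroup Ly) : ∃ k : K4, vecG π e = k • baseV π Ly := by
  set e1 := Ly.D (pt 0) (pt 1)
  obtain ⟨h01, h02, -, h12, -, -⟩ := pt_small_ne
  have he1 : e1 ∈ fourGroup Ly := D_mem_fourGroup Ly (Or.inl rfl) (Or.inr (Or.inl rfl))
  have hv : vecG π ((x : G) * e1 * (x : G)⁻¹) = (K4.om : K4) • baseV π Ly := S.ctx.x_vec S.hx S.base_mem
  have hQ := fun {a} (ha : a ∈ fourGroup Ly) => fourGroup_le_Q S.ctx ha
  have hom : ∀ a : V, (K4.om : K4) • a = a → a = 0 := fun a ha => by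
    have h' : ((K4.om : K4) + 1) • a = 0 := by rw [add_smul, one_smul, ha, S.ctx.frame.add_self]
    exact (smul_eq_zero.1 h').resolve_left (by decide)
  have h0 : vecG π (1 : G) = 0 := (S.ctx.vecG_eq_zero (one_mem _)).2 (Or.inl rfl)
  have hsum : vecG π (e1 * ((x : G) * e1 * (x : G)⁻¹)) = ((1 : K4) + K4.om) • baseV π Ly := by
    rw [S.ctx.vecG_mul (hQ he1) (hQ (x_conj_four S.ctx S.hx S.hd he1)), hv, add_smul, one_smul]
  rcases x_conj_four S.ctx S.hx S.hd he1 with e' | e' | e' | e'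
  · exact absurd (conj_eq_one_iff.1 e') (Ly.D_ne_one h01)
  · exact absurd (hom _ (by rw [← hv, e'])) S.v_ne
  · rw [e'] at hv hsum
    rw [(D_mul_chain Ly (pt 0) (pt 1) (pt 2)).1] at hsum
    rcases he with rfl | rfl | rfl | rfl
    exacts [⟨0, by rw [h0, zero_smul]⟩, ⟨1, by rw [one_smul]⟩, ⟨_, hv⟩, ⟨_, hsum⟩]
  · rw [e'] at hv hsum
    rw [Ly.D_trans] at hsum
    rcases he with rfl | rfl | rfl | rfl
    exacts [⟨0, by rw [h0, zero_smul]⟩, ⟨1, by rw [one_smul]⟩, ⟨_, hsum⟩, ⟨_, hv⟩]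

theorem comm_iff {a b : G} (ha : a ∈ QG' Q) (hb : b ∈ QG' Q) :
    a * b = b * a ↔ (h (vecG π a) (vecG π b)).b1 = false := by
  obtain ⟨ha1, ha2⟩ := mem_QG'.1 ha
  obtain ⟨hb1, hb2⟩ := mem_QG'.1 hb
  rw [show vecG π a = π ⟨a, ha1⟩ from dif_pos ha1, show vecG π b = π ⟨b, hb1⟩ from dif_pos hb1,
    ← S.ctx.frame.comm _ ha2 _ hb2]
  exact ⟨fun e => Subtype.ext e, fun e => congrArg Subtype.val e⟩

theorem mem_CE_iff {q : G} (hq : q ∈ QG' Q) : q ∈ CE Ly ↔ h (vecG π q) (baseV π Ly) = 0 := by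
  have hQ := fun {a} (ha : a ∈ fourGroup Ly) => fourGroup_le_Q S.ctx ha
  constructor
  · intro hc
    obtain ⟨e, he, hev, -⟩ := S.exists_om
    have h1 := (S.comm_iff hq S.base_mem).1
      ((Subgroup.mem_centralizer_iff.1 hc _ (D_mem_fourGroup Ly (Or.inl rfl) (Or.inr (Or.inl rfl)))).symm)
    have h2 := (S.comm_iff hq (hQ he)).1 ((Subgroup.mem_centralizer_iff.1 hc _ he).symm)
    rw [hev, S.ctx.frame.cover.smul_right] at h2
    have hd : ∀ s : K4, s.b1 = false → (K4.conj .om * s).b1 = false → s = 0 := by decide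
    exact hd _ h1 h2
  · intro h0
    refine Subgroup.mem_centralizer_iff.2 fun e he => ((S.comm_iff hq (hQ he)).2 ?_).symm
    obtain ⟨k, hk⟩ := S.four_vec he
    rw [hk, S.ctx.frame.cover.smul_right, h0, mul_zero]
    rfl

/-- Elements centralising `z` and the four-group lie in `M`. -/
theorem mem_M {g : G} (hg : g ∈ CE Ly) (hgz : g * z = z * g) :
    (⟨g, Subgroup.mem_centralizer_singleton_iff.2 hgz⟩ : Cz z) ∈ M := by
  by_contra hn
  set c : Cz z := ⟨g, Subgroup.mem_centralizer_singleton_iff.2 hgz⟩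
  obtain ⟨e, he, hes⟩ := S.ctx.outer c hn
  obtain ⟨e2, he2, hev, -⟩ := S.exists_om
  have key : ∀ a, a ∈ fourGroup Ly → e (vecG π a) = vecG π a := fun a ha => by
    obtain ⟨ha1, ha2⟩ := mem_QG'.1 (fourGroup_le_Q S.ctx ha)
    rw [show vecG π a = π ⟨a, ha1⟩ from dif_pos ha1, ← he _ ha2]
    refine congrArg π (Subtype.ext ?_)
    show g * a * g⁻¹ = a
    rw [← Subgroup.mem_centralizer_iff.1 hg _ ha, mul_inv_cancel_right]
  have h1 := key _ (D_mem_fourGroup Ly (Or.inl rfl) (Or.inr (Or.inl rfl)))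
  have h2 := key _ he2
  rw [hev, hes, h1] at h2
  have h3 : ((K4.conj .om : K4) + K4.om) • baseV π Ly = 0 := by rw [add_smul, h2, S.ctx.frame.add_self]
  exact S.v_ne ((smul_eq_zero.1 h3).resolve_left (by decide))

/-- The linear map of an element centralising `z` and the four-group. -/
theorem exists_map {g : G} (hg : g ∈ CE Ly) (hgz : g * z = z * g) :
    ∃ l ∈ L, l (baseV π Ly) = baseV π Ly ∧ ∀ q ∈ QG' Q, vecG π (g * q * g⁻¹) = l (vecG π q) := by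
  obtain ⟨l, hl, hle⟩ := S.ctx.frame.lift _ (S.mem_M hg hgz)
  have key : ∀ q ∈ QG' Q, vecG π (g * q * g⁻¹) = l (vecG π q) := fun q hq => by
    obtain ⟨hq1, hq2⟩ := mem_QG'.1 hq
    rw [show vecG π q = π ⟨q, hq1⟩ from dif_pos hq1, ← hle _ hq2, ← vecG_coe π]
    rfl
  refine ⟨l, hl, ?_, key⟩
  rw [← key _ S.base_mem, ← Subgroup.mem_centralizer_iff.1 hg _ (D_mem_fourGroup Ly (Or.inl rfl) (Or.inr (Or.inl rfl))),
    mul_inv_cancel_right]

variable {φ : V →ₗ[K4] V4} (K : Coord L h (baseV π Ly) φ)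
include K

theorem act_of {g : G} (hg : g ∈ CE Ly) (hgz : g * z = z * g) : ∃ B : Cfsg.SU 4 K4 2, ∀ q ∈ QG' Q, q ∈ CE Ly →
    φ (vecG π (g * q * g⁻¹)) = Matrix.mulVec (mat B) (φ (vecG π q)) := by
  obtain ⟨l, hl, hlv, hle⟩ := S.exists_map hg hgz
  obtain ⟨B, hB⟩ := K.act l hl hlv
  exact ⟨B, fun q hq hc => by rw [hle q hq]; exact hB _ ((S.mem_CE_iff hq).1 hc)⟩

theorem exists_real (B : Cfsg.SU 4 K4 2) : ∃ g ∈ CE Ly, g * z = z * g ∧ ∀ q ∈ QG' Q, q ∈ CE Ly →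
    φ (vecG π (g * q * g⁻¹)) = Matrix.mulVec (mat B) (φ (vecG π q)) := by
  obtain ⟨l, hl, hlv, hB⟩ := K.real B
  obtain ⟨m, -, hm⟩ := S.ctx.frame.ofL l hl
  have hmz : (m : G) * z = z * (m : G) := Subgroup.mem_centralizer_singleton_iff.1 m.2
  have hme : ∀ q ∈ QG' Q, vecG π ((m : G) * q * (m : G)⁻¹) = l (vecG π q) := fun q hq => by
    obtain ⟨hq1, hq2⟩ := mem_QG'.1 hq
    rw [show vecG π q = π ⟨q, hq1⟩ from dif_pos hq1, ← hm _ hq2, ← vecG_coe π]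
    rfl
  obtain ⟨e2, he2, hev, hgen⟩ := S.exists_om
  have he1 : Ly.D (pt 0) (pt 1) ∈ fourGroup Ly := D_mem_fourGroup Ly (Or.inl rfl) (Or.inr (Or.inl rfl))
  have hfib : ∀ a ∈ QG' Q, l (vecG π a) = vecG π a →
      (m : G) * a * (m : G)⁻¹ = a ∨ (m : G) * a * (m : G)⁻¹ = a * z := fun a ha hla => by
    obtain ⟨ha1, ha2⟩ := mem_QG'.1 ha
    have hb := S.ctx.QG_conj hmz ha
    obtain ⟨hb1, hb2⟩ := mem_QG'.1 hb
    rcases S.ctx.frame.fiber ha2 hb2 (by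
      have := hme a ha
      rw [hla, show vecG π a = π ⟨a, ha1⟩ from dif_pos ha1, show vecG π _ = π ⟨_, hb1⟩ from dif_pos hb1] at this
      exact this.symm) with e | e
    · exact Or.inl (congrArg Subtype.val e)
    · exact Or.inr e
  have f1 := hfib _ S.base_mem hlv
  have f2 := hfib _ (fourGroup_le_Q S.ctx he2) (by rw [hev, map_smul, hlv])
  -- correct by an element of `Q`
  obtain ⟨s, hs1, hs2⟩ : ∃ s : K4, (s.b1 = false ↔ (m : G) * Ly.D (pt 0) (pt 1) * (m : G)⁻¹ = Ly.D (pt 0) (pt 1)) ∧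
      ((K4.conj .om * s).b1 = false ↔ (m : G) * e2 * (m : G)⁻¹ = e2) := by
    have hd : ∀ i j : Bool, ∃ s : K4, s.b1 = i ∧ (K4.conj .om * s).b1 = j := by decide
    obtain ⟨s, h1, h2⟩ := hd (!decide ((m : G) * Ly.D (pt 0) (pt 1) * (m : G)⁻¹ = Ly.D (pt 0) (pt 1)))
      (!decide ((m : G) * e2 * (m : G)⁻¹ = e2))
    exact ⟨s, by rw [h1]; simp, by rw [h2]; simp⟩
  obtain ⟨u, hu⟩ : ∃ u : V, h u (baseV π Ly) = s := by
    by_contra! hne
    have hall : ∀ u : V, h u (baseV π Ly) = 0 := fun u => by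
      by_contra h0
      refine hne ((s / h u (baseV π Ly)) • u) ?_
      rw [S.ctx.frame.cover.smul_left, div_mul_cancel₀ _ h0]
    refine S.v_ne (S.ctx.frame.cover.nondeg _ fun w => ?_)
    rw [S.ctx.frame.cover.symm, hall, map_zero]
  obtain ⟨b, hb, hbu⟩ := S.ctx.frame.surj u
  have hbQ : (b : G) ∈ QG' Q := coe_mem_QG'.2 hb
  have hfix : ∀ a ∈ QG' Q, ∀ t : K4, h u (vecG π a) = t →
      (t.b1 = false ↔ (m : G) * a * (m : G)⁻¹ = a) →
      ((m : G) * a * (m : G)⁻¹ = a ∨ (m : G) * a * (m : G)⁻¹ = a * z) →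
      (b : G) * (m : G) * a * ((b : G) * (m : G))⁻¹ = a := fun a ha t ht hiff hf => by
    rw [show (b : G) * (m : G) * a * ((b : G) * (m : G))⁻¹ = (b : G) * ((m : G) * a * (m : G)⁻¹) * (b : G)⁻¹ by group]
    have hc : (b : G) * a = a * (b : G) ↔ t.b1 = false := by
      rw [S.comm_iff hbQ ha, vecG_coe, hbu, ht]
    by_cases hma : (m : G) * a * (m : G)⁻¹ = a
    · rw [hma, hc.2 (hiff.2 hma), mul_inv_cancel_right]
    · have hma' := hf.resolve_left hma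
      have hba : (b : G) * a * (b : G)⁻¹ = a * z :=
        (S.ctx.conj_pm hbQ ha).resolve_left fun e => hma (hiff.1 (hc.1 (mul_inv_eq_iff_eq_mul.1 e)))
      rw [hma', show (b : G) * (a * z) * (b : G)⁻¹ = ((b : G) * a * (b : G)⁻¹) * ((b : G) * z * (b : G)⁻¹) by group,
        hba, S.ctx.comm_z_of_Q hbQ, mul_inv_cancel_right, mul_assoc, S.ctx.z_sq, mul_one]
  have g1 := hfix _ S.base_mem _ hu hs1 f1
  have g2 := hfix _ (fourGroup_le_Q S.ctx he2) _ (by rw [hev, S.ctx.frame.cover.smul_right, hu]) hs2 f2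
  have hgz : (b : G) * (m : G) * z = z * ((b : G) * (m : G)) := by
    rw [mul_assoc, hmz, ← mul_assoc, S.ctx.comm_z_of_Q hbQ, mul_assoc]
  refine ⟨(b : G) * (m : G), hgen _ (mul_inv_eq_iff_eq_mul.1 g1).symm (mul_inv_eq_iff_eq_mul.1 g2).symm, hgz,
    fun q hq hc => ?_⟩
  have hmq := S.ctx.QG_conj hmz hq
  obtain ⟨hm1, hm2⟩ := mem_QG'.1 hmq
  rw [show (b : G) * (m : G) * q * ((b : G) * (m : G))⁻¹ =
    ((b * ⟨(m : G) * q * (m : G)⁻¹, hm1⟩ * b⁻¹ : Cz z) : G) by simp only [Subgroup.coe_mul, Subgroup.coe_inv]; group,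
    vecG_coe, S.ctx.frame.map_conj_eq hb hm2, ← vecG_coe π, ← hB _ ((S.mem_CE_iff hq).1 hc)]
  exact congrArg φ (hme q hq)

theorem faithful {g : G} (hg : g ∈ CE Ly) (hgz : g * z = z * g)
    (ht : ∀ q ∈ QG' Q, q ∈ CE Ly → φ (vecG π (g * q * g⁻¹)) = φ (vecG π q)) : g ∈ QG' Q := by
  obtain ⟨l, hl, hlv, hle⟩ := S.exists_map hg hgz
  have h1 : l = 1 := K.faithful l hl hlv fun a ha => by
    obtain ⟨q, hq, rfl⟩ := S.ctx.frame.surj a
    have hqG : (q : G) ∈ QG' Q := coe_mem_QG'.2 hq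
    rw [← vecG_coe π] at ha ⊢
    rw [← hle _ hqG]
    exact ht _ hqG ((S.mem_CE_iff hqG).2 ha)
  refine (coe_mem_QG' (a := (⟨g, Subgroup.mem_centralizer_singleton_iff.2 hgz⟩ : Cz z))).2
    (S.ctx.frame.faithful _ fun a ha => ?_)
  have := hle _ (coe_mem_QG'.2 ha)
  rw [h1, vecG_coe] at this
  rw [← vecG_coe π]
  exact this

theorem exists_coord_surj (w : V4) : ∃ q ∈ QG' Q, q ∈ CE Ly ∧ φ (vecG π q) = w := by
  obtain ⟨a, ha, haw⟩ := K.surj w
  obtain ⟨q, hq, rfl⟩ := S.ctx.frame.surj a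
  rw [← vecG_coe π] at ha haw
  exact ⟨q, coe_mem_QG'.2 hq, (S.mem_CE_iff (coe_mem_QG'.2 hq)).2 ha, haw⟩

/-- A duad from the point `2` to another tetrad acts as a transvection. -/
theorem exists_tau_duad {p : GolayPt} (hp : tb p ≠ 0) : ∃ r, Iso r ∧ ∀ q ∈ QG' Q, q ∈ CE Ly →
    φ (vecG π (Ly.D (pt 2) p * q * (Ly.D (pt 2) p)⁻¹)) = tau r (φ (vecG π q)) := by
  set d := Ly.D (pt 2) p
  have hdz : d * z = z * d := Ly.comm _ (Ly.D_mem _ _) _ Ly.z_mem
  have hdc : d ∈ CE Ly := A_le_CE Ly (Ly.D_mem _ _)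
  obtain ⟨B, hB⟩ := S.act_of K hdc hdz
  have hcross : tb (pt 2) ≠ tb p := by rw [tb_small.2.2.1]; exact hp.symm
  have hstep : ∀ q ∈ QG' Q, q ∈ CE Ly → d * q * d⁻¹ ∈ QG' Q ∧ d * q * d⁻¹ ∈ CE Ly := fun q hq hc =>
    ⟨S.ctx.QG_conj hdz hq, mul_mem (mul_mem hdc hc) (inv_mem hdc)⟩
  let Bl : V4 →ₗ[K4] V4 := Matrix.mulVecLin (mat B)
  obtain ⟨r, hr, hBr⟩ := exists_tau Bl (fun u w => herm_su B u w) (fun w => by
      obtain ⟨q, hq, hc, rfl⟩ := S.exists_coord_surj K w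
      show Matrix.mulVec (mat B) (Matrix.mulVec (mat B) _) = _
      rw [← hB q hq hc, ← hB _ (hstep q hq hc).1 (hstep q hq hc).2]
      congr 2
      rw [show d * (d * q * d⁻¹) * d⁻¹ = (d * d) * q * (d * d)⁻¹ by group,
        Ly.sq _ (Ly.D_mem _ _), one_mul, inv_one, mul_one])
    (by
      by_contra! hall
      refine S.ctx.cross_notMem hcross (S.faithful K hdc hdz fun q hq hc => ?_)
      rw [hB q hq hc]; exact hall _)
    (S := (tet (tb p)).image fun p' => φ (vecG π (Ly.D p' p))) (fun w => by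
      obtain ⟨q, hq, hc, rfl⟩ := S.exists_coord_surj K w
      show Matrix.mulVec (mat B) _ + _ ∈ _
      rw [← hB q hq hc, ← map_add]
      have hq2 : Ly.act ⟨q, Ly.Q_le hq⟩ (pt 2) = pt 2 :=
        (fix_of_mem_CE Ly (g := ⟨q, Ly.Q_le hq⟩) hc).2.2
      have he := S.ctx.comm_duad hq (pt 2) p
      rw [hq2, Ly.D_symm (pt 2) (Ly.act ⟨q, Ly.Q_le hq⟩ p), Ly.D_trans] at he
      refine Finset.mem_image.2 ⟨_, mem_tet.2 (S.ctx.tb_Q hq p), congrArg φ ?_⟩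
      rw [← he, ← S.vecG_inv (S.ctx.comm_mem hq hdz), show (q * d * q⁻¹ * d⁻¹)⁻¹ = (d * q * d⁻¹) * q⁻¹ by group,
        S.ctx.vecG_mul (hstep q hq hc).1 (inv_mem hq), S.vecG_inv hq])
    (le_trans Finset.card_image_le (by rw [card_tet]))
  exact ⟨r, hr, fun q hq hc => by rw [hB q hq hc]; exact hBr _⟩

omit K in
/-- Coordinates in which the two transvections are the standard ones. -/
theorem exists_std (K : Coord L h (baseV π Ly) φ) : ∃ φ' : V →ₗ[K4] V4, Coord L h (baseV π Ly) φ' ∧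
    (∀ q ∈ QG' Q, q ∈ CE Ly →
      φ' (vecG π (Ly.D (pt 2) (pt 4) * q * (Ly.D (pt 2) (pt 4))⁻¹)) = tau r0 (φ' (vecG π q))) ∧
    ∀ q ∈ QG' Q, q ∈ CE Ly → φ' (vecG π (Ly.D (pt 2) pf * q * (Ly.D (pt 2) pf)⁻¹)) = tau r1 (φ' (vecG π q)) := by
  have h4 : tb (pt 4) ≠ 0 := by rw [tb_small.2.2.2.2]; decide
  have hf0 : tb pf ≠ 0 := by rw [S.hpf]; decide
  obtain ⟨r, hr, hru⟩ := S.exists_tau_duad K h4
  obtain ⟨r', hr', hru'⟩ := S.exists_tau_duad K hf0
  set a := Ly.D (pt 2) (pt 4)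
  set b := Ly.D (pt 2) pf
  have hab : a * b = b * a := Ly.comm _ (Ly.D_mem _ _) _ (Ly.D_mem _ _)
  have ha := A_le_CE Ly (Ly.D_mem (pt 2) (pt 4))
  have hb := A_le_CE Ly (Ly.D_mem (pt 2) pf)
  have haz : a * z = z * a := Ly.comm _ (Ly.D_mem _ _) _ Ly.z_mem
  have hbz : b * z = z * b := Ly.comm _ (Ly.D_mem _ _) _ Ly.z_mem
  have hsa : ∀ q ∈ QG' Q, q ∈ CE Ly → a * q * a⁻¹ ∈ QG' Q ∧ a * q * a⁻¹ ∈ CE Ly := fun q hq hc =>
    ⟨S.ctx.QG_conj haz hq, mul_mem (mul_mem ha hc) (inv_mem ha)⟩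
  have hsb : ∀ q ∈ QG' Q, q ∈ CE Ly → b * q * b⁻¹ ∈ QG' Q ∧ b * q * b⁻¹ ∈ CE Ly := fun q hq hc =>
    ⟨S.ctx.QG_conj hbz hq, mul_mem (mul_mem hb hc) (inv_mem hb)⟩
  have hprod : ∀ q ∈ QG' Q, q ∈ CE Ly →
      φ (vecG π (a * b * q * (a * b)⁻¹)) = tau r (tau r' (φ (vecG π q))) := fun q hq hc => by
    rw [show a * b * q * (a * b)⁻¹ = a * (b * q * b⁻¹) * a⁻¹ by group,
      hru _ (hsb q hq hc).1 (hsb q hq hc).2, hru' q hq hc]
  have hne : ∀ k : K4, r' ≠ k • r := by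
    intro k e
    have hk : k ≠ 0 := fun e0 => hr'.1 (by rw [e, e0, zero_smul])
    refine S.ctx.cross_notMem (p := pt 4) (r := pf) (by rw [tb_small.2.2.2.2, S.hpf]; decide) ?_
    have hab4 : a * b = Ly.D (pt 4) pf := (D_mul_chain Ly (pt 2) (pt 4) pf).1
    rw [← hab4]
    refine S.faithful K (mul_mem ha hb) (by rw [mul_assoc, hbz, ← mul_assoc, haz, mul_assoc]) fun q hq hc => ?_
    rw [hprod q hq hc, e, tau_scale hk, tau_tau_witt hr.2]
  have hperp : herm r' r = 0 := herm_eq_zero_of_commute hne hr.1 fun w => by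
    obtain ⟨q, hq, hc, rfl⟩ := S.exists_coord_surj K w
    rw [← hprod q hq hc, hab, show b * a * q * (b * a)⁻¹ = b * (a * q * a⁻¹) * b⁻¹ by group,
      hru' _ (hsa q hq hc).1 (hsa q hq hc).2, hru q hq hc]
  obtain ⟨A, k, k', hk, hk', hA0, hA1⟩ := exists_su_pair hr hr' hne hperp
  have hmove : ∀ (s s0 : V4) (k : K4), k ≠ 0 → Matrix.mulVec (mat A) s0 = k • s → ∀ w,
      Matrix.mulVec (mat A⁻¹) (tau s w) = tau s0 (Matrix.mulVec (mat A⁻¹) w) := by
    intro s s0 k hk e w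
    have e' : Matrix.mulVec (mat A⁻¹) s = k⁻¹ • s0 := by
      have := congrArg (Matrix.mulVec (mat A⁻¹)) e
      rw [su_inv_mulVec', Matrix.mulVec_smul] at this
      rw [this, smul_smul, inv_mul_cancel₀ hk, one_smul]
    rw [tau_conj, e', tau_scale (inv_ne_zero hk)]
  refine ⟨_, K.change A⁻¹, fun q hq hc => ?_, fun q hq hc => ?_⟩
  · show Matrix.mulVec (mat A⁻¹) (φ _) = tau r0 (Matrix.mulVec (mat A⁻¹) (φ _))
    rw [hru q hq hc, hmove r r0 k hk hA0]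
  · show Matrix.mulVec (mat A⁻¹) (φ _) = tau r1 (Matrix.mulVec (mat A⁻¹) (φ _))
    rw [hru' q hq hc, hmove r' r1 k' hk' hA1]

end Setup

end CfsgLib.FischerLarge.U62
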