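import Cfsg.Agent.Lib.FischerLarge.U62.InstClose

/-!
FischerLarge/U62: the order of the centraliser of the second involution.
-/

set_option autoImplicit false
set_option linter.style.haveILetI false
set_option linter.unusedSectionVars false

namespace CfsgLib.FischerLarge.U62

open scoped Classical symmDiff
open Cfsg CfsgLib.Golay CfsgLib.Fischer.UnitaryPoint

universe u

variable {G : Type u} [Group G] [Finite G] {z : G} {P : Type} [Group P] [Finite P] {Q M : Subgroup (Cz z)}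
  [hQn : Q.Normal] {V : Type u} [AddCommGroup V] [Module K4 V] [Finite V] {L : Subgroup (V ≃ₗ[K4] V)} {f : L →* P}
  {h : V → V → K4} {π : Cz z → V} {Ly : Layer z (QG' Q)}

variable {x : Cz z} {pf : GolayPt}

/-- A duad as an element of the centraliser of `z`. -/
def dC (C : Ctx Q M L f h π Ly) (p q : GolayPt) : Cz z := ⟨Ly.D p q, C.mem_Cz_of_A (Ly.D_mem p q)⟩

theorem card_centralizer_duad_Q (C : Ctx Q M L f h π Ly) (hx : ScalarElt Q π x) {p r : GolayPt}
    (hpr : tb p ≠ tb r) : Nat.card {q : Cz z // q ∈ Q ∧ q * dC C p r = dC C p r * q} ≤ 512 := by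
  obtain ⟨g, -, hg⟩ := C.exists_lin (Ly.D_mem p r)
  have hfix : ∀ q : {q : Cz z // q ∈ Q ∧ q * dC C p r = dC C p r * q}, g (π q.1) = π q.1 := fun q => by
    rw [← hg _ q.2.1]
    refine congrArg π ?_
    show dC C p r * q.1 * (dC C p r)⁻¹ = q.1
    rw [← q.2.2, mul_inv_cancel_right]
  let rep : V → Cz z := fun v => (C.frame.surj v).choose
  let F : {q : Cz z // q ∈ Q ∧ q * dC C p r = dC C p r * q} → {v : V // g v = v} × Bool := fun q =>
    (⟨π q.1, hfix q⟩, decide (q.1 = rep (π q.1)))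
  have hF : Function.Injective F := by
    rintro ⟨q, hq, hqc⟩ ⟨q', hq', hqc'⟩ e
    have e1 : π q = π q' := congrArg (fun a => a.1.1) e
    have e2 : decide (q = rep (π q)) = decide (q' = rep (π q')) := congrArg Prod.snd e
    obtain ⟨hr, hre⟩ := (C.frame.surj (π q)).choose_spec
    rw [← e1] at e2
    refine Subtype.ext ?_
    show q = q'
    rcases C.frame.fiber hr hq hre with a | a <;> rcases C.frame.fiber hr hq' (hre.trans e1) with b | b
    · rw [a, b]
    · rw [decide_eq_true (show q = rep (π q) from a)] at e2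
      exact (show q = rep (π q) from a).trans (of_decide_eq_true e2.symm).symm
    · rw [decide_eq_true (show q' = rep (π q) from b)] at e2
      exact (of_decide_eq_true e2).trans (show q' = rep (π q) from b).symm
    · exact Subtype.ext (a.trans b.symm)
  have h1 := Nat.card_le_card_of_injective F hF
  rw [Nat.card_prod, show Nat.card Bool = 2 by simp] at h1
  have := C.card_fix_le hx hpr hg
  omega

namespace Setup

variable (S : Setup Q M L f h π Ly x pf)
include S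

/-- The subgroup of the centraliser of `z` fixing two duads. -/
abbrev KB : Subgroup (Cz z) :=
  Subgroup.centralizer ({dC S.ctx (pt 0) (pt 1), dC S.ctx (pt 0) (pt 4)} : Set (Cz z))

variable {φ : V →ₗ[K4] V4} (K : Coord L h (baseV π Ly) φ)
  (hu0 : ∀ q ∈ QG' Q, q ∈ CE Ly →
    φ (vecG π (Ly.D (pt 2) (pt 4) * q * (Ly.D (pt 2) (pt 4))⁻¹)) = tau r0 (φ (vecG π q)))
  (hst : Nat.card (MulAction.stabilizer L (baseV π Ly)) = 25920)
include K hu0 hst

theorem card_image_KB : Nat.card ↥(S.KB.map (QuotientGroup.mk' Q)) ≤ 1152 := by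
  set d01 := dC S.ctx (pt 0) (pt 1)
  set d04 := dC S.ctx (pt 0) (pt 4)
  set Sb := (Subgroup.centralizer ({d01} : Set (Cz z))).map (QuotientGroup.mk' Q) with hSb
  set T := S.KB.map (QuotientGroup.mk' Q) with hT
  haveI := S.ctx.normal
  have hd01Q : d01 ∈ Q := coe_mem_QG'.1 S.base_mem
  have hv : baseV π Ly = π d01 := vecG_coe π d01
  have hSb_le : Nat.card Sb ≤ 51840 := by
    have h1 := S.ctx.frame.card_image_dvd S.ctx.le S.ctx.index hd01Q (hv ▸ S.v_ne)
    rw [← hv, hst] at h1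
    exact Nat.le_of_dvd (by norm_num) h1
  have hTS : T ≤ Sb := Subgroup.map_mono (Subgroup.centralizer_le (by simp [d01]))
  set i0 := isoPts.length
  have hi0 : i0 = 45 := isoPts_checks.1
  have hr : ∀ i : Fin i0, Iso (isoPts.get i) := fun i =>
    mem_isoV.1 (List.mem_of_mem_filter (isoPts.get_mem i))
  have hgen : ∀ i : Fin i0, ∃ c : Cz z, c ∈ Subgroup.centralizer ({d01} : Set (Cz z)) ∧
      ∀ q ∈ QG' Q, q ∈ CE Ly →
        φ (vecG π (((c * d04 * c⁻¹ : Cz z) : G) * q * ((c * d04 * c⁻¹ : Cz z) : G)⁻¹)) =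
          tau (isoPts.get i) (φ (vecG π q)) := by
    intro i
    obtain ⟨A, a, ha, hA⟩ := exists_su_point (hr i)
    obtain ⟨g, hg, hgz, hB⟩ := S.exists_real K A
    refine ⟨⟨g, Subgroup.mem_centralizer_singleton_iff.2 hgz⟩,
      Subgroup.mem_centralizer_singleton_iff.2 (Subtype.ext
        ((Subgroup.mem_centralizer_iff.1 hg _ (D_mem_fourGroup Ly (Or.inl rfl) (Or.inr (Or.inl rfl)))).symm)),
      fun q hq hc => ?_⟩
    have hgi : g⁻¹ * z = z * g⁻¹ := (Commute.inv_left hgz).eq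
    set q1 : G := g⁻¹ * q * g⁻¹⁻¹ with hq1
    have hq1Q : q1 ∈ QG' Q := S.ctx.QG_conj hgi hq
    have hq1C : q1 ∈ CE Ly := mul_mem (mul_mem (inv_mem hg) hc) (inv_mem (inv_mem hg))
    have hd24z : Ly.D (pt 2) (pt 4) * z = z * Ly.D (pt 2) (pt 4) := Ly.comm _ (Ly.D_mem _ _) _ Ly.z_mem
    have hw : Ly.D (pt 0) (pt 4) * q1 * (Ly.D (pt 0) (pt 4))⁻¹ =
        Ly.D (pt 0) (pt 2) * (Ly.D (pt 2) (pt 4) * q1 * (Ly.D (pt 2) (pt 4))⁻¹) * (Ly.D (pt 0) (pt 2))⁻¹ := by
      rw [← Ly.D_trans (pt 0) (pt 2) (pt 4)]; group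
    have hd02 := fourGroup_le_Q S.ctx
      (D_mem_fourGroup Ly (p := pt 0) (q := pt 2) (Or.inl rfl) (Or.inr (Or.inr rfl)))
    have hinner : φ (vecG π (Ly.D (pt 0) (pt 4) * q1 * (Ly.D (pt 0) (pt 4))⁻¹)) = tau r0 (φ (vecG π q1)) := by
      rw [hw, ← hu0 q1 hq1Q hq1C]
      obtain ⟨a1, a2⟩ := mem_QG'.1 (S.ctx.QG_conj hd24z hq1Q)
      obtain ⟨b1, b2⟩ := mem_QG'.1 hd02
      rw [show Ly.D (pt 0) (pt 2) * (Ly.D (pt 2) (pt 4) * q1 * (Ly.D (pt 2) (pt 4))⁻¹) * (Ly.D (pt 0) (pt 2))⁻¹ =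
        (((⟨_, b1⟩ : Cz z) * ⟨_, a1⟩ * (⟨_, b1⟩ : Cz z)⁻¹ : Cz z) : G) from rfl, vecG_coe,
        S.ctx.frame.map_conj_eq b2 a2, ← vecG_coe π]
    have hd04z : Ly.D (pt 0) (pt 4) * z = z * Ly.D (pt 0) (pt 4) := Ly.comm _ (Ly.D_mem _ _) _ Ly.z_mem
    have hd04C := A_le_CE Ly (Ly.D_mem (pt 0) (pt 4))
    show φ (vecG π (g * Ly.D (pt 0) (pt 4) * g⁻¹ * q * (g * Ly.D (pt 0) (pt 4) * g⁻¹)⁻¹)) = _
    rw [show g * Ly.D (pt 0) (pt 4) * g⁻¹ * q * (g * Ly.D (pt 0) (pt 4) * g⁻¹)⁻¹ =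
      g * (Ly.D (pt 0) (pt 4) * q1 * (Ly.D (pt 0) (pt 4))⁻¹) * g⁻¹ by rw [hq1]; group,
      hB _ (S.ctx.QG_conj hd04z hq1Q) (mul_mem (mul_mem hd04C hq1C) (inv_mem hd04C)), hinner, tau_conj, hA,
      tau_scale ha, ← hB q1 hq1Q hq1C, show g * q1 * g⁻¹ = q by rw [hq1]; group]
  choose c hc hct using hgen
  have hτ : ∀ t ∈ T, t * QuotientGroup.mk' Q d04 * t⁻¹ = QuotientGroup.mk' Q d04 := by
    rintro _ ⟨k, hk, rfl⟩
    rw [← map_inv, ← map_mul, ← map_mul, ← (Subgroup.mem_centralizer_iff.1 hk d04 (by simp [d04])),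
      mul_inv_cancel_right]
  let F : Fin i0 × T → Sb := fun it =>
    ⟨QuotientGroup.mk' Q (c it.1) * it.2, mul_mem (Subgroup.mem_map_of_mem _ (hc it.1)) (hTS it.2.2)⟩
  have hF : Function.Injective F := by
    rintro ⟨i, t⟩ ⟨j, u⟩ e
    have e' : QuotientGroup.mk' Q (c i) * (t : Cz z ⧸ Q) = QuotientGroup.mk' Q (c j) * u :=
      congrArg Subtype.val e
    have hij : i = j := by
      have h1 : QuotientGroup.mk' Q (c i * d04 * (c i)⁻¹) = QuotientGroup.mk' Q (c j * d04 * (c j)⁻¹) := by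
        have h2 := congrArg (fun y => y * QuotientGroup.mk' Q d04 * y⁻¹) e'
        simp only [mul_inv_rev] at h2
        rw [map_mul, map_mul, map_inv, map_mul, map_mul, map_inv]
        calc QuotientGroup.mk' Q (c i) * QuotientGroup.mk' Q d04 * (QuotientGroup.mk' Q (c i))⁻¹
            = QuotientGroup.mk' Q (c i) * ((t : Cz z ⧸ Q) * QuotientGroup.mk' Q d04 * (t : Cz z ⧸ Q)⁻¹) *
                (QuotientGroup.mk' Q (c i))⁻¹ := by rw [hτ _ t.2]
          _ = QuotientGroup.mk' Q (c j) * ((u : Cz z ⧸ Q) * QuotientGroup.mk' Q d04 * (u : Cz z ⧸ Q)⁻¹) *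
                (QuotientGroup.mk' Q (c j))⁻¹ := by
              simp only [mul_assoc] at h2 ⊢
              exact h2
          _ = _ := by rw [hτ _ u.2]
      have hq := (QuotientGroup.eq (s := Q)).1 h1
      have hall : ∀ w : V4, tau (isoPts.get i) w = tau (isoPts.get j) w := by
        intro w
        obtain ⟨q, hqQ, hqC, rfl⟩ := S.exists_coord_surj K w
        obtain ⟨q1, q2⟩ := mem_QG'.1 hqQ
        rw [← hct i q hqQ hqC, ← hct j q hqQ hqC]
        refine congrArg φ ?_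
        rw [show ((c i * d04 * (c i)⁻¹ : Cz z) : G) * q * ((c i * d04 * (c i)⁻¹ : Cz z) : G)⁻¹ =
            (((c i * d04 * (c i)⁻¹) * ⟨q, q1⟩ * (c i * d04 * (c i)⁻¹)⁻¹ : Cz z) : G) from rfl,
          show ((c j * d04 * (c j)⁻¹ : Cz z) : G) * q * ((c j * d04 * (c j)⁻¹ : Cz z) : G)⁻¹ =
            (((c j * d04 * (c j)⁻¹) * ⟨q, q1⟩ * (c j * d04 * (c j)⁻¹)⁻¹ : Cz z) : G) from rfl, vecG_coe, vecG_coe]
        obtain ⟨e1, he1, -⟩ := S.ctx.frame.semi (c i * d04 * (c i)⁻¹)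
        rw [show c j * d04 * (c j)⁻¹ * ⟨q, q1⟩ * (c j * d04 * (c j)⁻¹)⁻¹ = (c i * d04 * (c i)⁻¹) *
          (((c i * d04 * (c i)⁻¹)⁻¹ * (c j * d04 * (c j)⁻¹)) * ⟨q, q1⟩ *
            ((c i * d04 * (c i)⁻¹)⁻¹ * (c j * d04 * (c j)⁻¹))⁻¹) * (c i * d04 * (c i)⁻¹)⁻¹ by group,
          he1 _ q2, he1 _ (hQn.conj_mem _ q2 _), S.ctx.frame.map_conj_eq hq q2]
      have hnd := isoPts_checks.2
      refine Fin.ext ((List.Nodup.getElem_inj_iff hnd (hi := by rw [List.length_map]; exact i.2) (hj := by rw [List.length_map]; exact j.2)).1 ?_)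
      simp only [List.getElem_map]
      exact List.map_congr_left fun k _ => hall _
    subst hij
    exact Prod.ext rfl (Subtype.ext (mul_left_cancel e'))
  have h1 := Nat.card_le_card_of_injective F hF
  rw [Nat.card_prod, Nat.card_fin, hi0] at h1
  omega

theorem card_KB : Nat.card ↥S.KB ≤ 589824 := by
  have h1 := S.card_image_KB K hu0 hst
  set ξ : S.KB →* Cz z ⧸ Q := (QuotientGroup.mk' Q).comp S.KB.subtype with hξ
  have hrange : ξ.range = S.KB.map (QuotientGroup.mk' Q) := by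
    rw [hξ, MonoidHom.range_comp, Subgroup.range_subtype]
  have h2 := ξ.ker.card_mul_index
  rw [Subgroup.index_ker, hrange] at h2
  have h3 : Nat.card ξ.ker ≤ 512 := by
    refine le_trans (Nat.card_le_card_of_injective (fun k : ξ.ker =>
      (⟨((k : S.KB) : Cz z), (QuotientGroup.eq_one_iff _).1 k.2,
        (Subgroup.mem_centralizer_iff.1 (k : S.KB).2 _ (by simp)).symm⟩ :
        {q : Cz z // q ∈ Q ∧ q * dC S.ctx (pt 0) (pt 4) = dC S.ctx (pt 0) (pt 4) * q})) ?_) ?_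
    · intro k k' e
      exact Subtype.ext (Subtype.ext (congrArg (fun a => (a.1 : Cz z)) e))
    · exact card_centralizer_duad_Q S.ctx S.hx (by rw [tb_small.1, tb_small.2.2.2.2]; decide)
  calc Nat.card ↥S.KB = Nat.card ξ.ker * Nat.card ↥(S.KB.map (QuotientGroup.mk' Q)) := h2.symm
    _ ≤ 512 * 1152 := Nat.mul_le_mul h3 h1
    _ = 589824 := by norm_num

/-- The centraliser of the image of the second involution. -/
theorem card_centralizer_zu : Nat.card ↥(Subgroup.centralizer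
    ({mkE Ly ⟨z, z_mem_CE S.ctx⟩ * dX Ly (pt 2) (pt 4)} : Set (XE Ly))) ≤ 147456 := by
  obtain ⟨h01, h02, h03, h12, h13, h23⟩ := pt_small_ne
  obtain ⟨o40, o41, o42⟩ := out_four
  have h34 : pt 3 ≠ pt 4 := by decide +kernel
  rw [show mkE Ly ⟨z, z_mem_CE S.ctx⟩ * dX Ly (pt 2) (pt 4) = dX Ly (pt 3) (pt 4) by
    rw [mk_z S.ctx, dX_symm Ly (pt 2) (pt 3), dX_mul_chain]]
  set Cu := Subgroup.centralizer ({dX Ly (pt 3) (pt 4)} : Set (XE Ly))
  -- lifts fix the duad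
  have hlift : ∀ g : CE Ly, mkE Ly g ∈ Cu → (g : G) * Ly.D (pt 3) (pt 4) = Ly.D (pt 3) (pt 4) * (g : G) := by
    intro g hg
    obtain ⟨e, he, h1⟩ := (mk_eq_iff Ly (a := g * ⟨_, A_le_CE Ly (Ly.D_mem (pt 3) (pt 4))⟩ * g⁻¹)
        (b := ⟨_, A_le_CE Ly (Ly.D_mem (pt 3) (pt 4))⟩)).1 (by
      rw [map_mul, map_mul, map_inv]
      exact mul_inv_eq_iff_eq_mul.2 (Subgroup.mem_centralizer_singleton_iff.1 hg))
    change (g : G) * Ly.D (pt 3) (pt 4) * (g : G)⁻¹ = Ly.D (pt 3) (pt 4) * e at h1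
    have he1 : e = 1 := by
      by_contra hne
      refine Ly.D_not_conj h34 ((?_ : IsConj z (Ly.D (pt 3) (pt 4) * e)).trans
        (isConj_iff.2 ⟨(g : G)⁻¹, by rw [← h1]; group⟩))
      rcases he with rfl | rfl | rfl | rfl
      · exact absurd rfl hne
      · exact Ly.quad_conj h34 h03.symm h13.symm o40 o41 h01
      · exact Ly.quad_conj h34 h03.symm h23.symm o40 o42 h02
      · exact Ly.quad_conj h34 h13.symm h23.symm o41 o42 h12
    rw [he1, mul_one] at h1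
    exact mul_inv_eq_iff_eq_mul.1 h1
  -- move to the two duads
  obtain ⟨m, hm⟩ := Ly.exists_map ![pt 0, pt 1, pt 3, pt 4, pt 2] ![pt 0, pt 1, pt 2, pt 3, pt 4]
    (by decide +kernel) (by decide +kernel)
  have m0 := hm 0
  have m1 := hm 1
  have m3 := hm 2
  have m4 := hm 3
  have m2 := hm 4
  simp only [Matrix.cons_val] at m0 m1 m2 m3 m4
  have hcm : ∀ (g : G) p q, g * Ly.D p q = Ly.D p q * g →
      (m : G) * g * (m : G)⁻¹ * Ly.D (Ly.act m p) (Ly.act m q) =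
        Ly.D (Ly.act m p) (Ly.act m q) * ((m : G) * g * (m : G)⁻¹) := fun g p q e => by
    rw [← Ly.conj_D]
    calc (m : G) * g * (m : G)⁻¹ * ((m : G) * Ly.D p q * (m : G)⁻¹) = (m : G) * (g * Ly.D p q) * (m : G)⁻¹ := by group
      _ = _ := by rw [e]; group
  have hsurj : ∀ y : Cu, ∃ g : CE Ly, mkE Ly g = y := fun y => QuotientGroup.mk'_surjective (NE Ly) y.1
  choose sec hsec using hsurj
  have hF : ∀ p : fourGroup Ly × Cu, ∃ k : S.KB,
      ((k : Cz z) : G) = (m : G) * ((sec p.2 : G) * p.1) * (m : G)⁻¹ := by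
    rintro ⟨⟨e, he⟩, y⟩
    have hg := hlift (sec y) (by rw [hsec]; exact y.2)
    have hgC : (sec y : G) * e ∈ CE Ly := mul_mem (sec y).2 (fourGroup_le_CE Ly he)
    have hg34 : (sec y : G) * e * Ly.D (pt 3) (pt 4) = Ly.D (pt 3) (pt 4) * ((sec y : G) * e) := by
      rw [mul_assoc, Ly.comm _ (fourGroup_le Ly he) _ (Ly.D_mem _ _), ← mul_assoc, hg, mul_assoc]
    have hcE : ∀ p q, Ly.D p q ∈ fourGroup Ly → (sec y : G) * e * Ly.D p q = Ly.D p q * ((sec y : G) * e) :=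
      fun p q hd => (Subgroup.mem_centralizer_iff.1 hgC _ hd).symm
    have c01 := hcm _ _ _ (hcE _ _ (D_mem_fourGroup Ly (Or.inl rfl) (Or.inr (Or.inl rfl))))
    have c02 := hcm _ _ _ (hcE _ _ (D_mem_fourGroup Ly (Or.inl rfl) (Or.inr (Or.inr rfl))))
    have c34 := hcm _ _ _ hg34
    rw [m0, m1] at c01
    rw [m0, m2] at c02
    rw [m3, m4] at c34
    set k : G := (m : G) * ((sec y : G) * e) * (m : G)⁻¹
    have hkz : k * z = z * k := by
      calc k * z = k * (Ly.D (pt 0) (pt 1) * Ly.D (pt 2) (pt 3)) := congrArg (k * ·) (z_eq_three S.ctx).symm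
        _ = Ly.D (pt 0) (pt 1) * Ly.D (pt 2) (pt 3) * k := by rw [← mul_assoc, c01, mul_assoc, c34, mul_assoc]
        _ = z * k := congrArg (· * k) (z_eq_three S.ctx)
    refine ⟨⟨⟨k, Subgroup.mem_centralizer_singleton_iff.2 hkz⟩, Subgroup.mem_centralizer_iff.2 ?_⟩, rfl⟩
    rintro a (rfl | rfl)
    · exact Subtype.ext c01.symm
    · exact Subtype.ext c02.symm
  choose F hFe using hF
  have hFi : Function.Injective F := by
    rintro ⟨e, y⟩ ⟨e', y'⟩ h1
    have h2 := congrArg (fun k : S.KB => ((k : Cz z) : G)) h1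
    simp only [hFe] at h2
    have h3 : (sec y : G) * e = (sec y' : G) * e' := mul_left_cancel (mul_right_cancel h2)
    have hy : y = y' := Subtype.ext (by
      rw [← hsec y, ← hsec y', mk_eq_iff]
      exact ⟨(e' : G) * (e : G)⁻¹, mul_mem e'.2 (inv_mem e.2),
        by rw [← mul_assoc, ← h3, mul_inv_cancel_right]⟩)
    subst hy
    exact Prod.ext (Subtype.ext (mul_left_cancel h3)) rfl
  have h1 := Nat.card_le_card_of_injective F hFi
  rw [Nat.card_prod, card_fourGroup] at h1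
  have h2 := S.card_KB K hu0 hst
  omega

end Setup

end CfsgLib.FischerLarge.U62
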