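import Cfsg.Agent.Lib.FischerLarge.U62.InstLocal
import Cfsg.Agent.Lib.FischerLarge.U62.Closure
import Cfsg.Agent.Lib.FischerLarge.U62.Iso
import Cfsg.Agent.Lib.FischerLarge.U62.Classes
import Cfsg.Agent.Lib.FischerLarge.U62.Bound

/-!
FischerLarge/U62: the centralisers needed for the closure of the component.
-/

set_option autoImplicit false
set_option linter.style.haveILetI false
set_option linter.unusedSectionVars false

namespace CfsgLib.FischerLarge.U62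

open scoped Classical symmDiff
open Cfsg CfsgLib.Golay CfsgLib.Fischer.UnitaryPoint

universe u

variable {G : Type u} [Group G] [Finite G] {z : G} {P : Type} [Group P] [Finite P] {Q M : Subgroup (Cz z)}
  [hQn : Q.Normal] {V : Type u} [AddCommGroup V] [Module K4 V] [Finite V] {L : Subgroup (V ≃ₗ[K4] V)} {f : L →* P}
  {h : V → V → K4} {π : Cz z → V} {Ly : Layer z (QG' Q)}

variable {x : Cz z} {pf : GolayPt}

theorem tet_one_facts : pt 4 ≠ pt 7 ∧ pt 4 ≠ pt 10 ∧ pt 4 ≠ pt 12 ∧ pt 7 ≠ pt 10 ∧ pt 7 ≠ pt 12 ∧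
    pt 10 ≠ pt 12 ∧ tb (pt 7) = tb (pt 4) ∧ tb (pt 10) = tb (pt 4) ∧ tb (pt 12) = tb (pt 4) := by decide +kernel

/-- A product of two disjoint duads is the image of `z` under the normaliser. -/
theorem exists_conj_quad (C : Ctx Q M L f h π Ly) {a b c d : GolayPt} (hab : a ≠ b) (hac : a ≠ c) (had : a ≠ d)
    (hbc : b ≠ c) (hbd : b ≠ d) (hcd : c ≠ d) :
    ∃ m : ↥(Subgroup.normalizer (Ly.A : Set G)), (m : G) * z * (m : G)⁻¹ = Ly.D a b * Ly.D c d := by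
  obtain ⟨w, hw⟩ := Finset.exists_mem_notMem_of_card_lt_card (s := ({a, b, c, d} : Finset GolayPt))
    (t := Finset.univ) (lt_of_le_of_lt Finset.card_le_four (by rw [Finset.card_univ]; decide))
  obtain ⟨-, hw⟩ := hw
  simp only [Finset.mem_insert, Finset.mem_singleton, not_or] at hw
  obtain ⟨hwa, hwb, hwc, hwd⟩ := hw
  obtain ⟨m, hm⟩ := Ly.exists_map ![pt 0, pt 1, pt 2, pt 3, pt 4] ![a, b, c, d, w] (by decide +kernel) (by
    intro i j e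
    fin_cases i <;> fin_cases j <;> simp_all [eq_comm])
  have h0 := hm 0
  have h1 := hm 1
  have h2 := hm 2
  have h3 := hm 3
  simp only [Matrix.cons_val] at h0 h1 h2 h3
  refine ⟨m, ?_⟩
  refine Eq.trans (congrArg (fun u => (m : G) * u * (m : G)⁻¹) (z_eq_three C).symm) ?_
  show (m : G) * (Ly.D (pt 0) (pt 1) * Ly.D (pt 2) (pt 3)) * (m : G)⁻¹ = _
  rw [show (m : G) * (Ly.D (pt 0) (pt 1) * Ly.D (pt 2) (pt 3)) * (m : G)⁻¹ =
    ((m : G) * Ly.D (pt 0) (pt 1) * (m : G)⁻¹) * ((m : G) * Ly.D (pt 2) (pt 3) * (m : G)⁻¹) by group,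
    Ly.conj_D, Ly.conj_D, h0, h1, h2, h3]

/-- An element mapping two sides of a triangle to two sides of a triangle normalises `A`. -/
theorem mem_normalizer_of_triangle (C : Ctx Q M L f h π Ly) (hx : ScalarElt Q π x) {g : G} (hg : g * z = z * g)
    {p r s p' r' s' : GolayPt} (hpr : tb p ≠ tb r) (hps : tb p ≠ tb s) (hrs : tb r ≠ tb s)
    (e1 : g * Ly.D p' r' * g⁻¹ = Ly.D p r) (e2 : g * Ly.D p' s' * g⁻¹ = Ly.D p s) :
    g ∈ Subgroup.normalizer (Ly.A : Set G) := by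
  have hgi : g⁻¹ * z = z * g⁻¹ := (Commute.inv_left hg).eq
  have hA : ∀ a ∈ Ly.A, g * a * g⁻¹ ∈ Ly.A := by
    intro a ha
    have hz : g * a * g⁻¹ * z = z * (g * a * g⁻¹) := by
      have := Ly.comm a ha z Ly.z_mem
      calc g * a * g⁻¹ * z = g * (a * (g⁻¹ * z)) := by group
        _ = g * (a * z) * g⁻¹ := by rw [hgi]; group
        _ = (g * z) * a * g⁻¹ := by rw [this]; group
        _ = z * (g * a * g⁻¹) := by rw [hg]; group
    have key : ∀ {t u t' u' : GolayPt}, g * Ly.D t' u' * g⁻¹ = Ly.D t u → ∀ q ∈ QG' Q,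
        g * a * g⁻¹ * (q * Ly.D t u * q⁻¹ * (Ly.D t u)⁻¹) = q * Ly.D t u * q⁻¹ * (Ly.D t u)⁻¹ * (g * a * g⁻¹) := by
      intro t u t' u' e q hq
      have hq' : g⁻¹ * q * g⁻¹⁻¹ ∈ QG' Q := C.QG_conj hgi hq
      have hcA : g⁻¹ * q * g⁻¹⁻¹ * Ly.D t' u' * (g⁻¹ * q * g⁻¹⁻¹)⁻¹ * (Ly.D t' u')⁻¹ ∈ Ly.A :=
        mul_mem ((Subgroup.mem_normalizer_iff.1 (Ly.Q_le hq') _).1 (Ly.D_mem _ _)) (inv_mem (Ly.D_mem _ _))
      have h1 : ∀ w, a * w = w * a → g * a * g⁻¹ * (g * w * g⁻¹) = g * w * g⁻¹ * (g * a * g⁻¹) := fun w hw => by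
        calc g * a * g⁻¹ * (g * w * g⁻¹) = g * (a * w) * g⁻¹ := by group
          _ = g * w * g⁻¹ * (g * a * g⁻¹) := by rw [hw]; group
      have h1 := h1 _ (Ly.comm a ha _ hcA)
      rwa [show g * (g⁻¹ * q * g⁻¹⁻¹ * Ly.D t' u' * (g⁻¹ * q * g⁻¹⁻¹)⁻¹ * (Ly.D t' u')⁻¹) * g⁻¹ =
        q * (g * Ly.D t' u' * g⁻¹) * q⁻¹ * (g * Ly.D t' u' * g⁻¹)⁻¹ by group, e] at h1
    exact C.triangle hx hpr hps hrs hz (key e1) (key e2)
  rw [Subgroup.mem_normalizer_iff]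
  refine fun a => ⟨hA a, fun ha => ?_⟩
  obtain ⟨⟨b, hb⟩, hbe⟩ := Finite.surjective_of_injective
    (f := fun b : Ly.A => (⟨g * (b : G) * g⁻¹, hA _ b.2⟩ : Ly.A))
    (fun b b' e => Subtype.ext (mul_left_cancel (mul_right_cancel (congrArg Subtype.val e)))) ⟨_, ha⟩
  have e : g * b * g⁻¹ = g * a * g⁻¹ := congrArg Subtype.val hbe
  rwa [← mul_left_cancel (mul_right_cancel e)]

/-- A scalar-fixed lift is determined by its action. -/
theorem Local.eq_of_fixed {X : Type*} [Group X] (D : Local X) {r : V4} (hr : herm r r = 0) {a b c d : X}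
    (hc : c * D.z = D.z * c) (hd : d * D.z = D.z * d) (ha : a = c * D.u0 * c⁻¹) (hb : b = d * D.u0 * d⁻¹)
    (sa : D.σ a = a) (sb : D.σ b = b) (ta : ∀ q ∈ D.Q, D.π (a * q * a⁻¹) = tau r (D.π q))
    (tb' : ∀ q ∈ D.Q, D.π (b * q * b⁻¹) = tau r (D.π q)) : a = b := by
  have hu : D.u0 * D.u0 = 1 := by
    obtain ⟨g, hg, -⟩ := D.exists_swap
    rw [← hg, show g * D.z * g⁻¹ * (g * D.z * g⁻¹) = g * (D.z * D.z) * g⁻¹ by group, D.z_sq]; group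
  have hcz : ∀ {y w : X}, w * D.z = D.z * w → y = w * D.u0 * w⁻¹ → y * D.z = D.z * y := by
    rintro y w hw rfl
    exact ((Commute.mul_left (Commute.mul_left hw D.u0_comm) (Commute.inv_left hw))).eq
  have haz := hcz hc ha
  have hbz := hcz hd hb
  have hai : a * a = 1 := by
    rw [ha, show c * D.u0 * c⁻¹ * (c * D.u0 * c⁻¹) = c * (D.u0 * D.u0) * c⁻¹ by group, hu]; group
  have habz : a * b * D.z = D.z * (a * b) := (Commute.mul_left haz hbz).eq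
  have hy : a * b ∈ D.Q := D.faithful _ habz fun q hq => by
    rw [show a * b * q * (a * b)⁻¹ = a * (b * q * b⁻¹) * a⁻¹ by group, ta _ (D.normal b hbz q hq), tb' q hq,
      tau_tau_witt hr]
  have hπ : D.π (a * b) = 0 := by
    have h1 := D.σ_act _ hy
    rw [_root_.map_mul, sa, sb] at h1
    have h2 : ((K4.om : K4) + 1) • D.π (a * b) = 0 := by rw [add_smul, one_smul, ← h1, add_self']
    exact (smul_eq_zero.1 h2).resolve_left (by decide)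
  rcases (D.ker _ hy).1 hπ with e | e
  · exact mul_left_cancel (a := a) (hai.trans e.symm)
  · exfalso
    refine D.not_conj ?_
    have hbe : b = a * D.z := by rw [← e, ← mul_assoc, hai, one_mul]
    obtain ⟨g, hg, -⟩ := D.exists_swap
    have h1 : IsConj D.z b := (isConj_iff.2 ⟨g, hg⟩).trans (isConj_iff.2 ⟨d, hb.symm⟩)
    refine h1.trans (isConj_iff.2 ⟨c⁻¹, ?_⟩)
    calc c⁻¹ * b * c⁻¹⁻¹ = D.u0 * (c⁻¹ * (D.z * c)) := by rw [hbe, ha]; group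
      _ = D.z * D.u0 := by rw [← hc, inv_mul_cancel_left, D.u0_comm]

namespace Setup

variable (S : Setup Q M L f h π Ly x pf)
include S

theorem pf_facts : pt 7 ≠ pf ∧ pt 10 ≠ pf ∧ pt 12 ≠ pf := by
  obtain ⟨-, -, -, -, -, -, e7, e10, e12⟩ := tet_one_facts
  refine ⟨?_, ?_, ?_⟩ <;> intro e <;> have := S.hpf <;> rw [← e] at this
  · rw [e7, tb_small.2.2.2.2] at this; exact absurd this (by decide)
  · rw [e10, tb_small.2.2.2.2] at this; exact absurd this (by decide)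
  · rw [e12, tb_small.2.2.2.2] at this; exact absurd this (by decide)

/-- All lifts of the third involution are products of two disjoint duads. -/
theorem lift_quad {e : G} (he : e ∈ fourGroup Ly) : ∃ a b c d : GolayPt, a ≠ b ∧ a ≠ c ∧ a ≠ d ∧ b ≠ c ∧ b ≠ d ∧
    c ≠ d ∧ z * Ly.D (pt 4) pf * e = Ly.D a b * Ly.D c d := by
  obtain ⟨n1, n2, n3, n4, n5, n6, e7, e10, e12⟩ := tet_one_facts
  obtain ⟨f7, f10, f12⟩ := S.pf_facts
  obtain ⟨h01, h02, h03, h12, h13, h23⟩ := pt_small_ne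
  obtain ⟨o40, o41, o42⟩ := out_four
  obtain ⟨of0, of1, of2⟩ := S.out_pf
  obtain ⟨of3, of4⟩ := S.pf_ne
  have h34 : pt 3 ≠ pt 4 := by decide +kernel
  have hc := fun p q r s => Ly.comm _ (Ly.D_mem p q) _ (Ly.D_mem r s)
  have hz := z_eq_three S.ctx
  have move : ∀ a : GolayPt, z * e = Ly.D a (pt 3) → a ≠ pt 3 → a ≠ pt 4 → a ≠ pf →
      ∃ a b c d : GolayPt, a ≠ b ∧ a ≠ c ∧ a ≠ d ∧ b ≠ c ∧ b ≠ d ∧ c ≠ d ∧
        z * Ly.D (pt 4) pf * e = Ly.D a b * Ly.D c d := fun a ea h1 h2 h3 => by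
    refine ⟨a, pt 3, pt 4, pf, h1, h2, h3, h34, of3, of4, ?_⟩
    rw [mul_assoc, Ly.comm _ (Ly.D_mem _ _) _ (fourGroup_le Ly he), ← mul_assoc, ea]
  rcases he with rfl | rfl | rfl | rfl
  · refine ⟨pt 7, pf, pt 10, pt 12, f7, n4, n5, f10.symm, f12.symm, n6, ?_⟩
    refine (mul_one _).trans (Eq.trans (congrArg (fun u => u * Ly.D (pt 4) pf)
      (S.ctx.std.z_eq n1 n2 n3 n4 n5 n6 e7 e10 e12).symm) ?_)
    show Ly.D (pt 4) (pt 7) * Ly.D (pt 10) (pt 12) * Ly.D (pt 4) pf = _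
    rw [mul_assoc, hc (pt 10) (pt 12), ← mul_assoc, Ly.D_symm (pt 4) (pt 7), Ly.D_trans]
  · refine move (pt 2) ?_ h23 o42.symm of2.symm
    refine (congrArg (fun u => u * Ly.D (pt 0) (pt 1)) hz.symm).trans ?_
    show Ly.D (pt 0) (pt 1) * Ly.D (pt 2) (pt 3) * Ly.D (pt 0) (pt 1) = _
    rw [hc (pt 0) (pt 1) (pt 2) (pt 3), mul_assoc, Ly.D_mul_self, mul_one]
  · refine move (pt 1) ?_ h13 o41.symm of1.symm
    refine (congrArg (fun u => u * Ly.D (pt 0) (pt 2)) hz.symm).trans ?_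
    show Ly.D (pt 0) (pt 1) * Ly.D (pt 2) (pt 3) * Ly.D (pt 0) (pt 2) = _
    rw [hc (pt 0) (pt 1) (pt 2) (pt 3), mul_assoc, (D_mul_chain Ly (pt 0) (pt 1) (pt 2)).1,
      hc (pt 2) (pt 3) (pt 1) (pt 2), Ly.D_trans]
  · refine move (pt 0) ?_ h03 o40.symm of0.symm
    refine (congrArg (fun u => u * Ly.D (pt 1) (pt 2)) hz.symm).trans ?_
    show Ly.D (pt 0) (pt 1) * Ly.D (pt 2) (pt 3) * Ly.D (pt 1) (pt 2) = _
    rw [hc (pt 0) (pt 1) (pt 2) (pt 3), mul_assoc, Ly.D_trans,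
      hc (pt 2) (pt 3) (pt 0) (pt 2), Ly.D_trans]

theorem lift_conj {e : G} (he : e ∈ fourGroup Ly) : IsConj z (z * Ly.D (pt 4) pf * e) := by
  obtain ⟨a, b, c, d, h1, h2, h3, h4, h5, h6, e'⟩ := S.lift_quad he
  rw [e']
  exact Ly.quad_conj h1 h2 h3 h4 h5 h6

/-- The third involution. -/
def kC : CE Ly := ⟨z * Ly.D (pt 4) pf, mul_mem (z_mem_CE S.ctx) (A_le_CE Ly (Ly.D_mem _ _))⟩

theorem k_eq : mkE Ly ⟨z, z_mem_CE S.ctx⟩ * dX Ly (pt 2) (pt 4) * dX Ly (pt 2) pf = mkE Ly S.kC := by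
  rw [mul_assoc, dX_symm Ly (pt 2) (pt 4), dX_mul_chain, dX, ← map_mul]
  rfl

theorem k_sep : ¬ IsConj (mkE Ly ⟨z, z_mem_CE S.ctx⟩) (mkE Ly S.kC) := by
  intro hc
  obtain ⟨g, e, he, h1⟩ := S.exists_of_isConj hc
  change (g : G) * z * (g : G)⁻¹ = z * Ly.D (pt 4) pf * e at h1
  have he' := D_mem_fourGroup Ly (p := pt 0) (q := pt 1) (Or.inl rfl) (Or.inr (Or.inl rfl))
  refine z_mul_four S.ctx he' (Ly.D_ne_one pt_small_ne.1)
    ((S.lift_conj (mul_mem he he')).trans (isConj_iff.2 ⟨(g : G)⁻¹, ?_⟩))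
  rw [← S.conj_z_four g.2 he he' (mul_mem Ly.z_mem (Ly.D_mem _ _)) h1]
  group

/-- A permutation fixing the three points moves the image of `z` to a neighbour or fixes it. -/
theorem conj_z_cases {g : ↥(Subgroup.normalizer (Ly.A : Set G))} (hg : (g : G) ∈ CE Ly) :
    mkE Ly ⟨g, hg⟩ * mkE Ly ⟨z, z_mem_CE S.ctx⟩ * (mkE Ly ⟨g, hg⟩)⁻¹ = mkE Ly ⟨z, z_mem_CE S.ctx⟩ ∨
      ∃ y : XE Ly, y * mkE Ly ⟨z, z_mem_CE S.ctx⟩ = mkE Ly ⟨z, z_mem_CE S.ctx⟩ * y ∧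
        mkE Ly ⟨g, hg⟩ * mkE Ly ⟨z, z_mem_CE S.ctx⟩ * (mkE Ly ⟨g, hg⟩)⁻¹ = y * dX Ly (pt 2) (pt 4) * y⁻¹ := by
  obtain ⟨h0, h1, h2⟩ := fix_of_mem_CE Ly hg
  obtain ⟨n0, n1, n2⟩ := out_three
  have hi := Ly.act_injective g
  have ho : Out (Ly.act g (pt 3)) :=
    ⟨fun e => n0 (hi (e.trans h0.symm)), fun e => n1 (hi (e.trans h1.symm)), fun e => n2 (hi (e.trans h2.symm))⟩
  have e : mkE Ly ⟨g, hg⟩ * mkE Ly ⟨z, z_mem_CE S.ctx⟩ * (mkE Ly ⟨g, hg⟩)⁻¹ =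
      dX Ly (pt 2) (Ly.act g (pt 3)) := by
    rw [mk_z S.ctx, conj_dX, h2]
  by_cases h3 : Ly.act g (pt 3) = pt 3
  · exact Or.inl (by rw [e, h3, mk_z S.ctx])
  · obtain ⟨y, hy1, hy2⟩ := S.exists_stab_map out_four (by decide +kernel) ho (Ne.symm h3)
    exact Or.inr ⟨y, hy1, by rw [e, hy2]⟩

/-- The centraliser of the third involution. -/
theorem k_cent {y : XE Ly} (hy : y * mkE Ly S.kC = mkE Ly S.kC * y) :
    y * mkE Ly ⟨z, z_mem_CE S.ctx⟩ * y⁻¹ = mkE Ly ⟨z, z_mem_CE S.ctx⟩ ∨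
      ∃ c : XE Ly, c * mkE Ly ⟨z, z_mem_CE S.ctx⟩ = mkE Ly ⟨z, z_mem_CE S.ctx⟩ * c ∧
        y * mkE Ly ⟨z, z_mem_CE S.ctx⟩ * y⁻¹ = c * dX Ly (pt 2) (pt 4) * c⁻¹ := by
  obtain ⟨g, rfl⟩ := QuotientGroup.mk'_surjective (NE Ly) y
  obtain ⟨e, he, hge⟩ : ∃ e ∈ fourGroup Ly,
      (g : G) * (z * Ly.D (pt 4) pf) * (g : G)⁻¹ = z * Ly.D (pt 4) pf * e := by
    obtain ⟨e, he, h1⟩ := (mk_eq_iff Ly (a := g * S.kC * g⁻¹) (b := S.kC)).1 (by
      rw [map_mul, map_mul, map_inv, hy, mul_inv_cancel_right])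
    exact ⟨e, he, h1⟩
  suffices hN : (g : G) ∈ Subgroup.normalizer (Ly.A : Set G) from S.conj_z_cases (g := ⟨g, hN⟩) g.2
  obtain ⟨a, b, c, d, h1, h2, h3, h4, h5, h6, ey⟩ := S.lift_quad (one_mem (fourGroup Ly))
  obtain ⟨m, hm⟩ := exists_conj_quad S.ctx h1 h2 h3 h4 h5 h6
  rw [← ey, mul_one] at hm
  obtain ⟨a', b', c', d', k1, k2, k3, k4, k5, k6, ey'⟩ := S.lift_quad he
  obtain ⟨m', hm'⟩ := exists_conj_quad S.ctx k1 k2 k3 k4 k5 k6
  rw [← ey'] at hm'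
  set t : G := (m' : G)⁻¹ * (g : G) * (m : G) with ht
  have htz : t * z = z * t := by
    refine mul_inv_eq_iff_eq_mul.1 ?_
    rw [ht, show (m' : G)⁻¹ * (g : G) * (m : G) * z * ((m' : G)⁻¹ * (g : G) * (m : G))⁻¹ =
      (m' : G)⁻¹ * ((g : G) * ((m : G) * z * (m : G)⁻¹) * (g : G)⁻¹) * (m' : G) by group, hm, hge, ← hm']
    group
  have hcross : ∀ {e0 : G}, e0 ∈ fourGroup Ly → ∀ (w : ↥(Subgroup.normalizer (Ly.A : Set G))),
      (w : G) * z * (w : G)⁻¹ = z * Ly.D (pt 4) pf * e0 → ∀ p q, p ≠ q → Ly.D p q ∈ fourGroup Ly →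
      tb (Ly.act w⁻¹ p) ≠ tb (Ly.act w⁻¹ q) := by
    intro e0 he0 w hw p q hpq hd htb
    have hne := (Ly.act_injective w⁻¹).ne hpq
    obtain ⟨r, s, hrs, -, -, -, -, -, -, e'⟩ := S.ctx.std.mul_pair hne htb.symm
    refine Ly.D_not_conj hrs ?_
    rw [← e', ← Ly.conj_D]
    refine (S.lift_conj (mul_mem he0 hd)).trans (isConj_iff.2 ⟨(w : G)⁻¹, ?_⟩)
    rw [← mul_assoc _ e0, ← hw]
    simp only [Subgroup.coe_inv]
    group
  have htD : ∀ p q, Ly.D p q ∈ fourGroup Ly →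
      t * Ly.D (Ly.act m⁻¹ p) (Ly.act m⁻¹ q) * t⁻¹ = Ly.D (Ly.act m'⁻¹ p) (Ly.act m'⁻¹ q) := fun p q hd => by
    rw [← Ly.conj_D, ← Ly.conj_D, ht]
    simp only [Subgroup.coe_inv]
    rw [show (m' : G)⁻¹ * (g : G) * (m : G) * ((m : G)⁻¹ * Ly.D p q * (m : G)⁻¹⁻¹) *
      ((m' : G)⁻¹ * (g : G) * (m : G))⁻¹ = (m' : G)⁻¹ * ((g : G) * Ly.D p q * (g : G)⁻¹) * (m' : G)⁻¹⁻¹ by group,
      ← Subgroup.mem_centralizer_iff.1 g.2 _ hd, mul_inv_cancel_right]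
  obtain ⟨h01, h02, -, h12, -, -⟩ := pt_small_ne
  have m01 := D_mem_fourGroup Ly (p := pt 0) (q := pt 1) (Or.inl rfl) (Or.inr (Or.inl rfl))
  have m02 := D_mem_fourGroup Ly (p := pt 0) (q := pt 2) (Or.inl rfl) (Or.inr (Or.inr rfl))
  have m12 := D_mem_fourGroup Ly (p := pt 1) (q := pt 2) (Or.inr (Or.inl rfl)) (Or.inr (Or.inr rfl))
  have htN := mem_normalizer_of_triangle S.ctx S.hx htz (hcross he m' hm' _ _ h01 m01)
    (hcross he m' hm' _ _ h02 m02) (hcross he m' hm' _ _ h12 m12) (htD _ _ m01) (htD _ _ m02)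
  have := mul_mem (mul_mem m'.2 htN) (inv_mem m.2)
  rwa [ht, show (m' : G) * ((m' : G)⁻¹ * (g : G) * (m : G)) * (m : G)⁻¹ = g by group] at this

end Setup

end CfsgLib.FischerLarge.U62
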