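import Cfsg.Agent.Lib.FischerLarge.U62.Basic

/-!
FischerLarge/U62: the isotropic points of the six-dimensional hermitian space over the field with four
elements, in coordinates adapted to the base point `(1,1,0,0,0,0)`.
-/

set_option autoImplicit false

namespace CfsgLib.FischerLarge.U62

/-- The six-dimensional space. -/
abbrev V6 : Type := Fin 6 → K4

/-- The hermitian form. -/
def herm6 (v w : V6) : K4 :=
  v 0 * K4.conj (w 0) + v 1 * K4.conj (w 1) + v 2 * K4.conj (w 2) + v 3 * K4.conj (w 3) +
    v 4 * K4.conj (w 4) + v 5 * K4.conj (w 5)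

/-- The isotropic nonzero vectors. -/
def Iso6 (v : V6) : Prop := v ≠ 0 ∧ herm6 v v = 0

instance (v : V6) : Decidable (Iso6 v) := inferInstanceAs (Decidable (v ≠ 0 ∧ herm6 v v = 0))

/-- Isotropic vectors. -/
abbrev Pt6 : Type := {v : V6 // Iso6 v}

/-- The image of `w` under the transvection with centre `v`. -/
def refl6 (v w : V6) : V6 := fun i => w i + herm6 w v * v i

theorem herm6_smul_left (a : K4) (u v : V6) : herm6 (a • u) v = a * herm6 u v := by
  simp only [herm6, Pi.smul_apply, smul_eq_mul]; ring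

theorem herm6_add_left (u v w : V6) : herm6 (u + v) w = herm6 u w + herm6 v w := by
  simp only [herm6, Pi.add_apply]; ring

theorem herm6_symm (u v : V6) : herm6 v u = K4.conj (herm6 u v) := by
  simp only [herm6, map_add, map_mul, K4.conj_conj]; ring

theorem refl6_eq (v w : V6) : refl6 v w = w + herm6 w v • v := by
  funext i; simp [refl6]

theorem herm6_smul_right (a : K4) (u v : V6) : herm6 u (a • v) = K4.conj a * herm6 u v := by
  simp only [herm6, Pi.smul_apply, smul_eq_mul, map_mul]; ring

theorem herm6_add_right (u v w : V6) : herm6 u (v + w) = herm6 u v + herm6 u w := by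
  simp only [herm6, Pi.add_apply, map_add]; ring

theorem herm6_refl6 (u v w : V6) (hv : herm6 v v = 0) : herm6 (refl6 v u) (refl6 v w) = herm6 u w := by
  rw [refl6_eq, refl6_eq, herm6_add_left, herm6_add_right, herm6_add_right, herm6_smul_left, herm6_smul_left,
    herm6_smul_right, herm6_smul_right, hv, herm6_symm w v]
  linear_combination K4.add_self (herm6 u v * K4.conj (herm6 w v))

theorem iso6_refl6 {v w : V6} (hv : Iso6 v) (hw : Iso6 w) : Iso6 (refl6 v w) := by
  refine ⟨fun h => hw.1 ?_, by rw [herm6_refl6 _ _ _ hv.2]; exact hw.2⟩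
  have h2 : refl6 v (refl6 v w) = w := by
    rw [refl6_eq v (refl6 v w), refl6_eq v w, herm6_add_left, herm6_smul_left, hv.2, mul_zero, add_zero]
    funext i
    simp only [Pi.add_apply, Pi.smul_apply, smul_eq_mul]
    linear_combination K4.add_self (herm6 w v * v i)
  rw [← h2, h]
  funext i
  simp [refl6, herm6]

/-- The image point under a transvection. -/
def Pt6.refl (v w : Pt6) : Pt6 := ⟨refl6 v.1 w.1, iso6_refl6 v.2 w.2⟩

/-- The point corresponding to the base involution. -/
def ptE : Pt6 := ⟨![1, 1, 0, 0, 0, 0], by decide⟩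

/-- The point over an isotropic vector of the four-dimensional space. -/
def emb4 (v : V4) : V6 := ![0, 0, v 0, v 1, v 2, v 3]

/-- A labelling of the component of `z` by isotropic points, compatible with conjugation. -/
structure Labelling {X : Type*} [Group X] (D : Local X) where
  /-- The labelling map. -/
  f : Pt6 → X
  mem : ∀ v, f v ∈ D.T0
  surj : ∀ x ∈ D.T0, ∃ v, f v = x
  eq_iff : ∀ v w : Pt6, f v = f w ↔ ∃ a : K4, w.1 = a • v.1
  conj : ∀ v w : Pt6, f v * f w * f v = f (Pt6.refl v w)
  base : f ptE = D.z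
  base₀ : ∀ v : Pt6, v.1 = emb4 r0 → f v = D.u0
  base₁ : ∀ v : Pt6, v.1 = emb4 r1 →
    ∃ c, c * D.z = D.z * c ∧ f v = c * D.u0 * c⁻¹ ∧ D.σ (f v) = f v ∧
      ∀ q ∈ D.Q, D.π (c * D.u0 * c⁻¹ * q * (c * D.u0 * c⁻¹)⁻¹) = tau r1 (D.π q)
  centralizer : ∀ c, (∀ x ∈ D.T0, c * x = x * c) → c = 1
  centralizer_z : ∀ c, c * D.z = D.z * c → c ∈ Subgroup.closure D.T0

end CfsgLib.FischerLarge.U62
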