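import Cfsg.Agent.Lib.FischerLarge.U62.Graph
import Cfsg.Agent.Lib.FischerLarge.U62.Model

/-!
FischerLarge/U62: the labelling of the component by isotropic points of the six-dimensional space.
-/

set_option autoImplicit false

namespace CfsgLib.FischerLarge.U62

variable {X : Type*} [Group X]

section T0

variable {D : Local X}

theorem inv_conj_z_mem {g : X} (h : g * D.z * g⁻¹ ∈ D.T0) : g⁻¹ * D.z * g⁻¹⁻¹ ∈ D.T0 := by
  have hz : ∀ {u : X}, D.Adj u (g * D.z * g⁻¹) → D.Adj (g⁻¹ * u * g⁻¹⁻¹) D.z := fun hu => by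
    have := hu.conj g⁻¹
    rwa [show g⁻¹ * (g * D.z * g⁻¹) * g⁻¹⁻¹ = D.z by group] at this
  rcases h with h | h | ⟨⟨u, hu, huw⟩, -, -⟩
  · refine Or.inl ?_
    conv_lhs => rw [← h]
    group
  · exact Or.inr (Or.inl (adj_z_iff.1 (hz (adj_z_iff.2 h)).symm))
  · exact mem_T0_of_adj (Or.inr (Or.inl (adj_z_iff.1 (hz huw).symm))) ((adj_z_iff.2 hu).symm.conj g⁻¹)

theorem T0_comm_z {x : X} (hx : x ∈ D.T0) (h : D.z * x = x * D.z) : x = D.z ∨ x ∈ D.G1 := by
  rcases hx with hx | hx | hx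
  · exact Or.inl hx
  · exact Or.inr hx
  · exact absurd h (not_commute_far hx)

theorem adj_of_commute_T0 {x y : X} (hx : x ∈ D.T0) (hy : y ∈ D.T0) (hne : x ≠ y) (h : x * y = y * x) :
    D.Adj x y := by
  obtain ⟨g, rfl⟩ := exists_conj_z_of_mem hx
  have hy' : g⁻¹ * y * g⁻¹⁻¹ ∈ D.T0 := conj_mem_T0 (inv_conj_z_mem hx) hy
  have hc : D.z * (g⁻¹ * y * g⁻¹⁻¹) = g⁻¹ * y * g⁻¹⁻¹ * D.z := by
    refine (conj_commute_iff g _ _).1 ?_
    rwa [show g * (g⁻¹ * y * g⁻¹⁻¹) * g⁻¹ = y by group]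
  rcases T0_comm_z hy' hc with e | e
  · exact absurd (show g * D.z * g⁻¹ = y by rw [← e]; group) hne
  · have := (adj_z_iff.2 e).conj g
    rwa [show g * (g⁻¹ * y * g⁻¹⁻¹) * g⁻¹ = y by group] at this

theorem exists_pair {x y : X} (hx : x ∈ D.T0) (hy : y ∈ D.T0) (h : ¬ x * y = y * x) :
    ∃ g, g * D.z * g⁻¹ = x ∧ g * D.W * g⁻¹ = y ∧ g⁻¹ * D.z * g⁻¹⁻¹ ∈ D.T0 := by
  obtain ⟨g, rfl⟩ := exists_conj_z_of_mem hx
  have hy' : g⁻¹ * y * g⁻¹⁻¹ ∈ D.T0 := conj_mem_T0 (inv_conj_z_mem hx) hy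
  have hnc : ¬ D.z * (g⁻¹ * y * g⁻¹⁻¹) = g⁻¹ * y * g⁻¹⁻¹ * D.z := fun e => h (by
    have := (conj_commute_iff g _ _).2 e
    rwa [show g * (g⁻¹ * y * g⁻¹⁻¹) * g⁻¹ = y by group] at this)
  obtain ⟨q, hq, he⟩ := G2_rep (hy'.resolve_left (fun e => hnc (by rw [e]))
    |>.resolve_left fun e => hnc (adj_z_iff.2 e).comm)
  have hx' : g * q * D.z * (g * q)⁻¹ = g * D.z * g⁻¹ := by
    rw [show g * q * D.z * (g * q)⁻¹ = g * (q * D.z * q⁻¹) * g⁻¹ by group, D.Q_comm q hq, mul_inv_cancel_right]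
  refine ⟨g * q, hx', ?_, inv_conj_z_mem (by rw [hx']; exact hx)⟩
  rw [show g * q * D.W * (g * q)⁻¹ = g * (q * D.W * q⁻¹) * g⁻¹ by group, ← he]
  group

theorem third_unique {x y p : X} (hx : x ∈ D.T0) (hy : y ∈ D.T0) (hp : p ∈ D.T0) (h : ¬ x * y = y * x)
    (hk : ∀ k ∈ D.T0, k * x = x * k → k * y = y * k → k * p = p * k) : p = x ∨ p = y ∨ p = x * y * x := by
  obtain ⟨g, hgz, hgW, hg⟩ := exists_pair hx hy h
  have hp' : g⁻¹ * p * g⁻¹⁻¹ ∈ D.T0 := conj_mem_T0 hg hp
  have hall : ∀ r, Iso r → g⁻¹ * p * g⁻¹⁻¹ * D.t r = D.t r * (g⁻¹ * p * g⁻¹⁻¹) := by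
    intro r hr
    have ht : D.t r ∈ D.G1 := by rw [← D.m_zero]; exact D.mem_G1 hr 0
    have h1 := hk (g * D.t r * g⁻¹) (conj_mem_T0 (hgz ▸ hx) (Or.inr (Or.inl ht)))
      (by rw [← hgz, conj_commute_iff]; exact (adj_z_iff.2 ht).comm.symm)
      (by rw [← hgW, conj_commute_iff]; exact (adj_t_W hr).comm)
    refine (conj_commute_iff g _ _).1 ?_
    rw [show g * (g⁻¹ * p * g⁻¹⁻¹) * g⁻¹ = p by group]
    exact h1.symm
  have e : p = g * (g⁻¹ * p * g⁻¹⁻¹) * g⁻¹ := by group
  rcases third_base hp' hall with h3 | h3 | h3 <;> rw [h3] at e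
  · exact Or.inl (e.trans hgz)
  · exact Or.inr (Or.inl (e.trans hgW))
  · refine Or.inr (Or.inr (e.trans ?_))
    rw [← hgz, ← hgW]
    group

end T0

variable (D : Local X)

/-- The base isotropic vector of the six-dimensional space. -/
def vE : V6 := ![1, 1, 0, 0, 0, 0]

/-- A point over an isotropic vector. -/
def vM (r : V4) (a : K4) : V6 := ![K4.conj a, K4.conj a, r 0, r 1, r 2, r 3]

/-- The coefficient attached to a member at distance two. -/
def cN (v : V4) (e : Bool) : K4 := K4.om2 * herm v v + bif e then 1 else 0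

/-- A point at distance two from the base. -/
def vN (v : V4) (e : Bool) : V6 := ![cN v e + K4.om, cN v e + K4.om2, v 0, v 1, v 2, v 3]

/-- The middle coordinates. -/
def mid (w : V6) : V4 := ![w 2, w 3, w 4, w 5]

/-- The member at distance two with given coordinates. -/
noncomputable def Local.N (v : V4) (e : Bool) : X := D.th v * D.zp e * D.W * (D.th v * D.zp e)⁻¹

/-- The labelling map. -/
noncomputable def Local.label (w : Pt6) : X :=
  if w.1 0 + w.1 1 = 0 then (if mid w.1 = 0 then D.z else D.m (mid w.1) (K4.conj (w.1 0)))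
  else D.N ((w.1 0 + w.1 1)⁻¹ • mid w.1)
    (decide ((w.1 0 + w.1 1)⁻¹ * w.1 0 + K4.om ≠
      K4.om2 * herm ((w.1 0 + w.1 1)⁻¹ • mid w.1) ((w.1 0 + w.1 1)⁻¹ • mid w.1)))

theorem kinds (w : V6) (hw : Iso6 w) : (∃ l : K4, l ≠ 0 ∧ w = l • vE) ∨
    (∃ l r a, l ≠ (0 : K4) ∧ Iso r ∧ w = l • vM r a) ∨ ∃ l v e, l ≠ (0 : K4) ∧ w = l • vN v e := by
  by_cases h : w 0 + w 1 = 0
  · have h01 : w 1 = w 0 := by linear_combination h - K4.add_self (w 0)
    by_cases hm : mid w = 0
    · have h2 : ∀ i, mid w i = 0 := fun i => by rw [hm]; rfl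
      have e : w = w 0 • vE := by
        funext i; fin_cases i
        · simp [vE]
        · simp [vE, h01]
        · simpa [vE, mid] using h2 0
        · simpa [vE, mid] using h2 1
        · simpa [vE, mid] using h2 2
        · simpa [vE, mid] using h2 3
      refine Or.inl ⟨w 0, fun h0 => hw.1 ?_, e⟩
      rw [e, h0, zero_smul]
    · refine Or.inr (Or.inl ⟨1, mid w, K4.conj (w 0), one_ne_zero, ⟨hm, ?_⟩, ?_⟩)
      · have := hw.2
        simp only [herm6, h01] at this
        simp only [herm, mid]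
        simp only [Matrix.cons_val]
        linear_combination this - K4.add_self (w 0 * K4.conj (w 0))
      · funext i; fin_cases i <;> simp [vM, mid, h01, K4.conj_conj]
  · obtain ⟨a, ha, h1⟩ : ∃ a, a ≠ 0 ∧ a = w 0 + w 1 := ⟨_, h, rfl⟩
    refine Or.inr (Or.inr ⟨a, a⁻¹ • mid w,
      decide (a⁻¹ * w 0 + K4.om ≠ K4.om2 * herm (a⁻¹ • mid w) (a⁻¹ • mid w)), ha, ?_⟩)
    have hc : cN (a⁻¹ • mid w)
        (decide (a⁻¹ * w 0 + K4.om ≠ K4.om2 * herm (a⁻¹ • mid w) (a⁻¹ • mid w))) = a⁻¹ * w 0 + K4.om := by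
      have hq : w 0 * K4.conj (w 0) + w 1 * K4.conj (w 1) + herm (mid w) (mid w) = 0 := by
        have := hw.2
        simp only [herm, mid, Matrix.cons_val]
        simp only [herm6] at this
        linear_combination this
      have key : ∀ a x y q : K4, a ≠ 0 → a = x + y → x * K4.conj x + y * K4.conj y + q = 0 →
          a⁻¹ * x + K4.om = K4.om2 * (a⁻¹ * (K4.conj a⁻¹ * q)) ∨
          a⁻¹ * x + K4.om = K4.om2 * (a⁻¹ * (K4.conj a⁻¹ * q)) + 1 := by decide +kernel
      have e : herm (a⁻¹ • mid w) (a⁻¹ • mid w) = a⁻¹ * (K4.conj a⁻¹ * herm (mid w) (mid w)) := by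
        rw [herm_smul_left, herm_smul_right]
      have hk := key a (w 0) (w 1) _ ha h1 hq
      rw [← e] at hk
      rw [cN]
      rcases hk with hk | hk
      · rw [decide_eq_false (not_not.2 hk), cond_false, add_zero]
        exact hk.symm
      · rw [decide_eq_true (show _ ≠ _ from fun h2 => one_ne_zero (add_eq_left.1 (hk.symm.trans h2))), cond_true]
        exact hk.symm
    simp only [vN, hc]
    have key2 : ∀ a x y : K4, a ≠ 0 → a = x + y →
        a * (a⁻¹ * x + K4.om + K4.om) = x ∧ a * (a⁻¹ * x + K4.om + K4.om2) = y := by decide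
    obtain ⟨k1, k2⟩ := key2 a (w 0) (w 1) ha h1
    funext i; fin_cases i <;> simp [mid, k1, k2, mul_inv_cancel_left₀ ha]

theorem label_E {w : Pt6} {l : K4} (h : w.1 = l • vE) : D.label w = D.z := by
  have h1 : w.1 0 + w.1 1 = 0 := by
    rw [h]; simp only [Pi.smul_apply, smul_eq_mul]; exact K4.add_self _
  have h2 : mid w.1 = 0 := by
    rw [h]; funext i; fin_cases i <;> simp [mid, vE]
  rw [Local.label, if_pos h1, if_pos h2]

theorem label_M {w : Pt6} {l : K4} (hl : l ≠ 0) {r : V4} (hr : Iso r) {a : K4} (h : w.1 = l • vM r a) :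
    D.label w = D.m r a := by
  have h1 : w.1 0 + w.1 1 = 0 := by
    rw [h]; simp only [Pi.smul_apply, smul_eq_mul]; exact K4.add_self _
  have h2 : mid w.1 = l • r := by
    rw [h]; funext i; fin_cases i <;> simp [mid, vM]
  have h3 : mid w.1 ≠ 0 := h2 ▸ (hr.smul hl).1
  rw [Local.label, if_pos h1, if_neg h3, h2, D.m_smul hr hl, h]
  simp only [Pi.smul_apply, smul_eq_mul, _root_.map_mul, vM, Matrix.cons_val_zero, K4.conj_conj]
  rw [show K4.conj l * a * l = (K4.conj l * l) * a by ring, norm_one hl, one_mul]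

theorem label_N {w : Pt6} {l : K4} (hl : l ≠ 0) {v : V4} {e : Bool} (h : w.1 = l • vN v e) :
    D.label w = D.N v e := by
  have h1 : w.1 0 + w.1 1 = l := by
    rw [h]; simp only [Pi.smul_apply, smul_eq_mul, vN, Matrix.cons_val_zero, Matrix.cons_val_one]
    have : ∀ l c : K4, l * (c + K4.om) + l * (c + K4.om2) = l := by decide
    exact this _ _
  have h2 : l⁻¹ • mid w.1 = v := by
    rw [h]; funext i; fin_cases i <;> simp [mid, vN, inv_mul_cancel_left₀ hl]
  have h3 : l⁻¹ * w.1 0 = cN v e + K4.om := by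
    rw [h]; simp [vN, inv_mul_cancel_left₀ hl]
  rw [Local.label, if_neg (by rw [h1]; exact hl), h1, h2, h3, cN]
  congr 1
  have : ∀ (q : K4) (e : Bool), decide (K4.om2 * q + (bif e then 1 else 0) + K4.om + K4.om ≠ K4.om2 * q) = e := by
    decide
  exact this _ _

theorem N_mem (v : V4) (e : Bool) : D.N v e ∈ D.G2 :=
  conj_mem_G2 (D.Q_comm _ (D.Q.mul_mem (D.th_mem v) (D.zp_mem e))) D.W_mem

theorem th_zp_inj {v u : V4} {e d : Bool} (h : D.th v * D.zp e = D.th u * D.zp d) : v = u ∧ e = d := by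
  have h1 := congrArg D.π h
  rw [D.π_mul_zp (D.th_mem _), D.π_mul_zp (D.th_mem _), D.π_th, D.π_th] at h1
  subst h1
  exact ⟨rfl, D.zp_injective (mul_left_cancel h)⟩

theorem N_inj {v u : V4} {e d : Bool} (h : D.N v e = D.N u d) : v = u ∧ e = d :=
  th_zp_inj D (conj_W_eq (D.Q.mul_mem (D.th_mem v) (D.zp_mem e)) (D.Q.mul_mem (D.th_mem u) (D.zp_mem d)) h)

theorem N_commute (v u : V4) (e d : Bool) : D.N v e * D.N u d = D.N u d * D.N v e ↔
    herm (v + u) (v + u) = 0 ∧ xor (xor (beta v u) (beta v v)) (xor e d) = false := by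
  have hq1 : D.th v * D.zp e ∈ D.Q := D.Q.mul_mem (D.th_mem v) (D.zp_mem e)
  have hq2 : D.th u * D.zp d ∈ D.Q := D.Q.mul_mem (D.th_mem u) (D.zp_mem d)
  have hprod : (D.th v * D.zp e)⁻¹ * (D.th u * D.zp d) =
      D.th (v + u) * D.zp (xor (xor (beta v u) (beta v v)) (xor e d)) := by
    rw [mul_inv_rev, D.zp_inv, D.th_inv, ← D.zp_central (D.Q.mul_mem (D.th_mem v) (D.zp_mem _))]
    calc D.th v * D.zp (beta v v) * D.zp e * (D.th u * D.zp d)
        = D.th v * ((D.zp (beta v v) * D.zp e) * D.th u) * D.zp d := by group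
      _ = D.th v * (D.th u * (D.zp (beta v v) * D.zp e)) * D.zp d := by
          rw [D.zp_mul, D.zp_central (D.th_mem u)]
      _ = (D.th v * D.th u) * (D.zp (beta v v) * D.zp e * D.zp d) := by group
      _ = _ := by
          rw [D.th_mul, D.zp_mul, D.zp_mul, mul_assoc, D.zp_mul]
          congr 2
          cases beta v u <;> cases beta v v <;> cases e <;> cases d <;> rfl
  have hy : D.N u d = (D.th v * D.zp e) * (((D.th v * D.zp e)⁻¹ * (D.th u * D.zp d)) * D.W *
      ((D.th v * D.zp e)⁻¹ * (D.th u * D.zp d))⁻¹) * (D.th v * D.zp e)⁻¹ := by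
    rw [Local.N]; group
  rw [hy, hprod]
  generalize xor (xor (beta v u) (beta v v)) (xor e d) = b
  rw [Local.N, conj_commute_iff]
  have hmem : D.th (v + u) * D.zp b * D.W * (D.th (v + u) * D.zp b)⁻¹ ∈ D.G2 := N_mem D _ _
  constructor
  · intro hc
    by_cases heq : D.W = D.th (v + u) * D.zp b * D.W * (D.th (v + u) * D.zp b)⁻¹
    · have h1 := free D.W_mem (D.Q.mul_mem (D.th_mem _) (D.zp_mem _)) heq.symm
      have h2 := th_zp_inj D (h1.trans (show (1 : X) = D.th 0 * D.zp false by rw [D.th_zero]; simp [Local.zp]))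
      exact ⟨by rw [h2.1, herm_zero_left], h2.2⟩
    · obtain ⟨x, hx, hxe⟩ := exists_conj_of_adj_W hmem
        (adj_of_commute_T0 (Or.inr (Or.inr D.W_mem)) (Or.inr (Or.inr hmem)) heq hc)
      have h1 := conj_W_eq (D.Q.mul_mem (D.th_mem _) (D.zp_mem _)) (D.th_mem x) hxe
      have h2 := th_zp_inj D (h1.trans (show D.th x = D.th x * D.zp false by simp [Local.zp]))
      exact ⟨by rw [h2.1]; exact hx.2, h2.2⟩
  · rintro ⟨h1, rfl⟩
    simp only [Local.zp, cond_false, mul_one]
    by_cases h0 : v + u = 0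
    · rw [h0, D.th_zero, one_mul, inv_one, mul_one]
    · exact (adj_W_conj ⟨h0, h1⟩).comm

theorem herm6_E_M (r : V4) (a : K4) : herm6 vE (vM r a) = 0 := by
  have h : ∀ a : K4, K4.conj (K4.conj a) + K4.conj (K4.conj a) = 0 := by decide
  simp [herm6, vE, vM, h]

theorem herm6_E_N (v : V4) (e : Bool) : herm6 vE (vN v e) = 1 := by
  have h : ∀ c : K4, K4.conj (c + K4.om) + K4.conj (c + K4.om2) = 1 := by decide
  simp [herm6, vE, vN, -map_add, h]

theorem herm6_M_M (r s : V4) (a b : K4) : herm6 (vM r a) (vM s b) = herm r s := by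
  simp only [herm6, vM, herm, Matrix.cons_val]
  linear_combination K4.add_self (K4.conj a * K4.conj (K4.conj b))

theorem herm6_M_N (r v : V4) (a : K4) (e : Bool) : herm6 (vM r a) (vN v e) = K4.conj a + herm r v := by
  have h : ∀ a c : K4, a * K4.conj (c + K4.om) + a * K4.conj (c + K4.om2) = a := by decide
  simp only [herm6, vM, vN, herm, Matrix.cons_val]
  linear_combination h (K4.conj a) (cN v e)

theorem herm6_N_N (v u : V4) (e d : Bool) : herm6 (vN v e) (vN u d) = cN v e + K4.conj (cN u d) + herm v u := by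
  have h : ∀ c c' : K4, (c + K4.om) * K4.conj (c' + K4.om) + (c + K4.om2) * K4.conj (c' + K4.om2) =
      c + K4.conj c' := by decide
  simp only [herm6, vN, herm, Matrix.cons_val]
  linear_combination h (cN v e) (cN u d)

theorem herm6_smul_eq_zero {l l' : K4} (hl : l ≠ 0) (hl' : l' ≠ 0) (x y : V6) :
    herm6 (l • x) (l' • y) = 0 ↔ herm6 x y = 0 := by
  rw [herm6_smul_left, herm6_smul_right]
  simp [hl, hl', map_ne_zero]

theorem label_mem (w : Pt6) : D.label w ∈ D.T0 := by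
  rcases kinds w.1 w.2 with ⟨l, -, h⟩ | ⟨l, r, a, hl, hr, h⟩ | ⟨l, v, e, hl, h⟩
  · rw [label_E D h]; exact Or.inl rfl
  · rw [label_M D hl hr h]; exact Or.inr (Or.inl (D.mem_G1 hr a))
  · rw [label_N D hl h]; exact Or.inr (Or.inr (N_mem D v e))

theorem label_commute (x y : Pt6) : D.label x * D.label y = D.label y * D.label x ↔ herm6 x.1 y.1 = 0 := by
  have symm : ∀ p q : V6, herm6 p q = 0 ↔ herm6 q p = 0 := fun p q =>
    ⟨fun h => by rw [herm6_symm, h, map_zero], fun h => by rw [herm6_symm, h, map_zero]⟩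
  have hMN : ∀ (r : V4) (a : K4) (v : V4) (e : Bool), Iso r →
      (D.m r a * D.N v e = D.N v e * D.m r a ↔ herm6 (vM r a) (vN v e) = 0) := by
    intro r a v e hr
    rw [herm6_M_N]
    constructor
    · intro h
      rw [(adj_m_conj_W hr v e a).1 (adj_of_commute_far (D.mem_G1 hr a) (N_mem D v e) h), ← herm_symm]
      exact K4.add_self _
    · intro h
      refine ((adj_m_conj_W hr v e a).2 ?_).comm
      have h1 : K4.conj a = herm r v := by linear_combination h - K4.add_self (herm r v)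
      rw [← K4.conj_conj a, h1, ← herm_symm]
  have hEM : ∀ (r : V4) (a : K4), Iso r → D.z * D.m r a = D.m r a * D.z :=
    fun r a hr => (D.m_comm_z hr a).symm
  have hEN : ∀ v e, ¬ D.z * D.N v e = D.N v e * D.z := fun v e => not_commute_far (N_mem D v e)
  rcases kinds x.1 x.2 with ⟨l, hl, h⟩ | ⟨l, r, a, hl, hr, h⟩ | ⟨l, v, e, hl, h⟩ <;>
    rcases kinds y.1 y.2 with ⟨l', hl', h'⟩ | ⟨l', s, b, hl', hs, h'⟩ | ⟨l', u, d, hl', h'⟩
  all_goals first
    | rw [label_E D h]
    | rw [label_M D hl hr h]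
    | rw [label_N D hl h]
  all_goals first
    | rw [label_E D h']
    | rw [label_M D hl' hs h']
    | rw [label_N D hl' h']
  all_goals rw [h, h', herm6_smul_eq_zero hl hl']
  · exact iff_of_true rfl (by decide)
  · rw [herm6_E_M]; exact iff_of_true (hEM s b hs) rfl
  · rw [herm6_E_N]; exact iff_of_false (hEN u d) one_ne_zero
  · rw [symm, herm6_E_M]; exact iff_of_true (hEM r a hr).symm rfl
  · rw [herm6_M_M, D.m_commute_iff hr hs]
  · exact hMN r a u d hr
  · rw [symm, herm6_E_N]; exact iff_of_false (fun e' => hEN v e e'.symm) one_ne_zero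
  · rw [symm, ← hMN s b v e hs]; exact eq_comm
  · rw [herm6_N_N, N_commute]
    have h2 : herm (v + u) (v + u) = herm v v + herm v u + K4.conj (herm v u) + herm u u := by
      rw [herm_add_left, herm_add_right, herm_add_right, ← herm_symm v u]; ring
    rw [h2, beta, beta, cN, cN, herm_symm v u]
    have : ∀ (h qv qu : K4) (e d : Bool), (qv = 0 ∨ qv = 1) → (qu = 0 ∨ qu = 1) →
        ((qv + h + K4.conj h + qu = 0 ∧
          xor (xor (K4.om * K4.conj h).b1 (K4.om * qv).b1) (xor e d) = false) ↔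
        K4.om2 * qv + (bif e then 1 else 0) + K4.conj (K4.om2 * qu + bif d then 1 else 0) + h = 0) := by decide
    exact this _ _ _ e d (herm_self_bit v) (herm_self_bit u)

theorem label_eq_iff (x y : Pt6) : D.label x = D.label y ↔ ∃ a : K4, y.1 = a • x.1 := by
  constructor
  · intro heq
    rcases kinds x.1 x.2 with ⟨l, hl, h⟩ | ⟨l, r, a, hl, hr, h⟩ | ⟨l, v, e, hl, h⟩ <;>
      rcases kinds y.1 y.2 with ⟨l', hl', h'⟩ | ⟨l', s, b, hl', hs, h'⟩ | ⟨l', u, d, hl', h'⟩
    all_goals first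
      | rw [label_E D h] at heq
      | rw [label_M D hl hr h] at heq
      | rw [label_N D hl h] at heq
    all_goals first
      | rw [label_E D h'] at heq
      | rw [label_M D hl' hs h'] at heq
      | rw [label_N D hl' h'] at heq
    · exact ⟨l' * l⁻¹, by rw [h, h', smul_smul, mul_assoc, inv_mul_cancel₀ hl, mul_one]⟩
    · exact absurd heq.symm (D.m_ne_z hs b)
    · exact absurd heq.symm (N_mem D u d).2.1
    · exact absurd heq (D.m_ne_z hr a)
    · obtain ⟨k, hk, rfl, hab⟩ := D.m_inj hr hs heq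
      refine ⟨l' * k * l⁻¹, ?_⟩
      rw [h, h', smul_smul, mul_assoc, inv_mul_cancel₀ hl, mul_one, mul_smul, hab]
      congr 1
      have h4 : k * (K4.conj (b * k)) = K4.conj b := by
        rw [_root_.map_mul, show k * (K4.conj b * K4.conj k) = (K4.conj k * k) * K4.conj b by ring, norm_one hk, one_mul]
      funext i; fin_cases i <;> simp [vM, h4] <;> rw [← _root_.map_mul, h4]
    · exact absurd (heq ▸ D.mem_G1 hr a) (N_mem D u d).2.2
    · exact absurd heq (N_mem D v e).2.1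
    · exact absurd (heq ▸ D.mem_G1 hs b) (N_mem D v e).2.2
    · obtain ⟨rfl, rfl⟩ := N_inj D heq
      exact ⟨l' * l⁻¹, by rw [h, h', smul_smul, mul_assoc, inv_mul_cancel₀ hl, mul_one]⟩
  · rintro ⟨a, ha⟩
    have ha0 : a ≠ 0 := fun e => y.2.1 (by rw [ha, e, zero_smul])
    rcases kinds x.1 x.2 with ⟨l, hl, h⟩ | ⟨l, r, b, hl, hr, h⟩ | ⟨l, v, e, hl, h⟩
    · rw [label_E D h, label_E D (w := y) (l := a * l) (by rw [ha, h, smul_smul])]
    · rw [label_M D hl hr h, label_M D (w := y) (mul_ne_zero ha0 hl) hr (by rw [ha, h, smul_smul])]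
    · rw [label_N D hl h, label_N D (w := y) (mul_ne_zero ha0 hl) (by rw [ha, h, smul_smul])]

theorem iso6_vM {r : V4} (hr : Iso r) (a : K4) : Iso6 (vM r a) := by
  refine ⟨fun h => hr.1 (funext fun i => ?_), by rw [herm6_M_M]; exact hr.2⟩
  fin_cases i
  · simpa [vM] using congrFun h 2
  · simpa [vM] using congrFun h 3
  · simpa [vM] using congrFun h 4
  · simpa [vM] using congrFun h 5

theorem iso6_vN (v : V4) (e : Bool) : Iso6 (vN v e) := by
  refine ⟨fun h => ?_, ?_⟩
  · have h0 := congrFun h 0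
    have h1 := congrFun h 1
    simp [vN] at h0 h1
    have : ∀ c : K4, c + K4.om = 0 → c + K4.om2 = 0 → False := by decide
    exact this _ h0 h1
  · rw [herm6_N_N, cN]
    have : ∀ (q : K4) (e : Bool), (q = 0 ∨ q = 1) →
        K4.om2 * q + (bif e then 1 else 0) + K4.conj (K4.om2 * q + bif e then 1 else 0) + q = 0 := by decide
    exact this _ e (herm_self_bit v)

theorem label_surj {x : X} (hx : x ∈ D.T0) : ∃ w, D.label w = x := by
  rcases hx with rfl | hx | hx
  · exact ⟨⟨vE, by decide⟩, label_E D (l := 1) (one_smul _ _).symm⟩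
  · obtain ⟨r, a, hr, rfl⟩ := D.G1_iff.1 hx
    exact ⟨⟨vM r a, iso6_vM hr a⟩, label_M D one_ne_zero hr (one_smul _ _).symm⟩
  · obtain ⟨q, hq, rfl⟩ := G2_rep hx
    obtain ⟨e, he⟩ := D.exists_rep hq
    refine ⟨⟨vN (D.π q) e, iso6_vN _ e⟩, (label_N D one_ne_zero (one_smul _ _).symm).trans ?_⟩
    rw [Local.N, ← he]

theorem T0_sq {x : X} (hx : x ∈ D.T0) : x * x = 1 := by
  obtain ⟨g, rfl⟩ := exists_conj_z_of_mem hx
  rw [show g * D.z * g⁻¹ * (g * D.z * g⁻¹) = g * (D.z * D.z) * g⁻¹ by group, D.z_sq, mul_one, mul_inv_cancel]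

theorem label_conj (v w : Pt6) : D.label v * D.label w * D.label v = D.label (Pt6.refl v w) := by
  have hx := T0_sq D (label_mem D v)
  by_cases h : herm6 w.1 v.1 = 0
  · have h1 : (Pt6.refl v w).1 = w.1 := by
      show refl6 v.1 w.1 = w.1
      rw [refl6_eq, h, zero_smul, add_zero]
    rw [(label_eq_iff D w (Pt6.refl v w)).2 ⟨1, by rw [h1, one_smul]⟩ |>.symm,
      ← (label_commute D w v).2 h, mul_assoc, hx, mul_one]
  · have hnc : ¬ D.label v * D.label w = D.label w * D.label v := fun e => h (by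
      rw [herm6_symm, (label_commute D v w).1 e, map_zero])
    have hp : (Pt6.refl v w).1 = w.1 + herm6 w.1 v.1 • v.1 := refl6_eq _ _
    have hkk : ∀ k ∈ D.T0, k * D.label v = D.label v * k → k * D.label w = D.label w * k →
        k * D.label (Pt6.refl v w) = D.label (Pt6.refl v w) * k := by
      intro k hk hkx hky
      obtain ⟨p, rfl⟩ := label_surj D hk
      rw [label_commute] at hkx hky ⊢
      rw [hp, herm6_add_right, herm6_smul_right, hkx, hky, mul_zero, add_zero]
    rcases third_unique (label_mem D v) (label_mem D w) (label_mem D (Pt6.refl v w)) hnc hkk with e | e | e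
    · exfalso
      obtain ⟨a, ha⟩ := (label_eq_iff D v _).1 e.symm
      rw [hp] at ha
      have h2 := congrArg (fun p => herm6 p v.1) ha
      simp only [herm6_add_left, herm6_smul_left, v.2.2, mul_zero, add_zero] at h2
      exact h h2
    · exfalso
      obtain ⟨a, ha⟩ := (label_eq_iff D w _).1 e.symm
      rw [hp] at ha
      have h2 : herm6 w.1 v.1 • v.1 = (a - 1) • w.1 := by rw [sub_smul, one_smul, ← ha]; abel
      have h3 := congrArg (fun p => herm6 p w.1) h2
      simp only [herm6_smul_left, w.2.2, mul_zero] at h3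
      rcases mul_eq_zero.1 h3 with h4 | h4
      · exact h h4
      · exact h (by rw [herm6_symm, h4, map_zero])
    · exact e.symm

theorem centralizer_eq_one (c : X) (hc : ∀ x ∈ D.T0, c * x = x * c) : c = 1 := by
  have hz := hc D.z (Or.inl rfl)
  obtain ⟨g, hg, hga⟩ := D.act c hz
  have hfix : ∀ v, g v = v := span0 (P := fun v => g v = v) (fun u v hu hv => by rw [hg.lin.1, hu, hv]) fun r hr => by
    have h1 := hc _ (Or.inr (Or.inl (D.mem_G1 hr 1)))
    have h0 := hc _ (Or.inr (Or.inl (D.mem_G1 hr 0)))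
    rw [D.m_zero] at h0
    have e : D.m r 1 * D.t r = D.th r * D.z := by
      rw [Local.m, one_smul, mul_assoc, (D.t_spec hr).sq, mul_one]
      rfl
    have h2 : c * (D.th r * D.z) * c⁻¹ = D.th r * D.z := by
      rw [← e]
      calc c * (D.m r 1 * D.t r) * c⁻¹ = (c * D.m r 1) * (D.t r * c⁻¹) := by group
        _ = D.m r 1 * (c * D.t r) * c⁻¹ := by rw [h1]; group
        _ = _ := by rw [h0]; group
    have hmem := D.Q.mul_mem (D.th_mem r) D.z_mem
    have h3 := hga _ hmem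
    rw [h2, show D.th r * D.z = D.th r * D.zp true from rfl, D.π_mul_zp (D.th_mem r), D.π_th] at h3
    exact h3.symm
  have hq : c ∈ D.Q := D.faithful c hz fun q hq => by rw [hga q hq, hfix]
  exact free D.W_mem hq (by rw [hc _ (Or.inr (Or.inr D.W_mem)), mul_inv_cancel_right])

theorem centralizer_z_le (c : X) (hc : c * D.z = D.z * c) : c ∈ Subgroup.closure D.T0 := by
  have hT : ∀ {x}, x ∈ D.T0 → x ∈ Subgroup.closure D.T0 := fun h => Subgroup.subset_closure h
  have hzp : ∀ e, D.zp e ∈ Subgroup.closure D.T0 := fun e => by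
    cases e
    exacts [one_mem _, hT (Or.inl rfl)]
  have hth : ∀ v, D.th v ∈ Subgroup.closure D.T0 := span0 (P := fun v => D.th v ∈ Subgroup.closure D.T0)
    (fun u v hu hv => by
      rw [show D.th (u + v) = D.th u * D.th v * D.zp (beta u v) by rw [D.th_mul, mul_assoc, D.zp_sq, mul_one]]
      exact mul_mem (mul_mem hu hv) (hzp _))
    fun r hr => by
      have e : D.th r = D.m r 1 * D.t r * D.z := by
        rw [Local.m, one_smul, mul_assoc (D.th r * _), (D.t_spec hr).sq, mul_one, mul_assoc,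
          show decide ((1 : K4) ≠ 0) = true from rfl, show D.zp true = D.z from rfl, D.z_sq, mul_one]
      rw [e, ← D.m_zero]
      exact mul_mem (mul_mem (hT (Or.inr (Or.inl (D.mem_G1 hr 1)))) (hT (Or.inr (Or.inl (D.mem_G1 hr 0)))))
        (hT (Or.inl rfl))
  obtain ⟨g, hg, hga⟩ := D.act c hc
  obtain ⟨g', hg', -, h2⟩ := hg.exists_inv
  have key : ∀ {g : V4 → V4}, Gam g → ∃ p ∈ Subgroup.closure D.T0, p * D.z = D.z * p ∧ D.Acts p g := by
    intro g hg
    induction hg with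
    | refl => exact ⟨1, one_mem _, by group, fun q _ => by rw [one_mul, inv_one, mul_one]⟩
    | @step g r hr _ ih =>
      obtain ⟨p, hp, hpz, hpa⟩ := ih
      exact ⟨D.m r 0 * p, mul_mem (hT (Or.inr (Or.inl (D.mem_G1 hr 0)))) hp, mul_comm_z (D.m_comm_z hr 0) hpz,
        Local.Acts.mul (g := tau r) (h := g) hpz (D.m_acts hr 0) hpa⟩
  obtain ⟨p, hp, hpz, hpa⟩ := key hg'
  have hq : c * p ∈ D.Q := D.faithful _ (mul_comm_z hc hpz)
    ((Local.Acts.mul (g := g) (h := g') hpz hga hpa).congr h2)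
  obtain ⟨e, he⟩ := D.exists_rep hq
  have hcp : c * p ∈ Subgroup.closure D.T0 := by rw [he]; exact mul_mem (hth _) (hzp _)
  simpa using mul_mem hcp (inv_mem hp)

theorem base_r0 (v : Pt6) (h : v.1 = emb4 r0) : D.label v = D.u0 := by
  rw [label_M D one_ne_zero r0_iso (a := 0) ?_, D.m_zero, D.t_r0]
  rw [h, one_smul]; funext i; fin_cases i <;> simp [emb4, vM]

theorem base_r1 (v : Pt6) (h : v.1 = emb4 r1) :
    ∃ c, c * D.z = D.z * c ∧ D.label v = c * D.u0 * c⁻¹ ∧ D.σ (D.label v) = D.label v ∧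
      ∀ q ∈ D.Q, D.π (c * D.u0 * c⁻¹ * q * (c * D.u0 * c⁻¹)⁻¹) = tau r1 (D.π q) := by
  have e : D.label v = D.t r1 := by
    rw [label_M D one_ne_zero r1_iso (a := 0) ?_, D.m_zero]
    rw [h, one_smul]; funext i; fin_cases i <;> simp [emb4, vM]
  obtain ⟨c, g, a, hc, -, -, -, -, hx⟩ := D.t_spec r1_iso
  refine ⟨c, hc.1, e.trans hx, by rw [e]; exact (D.t_spec r1_iso).fix.2, ?_⟩
  rw [← hx]
  exact (D.t_spec r1_iso).acts

/-- Every local datum has a labelling. -/
theorem Local.exists_labelling : Nonempty (Labelling D) :=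
  ⟨{ f := D.label
     mem := label_mem D
     surj := fun _ hx => label_surj D hx
     eq_iff := label_eq_iff D
     conj := label_conj D
     base := label_E D (l := 1) (one_smul _ _).symm
     base₀ := base_r0 D
     base₁ := base_r1 D
     centralizer := centralizer_eq_one D
     centralizer_z := centralizer_z_le D }⟩

end CfsgLib.FischerLarge.U62
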