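import Cfsg.Agent.Lib.FischerLarge.U62.InstBound
import Cfsg.Agent.Lib.FischerLarge.U62.Labelling
import Cfsg.Agent.Lib.FischerLarge.StabSixMinus

/-!
FischerLarge/U62: a labelled layer gives a four-group with centraliser modulo itself `PSU(6,2)`.
-/

set_option autoImplicit false
set_option linter.style.haveILetI false
set_option linter.unusedSectionVars false

namespace CfsgLib.FischerLarge.U62

open scoped Classical symmDiff
open Cfsg CfsgLib.Golay CfsgLib.Fischer.UnitaryPoint CfsgLib.InvChar.UnitaryTVTwo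

universe u

variable {G : Type u} [Group G] {z : G}

theorem std_of_quad {Qg : Subgroup G} (L : Layer z Qg)
    (e : L.D (pt 0) (pt 1) * L.D (pt 2) (pt 3) = z) : L.Std := by
  obtain ⟨t0, t1, t2, t3, -⟩ := tb_small
  obtain ⟨h01, h02, h03, h12, h13, h23⟩ := pt_small_ne
  rw [L.quad_eq h01 h02 h03 h12 h13 h23, four_mem_tet h01 h02 h03 h12 h13 h23 t0 t1 t2 t3] at e
  exact e

theorem injective_five {α : Type*} {a b c d w : α} (h : [a, b, c, d, w].Nodup) :
    Function.Injective ![a, b, c, d, w] :=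
  List.nodup_ofFn.1 (by simpa using h)

/-- A relabelling carrying four points to the first tetrad. -/
theorem exists_relabel {Qg : Subgroup G} (L : Layer z Qg) {a b c d w : GolayPt}
    (hi : Function.Injective ![a, b, c, d, w]) (e : L.D a b * L.D c d = z) :
    ∃ σ : ↥M24, (L.relabel σ).Std ∧ ((σ⁻¹ : ↥M24) : Equiv.Perm GolayPt) (pt 3) = d ∧
      ((σ⁻¹ : ↥M24) : Equiv.Perm GolayPt) (pt 4) = w := by
  obtain ⟨g, hg, hgv⟩ := exists_M24_map ⟨![pt 0, pt 1, pt 2, pt 3, pt 4], by decide +kernel⟩ ⟨_, hi⟩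
  have g0 := hgv 0
  have g1 := hgv 1
  have g2 := hgv 2
  have g3 := hgv 3
  have g4 := hgv 4
  simp only [Function.Embedding.coeFn_mk, Matrix.cons_val] at g0 g1 g2 g3 g4
  refine ⟨(⟨g, hg⟩ : ↥M24)⁻¹, std_of_quad _ ?_, ?_, ?_⟩
  · rw [Layer.D_relabel, Layer.D_relabel, inv_inv]
    show L.D (g (pt 0)) (g (pt 1)) * L.D (g (pt 2)) (g (pt 3)) = z
    rw [g0, g1, g2, g3]; exact e
  · rw [inv_inv]; exact g3
  · rw [inv_inv]; exact g4

variable [Finite G] {Q : Subgroup (Cz z)} [hQn : Q.Normal]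

/-- The setting exists. -/
theorem exists_setup (hF : IsOfLargeFischerTypeAt z Q) (Ly0 : Layer z (QG' Q)) :
    ∃ (P : Type) (_ : Group P) (_ : Finite P) (E S : Subgroup P) (M : Subgroup (Cz z)) (V : Type u)
      (_ : AddCommGroup V) (_ : Module K4 V) (_ : Finite V) (L : Subgroup (V ≃ₗ[K4] V)) (f : L →* P)
      (h : V → V → K4) (π : Cz z → V) (Ly : Layer z (QG' Q)) (x : Cz z) (pf : GolayPt),
      Para E S ∧ Setup Q M L f h π Ly x pf := by
  obtain ⟨P, _, _, E, S, M, V, _, _, _, L, f, h, π, -, hP, -, hMn, hidx, hQM, F⟩ := exists_frame hF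
  haveI := hMn
  have hcard : Nat.card Q = 8192 := by rw [hF.1.2.2.2.1]; norm_num
  -- the sextet of `z`
  obtain ⟨p, q, r, s, hpq, hpr, hps, hqr, hqs, hrs, hz⟩ := Ly0.exists_z_four
  obtain ⟨w, -, hw⟩ := Finset.exists_mem_notMem_of_card_lt_card (s := ({p, q, r, s} : Finset GolayPt))
    (t := Finset.univ) (lt_of_le_of_lt Finset.card_le_four (by rw [Finset.card_univ]; decide))
  simp only [Finset.mem_insert, Finset.mem_singleton, not_or] at hw
  obtain ⟨hwp, hwq, hwr, hws⟩ := hw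
  obtain ⟨σ, hσ, -, -⟩ := exists_relabel Ly0 (a := p) (b := q) (c := r) (d := s) (w := w)
    (injective_five (by simp [hpq, hpr, hps, hqr, hqs, hrs, Ne.symm hwp, Ne.symm hwq, Ne.symm hwr, Ne.symm hws]))
    hz.symm
  set L1 := Ly0.relabel σ
  have C1 : Ctx Q M L f h π L1 := ⟨F, hQM, hidx, hMn, fun c hc => F.semilinear hP hQM hidx hF hc, hcard, hσ⟩
  -- the scalar element
  obtain ⟨g, hg⟩ := F.cover.scalar K4.om (by decide)
  obtain ⟨m, -, hm⟩ := F.ofL _ g.2
  have hm' : ∀ a ∈ Q, π (m * a * m⁻¹) = (K4.om : K4) • π a := fun a ha => by rw [hm a ha, hg]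
  have hpow : ∀ n : ℕ, ∀ a ∈ Q, π (m ^ n * a * (m ^ n)⁻¹) = (K4.om : K4) ^ n • π a := by
    intro n
    induction n with
    | zero => intro a _; rw [pow_zero, pow_zero, one_smul, one_mul, inv_one, mul_one]
    | succ n ih =>
      intro a ha
      rw [show m ^ (n + 1) * a * (m ^ (n + 1))⁻¹ = m ^ n * (m * a * m⁻¹) * (m ^ n)⁻¹ by rw [pow_succ]; group,
        ih _ (hQn.conj_mem a ha m), hm' a ha, smul_smul, ← pow_succ]
  have hm3 : m ^ 3 ∈ Q := F.faithful _ fun a ha => by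
    rw [hpow 3 a ha, show (K4.om : K4) ^ 3 = 1 by decide, one_smul]
  have hx3 : (m ^ 16384) ^ 3 = 1 := by
    rw [← pow_mul, show 16384 * 3 = 3 * 8192 * 2 by norm_num, pow_mul, pow_mul]
    have h1 : (⟨m ^ 3, hm3⟩ : Q) ^ 8192 = 1 := hcard ▸ pow_card_eq_one'
    rw [show (m ^ 3) ^ 8192 = 1 from congrArg Subtype.val h1, one_pow]
  have hx : ScalarElt Q π (m ^ 16384) := ⟨hx3, fun a ha => by
    rw [hpow _ a ha, show (16384 : ℕ) = 3 * 5461 + 1 by norm_num, pow_succ, pow_mul,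
      show (K4.om : K4) ^ 3 = 1 by decide, one_pow, one_mul]⟩
  -- fixed points
  obtain ⟨d, hd0, hdx⟩ := C1.x_fixed_exists hx 0
  obtain ⟨e, he1, hex⟩ := C1.x_fixed_exists hx 1
  obtain ⟨y, hy, hy0, hyt⟩ := Layer.exists_mates d
  have hye : ∀ k, y k ≠ e := fun k e' => by
    have := hyt k
    rw [e', he1, hd0] at this
    exact absurd this (by decide)
  obtain ⟨τ, hτ, hτ3, hτ4⟩ := exists_relabel L1 (a := y 1) (b := y 2) (c := y 3) (d := d) (w := e)
    (injective_five (by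
      have n := fun a b (h : a ≠ b) => hy.ne (a₁ := a) (a₂ := b) h
      subst hy0
      simp [n 1 2 (by decide), n 1 3 (by decide), n 1 0 (by decide), n 2 3 (by decide), n 2 0 (by decide),
        n 3 0 (by decide), hye 0, hye 1, hye 2, hye 3]))
    (by
      subst hy0
      exact hσ.z_eq (hy.ne (by decide)) (hy.ne (by decide)) (hy.ne (by decide)) (hy.ne (by decide))
        (hy.ne (by decide)) (hy.ne (by decide)) (by rw [hyt 2, hyt 1]) (by rw [hyt 3, hyt 1]) (hyt 1).symm)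
  set L2 := L1.relabel τ
  have C2 : Ctx Q M L f h π L2 := ⟨F, hQM, hidx, hMn, fun c hc => F.semilinear hP hQM hidx hF hc, hcard, hτ⟩
  have hfix : ∀ p p' : GolayPt, ((τ⁻¹ : ↥M24) : Equiv.Perm GolayPt) p' = p →
      L1.act (C1.xN hx) p = p → L2.act (C2.xN hx) p' = p' := fun p p' hp hfx => by
    refine (L1.act_relabel τ (C1.xN hx) p').trans ?_
    rw [hp, hfx, ← hp]
    simp
  obtain ⟨pf, hpf, hpfx⟩ := C2.x_fixed_exists hx 2
  exact ⟨P, _, _, E, S, M, V, _, _, _, L, f, h, π, L2, _, pf, hP,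
    ⟨C2, hx, hfix d _ hτ3 hdx, hfix e _ hτ4 hex, hpf, hpfx⟩⟩

variable {P : Type} [Group P] [Finite P] {M : Subgroup (Cz z)} {V : Type u} [AddCommGroup V] [Module K4 V]
  [Finite V] {L : Subgroup (V ≃ₗ[K4] V)} {f : L →* P} {h : V → V → K4} {π : Cz z → V} {Ly : Layer z (QG' Q)}
  {x : Cz z} {pf : GolayPt}

/-- Coordinates at the base vector. -/
theorem Setup.exists_coord {E S : Subgroup P} (St : Setup Q M L f h π Ly x pf) (hP : Para E S)
    (hF : IsOfLargeFischerTypeAt z Q) :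
    (∃ φ, Coord L h (baseV π Ly) φ) ∧ Nat.card (MulAction.stabilizer L (baseV π Ly)) = 25920 := by
  haveI := St.ctx.normal
  haveI : Finite (V ≃ₗ[K4] V) := finite_equiv
  obtain ⟨t1, t2⟩ := mem_QG'.1 St.base_mem
  set t : Cz z := ⟨_, t1⟩
  have hv : baseV π Ly = π t := dif_pos t1
  have hzz : z * z = 1 := St.ctx.z_sq
  have hz1 : z ≠ 1 := Ly.z_ne_one
  have ht0 : π t ≠ 0 := hv ▸ St.v_ne
  have ht : ¬ IsConj z (t : G) := Ly.D_not_conj pt_small_ne.1
  have F := St.ctx.frame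
  have hti : h (π t) (π t) = 0 := (F.sq t t2).2 (Subtype.ext (Ly.D_mul_self _ _))
  obtain ⟨g0, ⟨hq0, hgQ⟩, hgne⟩ := hF.1.2.2.2.2
  have hc0 := F.conjFacts hP St.ctx.le St.ctx.index hF hgQ (g := g0) rfl hgne
  obtain ⟨a, b, -, -, hca, -, -, -, hcb, -, hcov⟩ := F.cover.exists_orbits hP F.cardL
  have hs0 : π ⟨g0 * z * g0⁻¹, hq0⟩ ≠ 0 :=
    F.ne_zero_of hgQ (fun e => hz1 (conj_eq_one_iff.1 e)) hgne
  have hsi : h (π ⟨g0 * z * g0⁻¹, hq0⟩) (π ⟨g0 * z * g0⁻¹, hq0⟩) = 0 := (F.sq _ hgQ).2 (Subtype.ext (by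
    show g0 * z * g0⁻¹ * (g0 * z * g0⁻¹) = 1
    rw [show g0 * z * g0⁻¹ * (g0 * z * g0⁻¹) = g0 * (z * z) * g0⁻¹ by group, hzz]; group))
  have h378 : (orb L (π t)).ncard = 378 := by
    rcases hcov (π t) ht0 hti with hm | hm
    · rw [orb_eq_of_mem hm]; exact hca
    · exfalso
      rcases hcov _ hs0 hsi with hm' | hm'
      · have := hc0.orbit
        rw [orb_eq_of_mem hm', hca] at this
        norm_num at this
      · obtain ⟨c, hc⟩ := F.exists_conj hgQ t2 ht0 (by rw [orb_eq_of_mem hm']; exact hm)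
        refine ht (isConj_iff.2 ⟨(c : G) * g0, ?_⟩)
        rw [show (c : G) * g0 * z * ((c : G) * g0)⁻¹ = ((c * ⟨g0 * z * g0⁻¹, hq0⟩ * c⁻¹ : Cz z) : G) by
          simp only [Subgroup.coe_mul, Subgroup.coe_inv]; group, hc]
  have hst : Nat.card (MulAction.stabilizer L (π t)) = 25920 := by
    have := F.card_stab_mul (π t)
    rw [h378] at this
    omega
  obtain ⟨ψ, hψ, hm, hbase⟩ := F.exists_base_frame hP ht0 hti h378
  have hcardB : Nat.card (baseStab L ψ) = 25920 := by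
    have e : baseStab L ψ = MulAction.stabilizer L (π t) := by
      ext g
      show (g : V ≃ₗ[K4] V) (base ψ) = base ψ ↔ (g : V ≃ₗ[K4] V) (π t) = π t
      rw [hbase]
    rw [e]; exact hst
  obtain ⟨φ, hφ⟩ := exists_coord_base F.cover hψ hm hcardB
  rw [hv]
  exact ⟨⟨φ, hbase ▸ hφ⟩, hst⟩

/-- The quotient is the special unitary group. -/
theorem Setup.nonempty_equiv (St : Setup Q M L f h π Ly x pf) {φ : V →ₗ[K4] V4}
    (K : Coord L h (baseV π Ly) φ)
    (hu0 : ∀ q ∈ QG' Q, q ∈ CE Ly →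
      φ (vecG π (Ly.D (pt 2) (pt 4) * q * (Ly.D (pt 2) (pt 4))⁻¹)) = tau r0 (φ (vecG π q)))
    (hu1 : ∀ q ∈ QG' Q, q ∈ CE Ly →
      φ (vecG π (Ly.D (pt 2) pf * q * (Ly.D (pt 2) pf)⁻¹)) = tau r1 (φ (vecG π q)))
    (hst : Nat.card (MulAction.stabilizer L (baseV π Ly)) = 25920) :
    Nonempty (XE Ly ≃* Cfsg.PSU 6 K4 2) := by
  set D := St.localD K hu0 hu1 with hD
  obtain ⟨Lab⟩ := D.exists_labelling
  obtain ⟨c, hc, hfc, hsc, htc⟩ := Lab.base₁ ptR1 (by decide)
  obtain ⟨y, hy1, hy2⟩ := St.exists_stab_map out_four (by decide +kernel) St.out_pf St.pf_ne.1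
  have hu : Lab.f ptR1 = dX Ly (pt 2) pf := by
    refine D.eq_of_fixed (r := r1) (by decide) hc hy1 hfc hy2.symm hsc (St.sigma_two St.hfix) ?_ ?_
    · rw [hfc]; exact htc
    · intro q hq
      obtain ⟨c', hc', rfl⟩ := mem_QX.1 hq
      have hgz : Ly.D (pt 2) pf * z = z * Ly.D (pt 2) pf := Ly.comm _ (Ly.D_mem _ _) _ Ly.z_mem
      show piX π Ly φ _ = tau r1 (piX π Ly φ _)
      rw [dX, ← map_inv, ← map_mul, ← map_mul, St.piX_mk K (St.ctx.QG_conj hgz hc'), St.piX_mk K hc']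
      exact hu1 _ hc' c'.2
  have hk : D.z * D.u0 * Lab.f ptR1 = mkE Ly St.kC := by rw [hu]; exact St.k_eq
  have htop : Subgroup.closure D.T0 = ⊤ :=
    Local.closure_T0_eq_top Lab (k := D.z * D.u0 * Lab.f ptR1) (fun y hy => T0_sq D hy) (fun x hx => Lab.exists_conj_z hx)
      Lab.third_sq Lab.third_ne Lab.third_mem (fun x hx h2 h1 => Lab.involution_cases hx h2 h1)
      Lab.card_centralizer_ge (St.card_centralizer_zu K hu0 hst) (by rw [hk]; exact St.k_sep)
      (fun g hg => by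
        rw [hk] at hg
        exact St.k_cent hg)
  obtain ⟨e⟩ := Lab.nonempty_equiv (F := K4) K4.card_fintype
  exact ⟨(Subgroup.topEquiv.symm.trans (MulEquiv.subgroupCongr htop.symm)).trans e⟩

omit [Finite G] hQn in
theorem octad_product {Qg : Subgroup G} (L : Layer z Qg) :
    L.D (pt 0) (pt 1) = L.D (pt 13) (pt 15) * L.D (pt 17) (pt 18) * L.D (pt 19) (pt 23) := by
  have h1 : L.D (pt 0) (pt 1) * L.D (pt 13) (pt 15) * L.D (pt 17) (pt 18) * L.D (pt 19) (pt 23) = 1 := by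
    rw [Layer.D, Layer.D, Layer.D, Layer.D, ← L.ev_symm _ _ (even_pair _ _) (even_pair _ _),
      ← L.ev_symm _ _ (even_symmDiff (even_pair _ _) (even_pair _ _)) (even_pair _ _),
      ← L.ev_symm _ _ (even_symmDiff (even_symmDiff (even_pair _ _) (even_pair _ _)) (even_pair _ _)) (even_pair _ _),
      L.ev_code _ (even_symmDiff (even_symmDiff (even_symmDiff (even_pair _ _) (even_pair _ _)) (even_pair _ _))
        (even_pair _ _))]
    exact octad_six
  calc L.D (pt 0) (pt 1) = L.D (pt 0) (pt 1) * (L.D (pt 13) (pt 15) * L.D (pt 17) (pt 18) * L.D (pt 19) (pt 23) *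
        (L.D (pt 13) (pt 15) * L.D (pt 17) (pt 18) * L.D (pt 19) (pt 23))) := by
          rw [L.sq _ (mul_mem (mul_mem (L.D_mem _ _) (L.D_mem _ _)) (L.D_mem _ _)), mul_one]
    _ = (L.D (pt 0) (pt 1) * L.D (pt 13) (pt 15) * L.D (pt 17) (pt 18) * L.D (pt 19) (pt 23)) *
        (L.D (pt 13) (pt 15) * L.D (pt 17) (pt 18) * L.D (pt 19) (pt 23)) := by simp only [mul_assoc]
    _ = _ := by rw [h1, one_mul]

/-- The centraliser is quasisimple. -/
theorem Setup.isQuasisimple (St : Setup Q M L f h π Ly x pf) (e : XE Ly ≃* Cfsg.PSU 6 K4 2) :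
    IsQuasisimple ↥(CE Ly) := by
  haveI : IsSimpleGroup (Cfsg.PSU 6 K4 2) := isSimple (F := K4) K4.card_fintype
  haveI : IsSimpleGroup (XE Ly) := e.isSimpleGroup
  have hcX : Subgroup.center (XE Ly) = ⊥ := by
    rw [eq_bot_iff]
    intro y hy
    have h1 : e y ∈ Subgroup.center (Cfsg.PSU 6 K4 2) := Subgroup.mem_center_iff.2 fun g => by
      obtain ⟨u, rfl⟩ := e.surjective g
      rw [← map_mul, ← map_mul, Subgroup.mem_center_iff.1 hy u]
    rw [center_psu (F := K4) K4.card_fintype (RingEquiv.refl K4), Subgroup.mem_bot, MulEquiv.map_eq_one_iff] at h1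
    rw [h1]; exact one_mem _
  have hcen : Subgroup.center ↥(CE Ly) = NE Ly := by
    refine le_antisymm (fun g hg => ?_) fun n hn => Subgroup.mem_center_iff.2 fun g => Subtype.ext ?_
    · have h1 : mkE Ly g ∈ Subgroup.center (XE Ly) := Subgroup.mem_center_iff.2 fun y => by
        obtain ⟨c, rfl⟩ := QuotientGroup.mk'_surjective (NE Ly) y
        rw [← map_mul, ← map_mul, Subgroup.mem_center_iff.1 hg c]
      rw [hcX, Subgroup.mem_bot] at h1
      exact Subgroup.mem_subgroupOf.2 ((mk_eq_one_iff Ly).1 h1)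
    · exact (Subgroup.mem_centralizer_iff.1 g.2 _ (Subgroup.mem_subgroupOf.1 hn)).symm
  refine ⟨⟨?_⟩, (QuotientGroup.quotientMulEquivOfEq hcen).isSimpleGroup⟩
  set C' := commutator ↥(CE Ly) with hC'
  -- the four-group lies in the derived group
  have hstep : ∀ p, Out p → (⟨Ly.D (pt 4) p, A_le_CE Ly (Ly.D_mem _ _)⟩ : CE Ly) ∈ C' := by
    intro p hp
    obtain ⟨q, hq, hpq⟩ : ∃ q, Out q ∧ p ≠ q := by
      rcases eq_or_ne p (pt 3) with rfl | h3
      · exact ⟨pt 4, out_four, by decide +kernel⟩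
      · exact ⟨pt 3, out_three, h3⟩
    obtain ⟨g, hg, -, -, h2, h4, -⟩ := exists_CE_map Ly out_four out_three (by decide +kernel) hp hq hpq
    have hmem := Subgroup.commutator_mem_commutator (Subgroup.mem_top (⟨g, hg⟩ : CE Ly))
      (Subgroup.mem_top (⟨Ly.D (pt 2) (pt 4), A_le_CE Ly (Ly.D_mem _ _)⟩ : CE Ly))
    rw [commutatorElement_def] at hmem
    refine (?_ : (⟨Ly.D (pt 4) p, A_le_CE Ly (Ly.D_mem _ _)⟩ : CE Ly) = _) ▸ hmem
    refine Subtype.ext ?_
    show Ly.D (pt 4) p = (g : G) * Ly.D (pt 2) (pt 4) * (g : G)⁻¹ * (Ly.D (pt 2) (pt 4))⁻¹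
    rw [Ly.conj_D, h2, h4, Ly.D_inv, Ly.D_symm (pt 2) p, Ly.D_trans, Ly.D_symm]
  have hout : ∀ p q, Out p → Out q → (⟨Ly.D p q, A_le_CE Ly (Ly.D_mem _ _)⟩ : CE Ly) ∈ C' := by
    intro p q hp hq
    convert mul_mem (hstep p hp) (hstep q hq) using 1
    refine Subtype.ext ?_
    show Ly.D p q = Ly.D (pt 4) p * Ly.D (pt 4) q
    rw [(D_mul_chain Ly (pt 4) p q).1]
  have ho : Out (pt 13) ∧ Out (pt 15) ∧ Out (pt 17) ∧ Out (pt 18) ∧ Out (pt 19) ∧ Out (pt 23) := by
    simp only [Out]; decide +kernel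
  obtain ⟨o13, o15, o17, o18, o19, o23⟩ := ho
  have h01 : (⟨Ly.D (pt 0) (pt 1), A_le_CE Ly (Ly.D_mem _ _)⟩ : CE Ly) ∈ C' := by
    convert mul_mem (mul_mem (hout _ _ o13 o15) (hout _ _ o17 o18)) (hout _ _ o19 o23) using 1
    exact Subtype.ext (octad_product Ly)
  have hxC : ∀ c ∈ C', St.conjX c ∈ C' := fun c hc => by
    have : C'.map St.conjX ≤ C' := by
      rw [hC', commutator_def, Subgroup.map_commutator]
      exact Subgroup.commutator_mono le_top le_top
    exact this (Subgroup.mem_map_of_mem _ hc)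
  obtain ⟨h01n, h02n, -, h12n, -, -⟩ := pt_small_ne
  have he1 := D_mem_fourGroup Ly (p := pt 0) (q := pt 1) (Or.inl rfl) (Or.inr (Or.inl rfl))
  have hx1 := hxC _ h01
  have hEC : NE Ly ≤ C' := by
    have hxe := x_conj_four St.ctx St.hx St.hd he1
    have hne2 : (x : G) * Ly.D (pt 0) (pt 1) * (x : G)⁻¹ ≠ Ly.D (pt 0) (pt 1) := fun e' => by
      have hv := St.ctx.x_vec St.hx St.base_mem
      rw [e'] at hv
      have h2 : ((K4.om : K4) + 1) • baseV π Ly = 0 := by rw [add_smul, one_smul, ← hv, St.ctx.frame.add_self]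
      exact St.v_ne ((smul_eq_zero.1 h2).resolve_left (by decide))
    intro n hn
    have key : ∀ (a : G) (ha : a ∈ CE Ly), (⟨a, ha⟩ : CE Ly) ∈ C' → (n : G) = a → n ∈ C' := fun a ha hC e' => by
      rwa [show n = (⟨a, ha⟩ : CE Ly) from Subtype.ext e']
    rcases hxe with e' | e' | e' | e'
    · exact absurd (conj_eq_one_iff.1 e') (Ly.D_ne_one h01n)
    · exact absurd e' hne2
    · have h02 : (⟨Ly.D (pt 0) (pt 2), A_le_CE Ly (Ly.D_mem _ _)⟩ : CE Ly) ∈ C' := by
        convert hx1 using 1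
        exact Subtype.ext e'.symm
      rcases Subgroup.mem_subgroupOf.1 hn with h | h | h | h
      · exact key 1 (one_mem _) (one_mem _) h
      · exact key _ _ h01 h
      · exact key _ _ h02 h
      · exact key _ _ (mul_mem h01 h02) (h.trans (D_mul_chain Ly (pt 0) (pt 1) (pt 2)).1.symm)
    · have h12 : (⟨Ly.D (pt 1) (pt 2), A_le_CE Ly (Ly.D_mem _ _)⟩ : CE Ly) ∈ C' := by
        convert hx1 using 1
        exact Subtype.ext e'.symm
      rcases Subgroup.mem_subgroupOf.1 hn with h | h | h | h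
      · exact key 1 (one_mem _) (one_mem _) h
      · exact key _ _ h01 h
      · exact key _ _ (mul_mem h01 h12) (h.trans (Ly.D_trans _ _ _).symm)
      · exact key _ _ h12 h
  -- the quotient is perfect
  have hmap : C'.map (mkE Ly) = ⊤ := by
    have hn : (C'.map (mkE Ly)).Normal :=
      (inferInstance : (commutator ↥(CE Ly)).Normal).map _ (QuotientGroup.mk'_surjective _)
    refine hn.eq_bot_or_eq_top.resolve_left fun hb => ?_
    obtain ⟨y, hy⟩ := exists_ne (1 : XE Ly)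
    refine hy ?_
    have hy' : y ∈ Subgroup.center (XE Ly) := Subgroup.mem_center_iff.2 fun w => by
      obtain ⟨a, rfl⟩ := QuotientGroup.mk'_surjective (NE Ly) y
      obtain ⟨b, rfl⟩ := QuotientGroup.mk'_surjective (NE Ly) w
      have := Subgroup.mem_map_of_mem (mkE Ly)
        (show b * a * b⁻¹ * a⁻¹ ∈ C' by
          have := Subgroup.commutator_mem_commutator (Subgroup.mem_top b) (Subgroup.mem_top a)
          rwa [commutatorElement_def] at this)
      rw [hb, Subgroup.mem_bot] at this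
      simp only [map_mul, map_inv] at this
      exact mul_inv_eq_iff_eq_mul.1 (mul_inv_eq_one.1 this)
    rwa [hcX, Subgroup.mem_bot] at hy'
  refine eq_top_iff.2 fun g _ => ?_
  obtain ⟨c, hc, hce⟩ : mkE Ly g ∈ C'.map (mkE Ly) := hmap ▸ Subgroup.mem_top _
  have h1 : c⁻¹ * g ∈ NE Ly := (QuotientGroup.eq).1 hce
  have := mul_mem hc (hEC h1)
  rwa [mul_inv_cancel_left] at this

/-- The statement, from a labelled layer. -/
theorem exists_four_group_u62 (hF : IsOfLargeFischerTypeAt z Q) (Ly0 : Layer z (QG' Q)) :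
    ∃ E : Subgroup G, E ≤ Q.map (Subgroup.centralizer ({z} : Set G)).subtype ∧ IsElementaryAbelian 2 E ∧
      Nat.card E = 4 ∧ z ∉ E ∧ (∃ t ∈ E, orderOf t = 2 ∧ ¬ IsConj z t) ∧
      IsQuasisimple ↥(Subgroup.centralizer (E : Set G)) ∧
      ∃ (_ : (E.subgroupOf (Subgroup.centralizer (E : Set G))).Normal) (K : Type) (_ : Field K) (_ : Fintype K),
        Fintype.card K = 4 ∧ Nonempty (↥(Subgroup.centralizer (E : Set G)) ⧸
          E.subgroupOf (Subgroup.centralizer (E : Set G)) ≃* Cfsg.PSU 6 K 2) := by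
  obtain ⟨P, _, _, E, S, M, V, _, _, _, L, f, h, π, Ly, x, pf, hP, St⟩ := exists_setup hF Ly0
  obtain ⟨⟨φ₀, K₀⟩, hst⟩ := St.exists_coord hP hF
  obtain ⟨φ, K, hu0, hu1⟩ := St.exists_std K₀
  obtain ⟨e⟩ := St.nonempty_equiv K hu0 hu1 hst
  refine ⟨fourGroup Ly, fourGroup_le_Q St.ctx, fourGroup_elem Ly, card_fourGroup Ly, z_notMem_four St.ctx,
    ⟨_, D_mem_fourGroup Ly (p := pt 0) (q := pt 1) (Or.inl rfl) (Or.inr (Or.inl rfl)),
      orderOf_eq_prime (by rw [pow_two]; exact Ly.D_mul_self _ _) (Ly.D_ne_one pt_small_ne.1),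
      Ly.D_not_conj pt_small_ne.1⟩, St.isQuasisimple e, NE_normal Ly, K4, inferInstance, inferInstance,
    K4.card_fintype, ⟨e⟩⟩

end CfsgLib.FischerLarge.U62
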