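import Cfsg.Agent.Lib.FischerLarge.U62.Inst

/-!
FischerLarge/U62: the local data in the centraliser of the four-group modulo the four-group.
-/

set_option autoImplicit false
set_option linter.style.haveILetI false
set_option linter.unusedSectionVars false

namespace CfsgLib.FischerLarge.U62

open scoped Classical symmDiff
open Cfsg CfsgLib.Golay

universe u

variable {G : Type u} [Group G] [Finite G] {z : G} {P : Type} [Group P] [Finite P] {Q M : Subgroup (Cz z)}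
  [hQn : Q.Normal] {V : Type u} [AddCommGroup V] [Module K4 V] [Finite V] {L : Subgroup (V ≃ₗ[K4] V)} {f : L →* P}
  {h : V → V → K4} {π : Cz z → V} {Ly : Layer z (QG' Q)}

/-- The coordinates on the image of `Q`. -/
noncomputable def piX (π : Cz z → V) (Ly : Layer z (QG' Q)) (φ : V →ₗ[K4] V4) (y : XE Ly) : V4 :=
  if hy : ∃ c : CE Ly, (c : G) ∈ QG' Q ∧ mkE Ly c = y then φ (vecG π (hy.choose : G)) else 0

/-- The image of `Q`. -/
abbrev QX (Ly : Layer z (QG' Q)) : Subgroup (XE Ly) := ((QG' Q).subgroupOf (CE Ly)).map (mkE Ly)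

theorem mem_QX {Ly : Layer z (QG' Q)} {y : XE Ly} : y ∈ QX Ly ↔ ∃ c : CE Ly, (c : G) ∈ QG' Q ∧ mkE Ly c = y :=
  Iff.rfl

variable {x : Cz z} {pf : GolayPt}

namespace Setup

variable (S : Setup Q M L f h π Ly x pf)
include S

/-- Conjugation by the scalar element on the centraliser. -/
def conjX : CE Ly →* CE Ly where
  toFun c := ⟨(x : G) * (c : G) * (x : G)⁻¹, x_conj_CE S.ctx S.hx S.hd c.2⟩
  map_one' := Subtype.ext (by show (x : G) * 1 * (x : G)⁻¹ = 1; group)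
  map_mul' a b := Subtype.ext (by
    show (x : G) * ((a : G) * (b : G)) * (x : G)⁻¹ = (x : G) * (a : G) * (x : G)⁻¹ * ((x : G) * (b : G) * (x : G)⁻¹)
    group)

theorem conjX_cube (c : CE Ly) : S.conjX (S.conjX (S.conjX c)) = c := Subtype.ext (by
  show (x : G) * ((x : G) * ((x : G) * (c : G) * (x : G)⁻¹) * (x : G)⁻¹) * (x : G)⁻¹ = c
  rw [show (x : G) * ((x : G) * ((x : G) * (c : G) * (x : G)⁻¹) * (x : G)⁻¹) * (x : G)⁻¹ =
    ((x : G) * (x : G) * (x : G)) * (c : G) * ((x : G) * (x : G) * (x : G))⁻¹ by group, S.hx3, one_mul, inv_one, mul_one])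

/-- The induced homomorphism of the quotient. -/
noncomputable def sigmaHom : XE Ly →* XE Ly :=
  QuotientGroup.map (NE Ly) (NE Ly) S.conjX fun _ hc => x_conj_four S.ctx S.hx S.hd hc

theorem sigmaHom_mk (c : CE Ly) : S.sigmaHom (mkE Ly c) = mkE Ly (S.conjX c) := rfl

theorem sigmaHom_cube (y : XE Ly) : S.sigmaHom (S.sigmaHom (S.sigmaHom y)) = y := by
  obtain ⟨c, rfl⟩ := QuotientGroup.mk'_surjective (NE Ly) y
  rw [sigmaHom_mk, sigmaHom_mk, sigmaHom_mk, conjX_cube]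

/-- The automorphism. -/
noncomputable def sigmaX : XE Ly ≃* XE Ly where
  toFun := S.sigmaHom
  invFun y := S.sigmaHom (S.sigmaHom y)
  left_inv := S.sigmaHom_cube
  right_inv := S.sigmaHom_cube
  map_mul' := S.sigmaHom.map_mul

theorem sigma_dX (p q : GolayPt) :
    S.sigmaX (dX Ly p q) = dX Ly (Ly.act (S.ctx.xN S.hx) p) (Ly.act (S.ctx.xN S.hx) q) :=
  (S.sigmaHom_mk _).trans (congrArg (mkE Ly) (Subtype.ext (Ly.conj_D (S.ctx.xN S.hx) p q)))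

theorem sigma_two {p : GolayPt} (hp : Ly.act (S.ctx.xN S.hx) p = p) : S.sigmaX (dX Ly (pt 2) p) = dX Ly (pt 2) p := by
  rw [sigma_dX, hp, ← dX_mul_chain Ly (Ly.act (S.ctx.xN S.hx) (pt 2)) (pt 2) p,
    dX_eq_one Ly (x_perm S.ctx S.hx S.hd (Or.inr (Or.inr rfl))).1 (Or.inr (Or.inr rfl)), one_mul]

/-- `q` modulo the four-group determines the coordinates. -/
theorem piX_mk {φ : V →ₗ[K4] V4} (K : Coord L h (baseV π Ly) φ) {c : CE Ly} (hc : (c : G) ∈ QG' Q) :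
    piX π Ly φ (mkE Ly c) = φ (vecG π (c : G)) := by
  have hy : ∃ c' : CE Ly, (c' : G) ∈ QG' Q ∧ mkE Ly c' = mkE Ly c := ⟨c, hc, rfl⟩
  rw [piX, dif_pos hy]
  obtain ⟨e, he, hce⟩ := (mk_eq_iff Ly).1 hy.choose_spec.2
  obtain ⟨k, hk⟩ := S.four_vec he
  rw [hce, S.ctx.vecG_mul hc (fourGroup_le_Q S.ctx he), map_add, hk, map_smul, K.zero, smul_zero, add_zero]

theorem mem_QX_iff {c : CE Ly} : mkE Ly c ∈ QX Ly ↔ (c : G) ∈ QG' Q := by
  refine ⟨fun hy => ?_, fun hc => mem_QX.2 ⟨c, hc, rfl⟩⟩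
  obtain ⟨c', hc', e⟩ := mem_QX.1 hy
  obtain ⟨e0, he, hce⟩ := (mk_eq_iff Ly).1 e.symm
  rw [hce]
  exact mul_mem hc' (fourGroup_le_Q S.ctx he)

theorem commute_z {c : CE Ly} : mkE Ly c * mkE Ly ⟨z, z_mem_CE S.ctx⟩ = mkE Ly ⟨z, z_mem_CE S.ctx⟩ * mkE Ly c ↔
    (c : G) * z = z * (c : G) :=
  ⟨comm_lift S.ctx, fun e => by rw [← map_mul, ← map_mul]; exact congrArg (mkE Ly) (Subtype.ext e)⟩

/-- The images of two conjugate elements. -/
theorem exists_of_isConj {a b : CE Ly} (hab : IsConj (mkE Ly a) (mkE Ly b)) :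
    ∃ g : CE Ly, ∃ e ∈ fourGroup Ly, (g : G) * (a : G) * (g : G)⁻¹ = (b : G) * e := by
  obtain ⟨y, hy⟩ := isConj_iff.1 hab
  obtain ⟨g, rfl⟩ := QuotientGroup.mk'_surjective (NE Ly) y
  rw [← map_inv, ← map_mul, ← map_mul] at hy
  obtain ⟨e, he, h1⟩ := (mk_eq_iff Ly).1 hy
  exact ⟨g, e, he, h1⟩

theorem conj_z_four {g : G} (hg : g ∈ CE Ly) {e e' b : G} (_he : e ∈ fourGroup Ly) (he' : e' ∈ fourGroup Ly)
    (_hb : b ∈ Ly.A) (h1 : g * z * g⁻¹ = b * e) : g * (z * e') * g⁻¹ = b * (e * e') := by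
  rw [show g * (z * e') * g⁻¹ = (g * z * g⁻¹) * (g * e' * g⁻¹) by group, h1,
    ← Subgroup.mem_centralizer_iff.1 hg _ he', mul_inv_cancel_right, mul_assoc]

/-- The image of `z` is not conjugate to the image of the third involution. -/
theorem not_conj : ¬ IsConj (mkE Ly ⟨z, z_mem_CE S.ctx⟩) (mkE Ly ⟨z, z_mem_CE S.ctx⟩ * dX Ly (pt 2) (pt 4)) := by
  obtain ⟨h01, h02, h03, h12, h13, h23⟩ := pt_small_ne
  have h34 : pt 3 ≠ pt 4 := by decide +kernel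
  have hzu : mkE Ly ⟨z, z_mem_CE S.ctx⟩ * dX Ly (pt 2) (pt 4) = dX Ly (pt 3) (pt 4) := by
    rw [mk_z S.ctx, dX_symm Ly (pt 2) (pt 3), dX_mul_chain]
  rw [hzu]
  intro hc
  obtain ⟨g, e, he, h1⟩ := S.exists_of_isConj hc
  change (g : G) * z * (g : G)⁻¹ = Ly.D (pt 3) (pt 4) * e at h1
  have h0 : e ≠ 1 := fun e1 => Ly.D_not_conj h34 (isConj_iff.2 ⟨g, by rw [h1, e1, mul_one]⟩)
  have key : ∀ e', e' ∈ fourGroup Ly → e' ≠ 1 → ¬ IsConj z (Ly.D (pt 3) (pt 4) * (e * e')) := fun e' he' h1' hh => by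
    refine z_mul_four S.ctx he' h1' (hh.trans (isConj_iff.2 ⟨(g : G)⁻¹, ?_⟩))
    rw [← S.conj_z_four g.2 he he' (Ly.D_mem _ _) h1]
    group
  have h4 := out_four
  have hq : ∀ a b, a ≠ b → pt 3 ≠ a → pt 3 ≠ b → pt 4 ≠ a → pt 4 ≠ b →
      IsConj z (Ly.D (pt 3) (pt 4) * Ly.D a b) := fun a b hab x1 x2 x3 x4 =>
    Ly.quad_conj h34 x1 x2 x3 x4 hab
  have m01 := D_mem_fourGroup Ly (p := pt 0) (q := pt 1) (Or.inl rfl) (Or.inr (Or.inl rfl))
  have m02 := D_mem_fourGroup Ly (p := pt 0) (q := pt 2) (Or.inl rfl) (Or.inr (Or.inr rfl))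
  rcases he with rfl | rfl | rfl | rfl
  · exact h0 rfl
  · refine key _ m02 (Ly.D_ne_one h02) ?_
    rw [(D_mul_chain Ly (pt 0) (pt 1) (pt 2)).1]
    exact hq _ _ h12 h13.symm h23.symm h4.2.1 h4.2.2
  · refine key _ m01 (Ly.D_ne_one h01) ?_
    rw [(D_mul_chain Ly (pt 0) (pt 2) (pt 1)).1]
    exact hq _ _ h12.symm h23.symm h13.symm h4.2.2 h4.2.1
  · refine key _ m01 (Ly.D_ne_one h01) ?_
    rw [Ly.comm _ (Ly.D_mem _ _) _ (Ly.D_mem _ _), Ly.D_trans]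
    exact hq _ _ h02 h03.symm h23.symm h4.1 h4.2.2

/-- A permutation fixing the tetrad of `z` centralises the image of `z`. -/
theorem exists_stab_map {q q' : GolayPt} (hq : Out q) (hq3 : pt 3 ≠ q) (hq' : Out q') (hq3' : pt 3 ≠ q') :
    ∃ y : XE Ly, y * mkE Ly ⟨z, z_mem_CE S.ctx⟩ = mkE Ly ⟨z, z_mem_CE S.ctx⟩ * y ∧
      y * dX Ly (pt 2) q * y⁻¹ = dX Ly (pt 2) q' := by
  obtain ⟨g, hg, h0, h1, h2, h3, h4⟩ := exists_CE_map Ly out_three hq hq3 out_three hq' hq3'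
  obtain ⟨t0, t1, t2, t3, -⟩ := tb_small
  obtain ⟨h01, h02, h03, h12, h13, h23⟩ := pt_small_ne
  refine ⟨mkE Ly ⟨g, hg⟩, (S.commute_z).2 (C_fix g h0 h1 h2 h3), ?_⟩
  rw [conj_dX, h2, h4]
where
  C_fix (g : ↥(Subgroup.normalizer (Ly.A : Set G))) (h0 : Ly.act g (pt 0) = pt 0) (h1 : Ly.act g (pt 1) = pt 1)
      (h2 : Ly.act g (pt 2) = pt 2) (h3 : Ly.act g (pt 3) = pt 3) : (g : G) * z = z * (g : G) := by
    obtain ⟨t0, t1, t2, t3, -⟩ := tb_small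
    obtain ⟨h01, h02, h03, h12, h13, h23⟩ := pt_small_ne
    exact S.ctx.std.fix_z h01 h02 h03 h12 h13 h23 (by rw [t0, t1]) (by rw [t0, t2]) (by rw [t0, t3])
      (by rw [h0, h1, t0, t1]) (by rw [h0, h2, t0, t2]) (by rw [h0, h3, t0, t3])

/-- A permutation moving the tetrad of `z`. -/
theorem exists_move_map {q r r' : GolayPt} (hq : Out q) (hq3 : pt 3 ≠ q) (hr : Out r) (hr' : Out r') (hrr : r ≠ r') :
    ∃ y : XE Ly, y * mkE Ly ⟨z, z_mem_CE S.ctx⟩ * y⁻¹ = dX Ly (pt 2) r ∧ y * dX Ly (pt 2) q * y⁻¹ = dX Ly (pt 2) r' := by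
  obtain ⟨g, hg, -, -, h2, h3, h4⟩ := exists_CE_map Ly out_three hq hq3 hr hr' hrr
  refine ⟨mkE Ly ⟨g, hg⟩, ?_, ?_⟩
  · rw [mk_z S.ctx, conj_dX, h2, h3]
  · rw [conj_dX, h2, h4]

variable {φ : V →ₗ[K4] V4}

/-- The local data. -/
noncomputable def localD (K : Coord L h (baseV π Ly) φ)
    (hu0 : ∀ q ∈ QG' Q, q ∈ CE Ly →
      φ (vecG π (Ly.D (pt 2) (pt 4) * q * (Ly.D (pt 2) (pt 4))⁻¹)) = tau r0 (φ (vecG π q)))
    (hu1 : ∀ q ∈ QG' Q, q ∈ CE Ly →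
      φ (vecG π (Ly.D (pt 2) pf * q * (Ly.D (pt 2) pf)⁻¹)) = tau r1 (φ (vecG π q))) : Local (XE Ly) where
  z := mkE Ly ⟨z, z_mem_CE S.ctx⟩
  z_sq := by rw [← map_mul, ← map_one (mkE Ly)]; exact congrArg (mkE Ly) (Subtype.ext S.ctx.z_sq)
  z_ne e := z_notMem_four S.ctx ((mk_eq_one_iff Ly).1 e)
  Q := QX Ly
  z_mem := S.mem_QX_iff.2 S.ctx.z_mem_Q
  Q_comm q hq := by
    obtain ⟨c, hc, rfl⟩ := mem_QX.1 hq
    exact S.commute_z.2 (S.ctx.comm_z_of_Q hc)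
  π := piX π Ly φ
  map_mul a ha b hb := by
    obtain ⟨c, hc, rfl⟩ := mem_QX.1 ha
    obtain ⟨d, hd, rfl⟩ := mem_QX.1 hb
    rw [← map_mul, S.piX_mk K hc, S.piX_mk K hd, S.piX_mk K (mul_mem hc hd), Subgroup.coe_mul,
      S.ctx.vecG_mul hc hd, map_add]
  surj w := by
    obtain ⟨q, hq, hc, e⟩ := S.exists_coord_surj K w
    exact ⟨mkE Ly ⟨q, hc⟩, S.mem_QX_iff.2 hq, (S.piX_mk K hq).trans e⟩
  ker a ha := by
    obtain ⟨c, hc, rfl⟩ := mem_QX.1 ha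
    rw [S.piX_mk K hc]
    constructor
    · intro e
      obtain ⟨k, hk⟩ := K.ker _ ((S.mem_CE_iff hc).1 c.2) e
      obtain ⟨b, hb, hbv⟩ : ∃ b ∈ fourGroup Ly, vecG π b = k • baseV π Ly := by
        obtain ⟨e2, he2, hev, -⟩ := S.exists_om
        have he1 := D_mem_fourGroup Ly (p := pt 0) (q := pt 1) (Or.inl rfl) (Or.inr (Or.inl rfl))
        rcases K4.cases4 k with rfl | rfl | rfl | rfl
        · exact ⟨1, one_mem _, by rw [(S.ctx.vecG_eq_zero (one_mem _)).2 (Or.inl rfl), zero_smul]⟩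
        · exact ⟨_, he1, (one_smul _ _).symm⟩
        · exact ⟨e2, he2, hev⟩
        · refine ⟨_, mul_mem he1 he2, ?_⟩
          rw [S.ctx.vecG_mul S.base_mem (fourGroup_le_Q S.ctx he2), hev,
            show (K4.om2 : K4) = 1 + K4.om by decide, add_smul, one_smul]
      have hbQ := fourGroup_le_Q S.ctx hb
      rcases (S.ctx.vecG_eq_zero (mul_mem (inv_mem hbQ) hc)).1 (by
          rw [S.ctx.vecG_mul (inv_mem hbQ) hc, S.vecG_inv hbQ, hk, hbv, S.ctx.frame.add_self]) with e' | e'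
      · exact Or.inl ((mk_eq_one_iff Ly).2 (by rw [← inv_mul_eq_one.1 e']; exact hb))
      · refine Or.inr ((mk_eq_iff Ly).2 ⟨b, hb, ?_⟩)
        show (c : G) = z * b
        rw [Ly.comm _ Ly.z_mem _ (fourGroup_le Ly hb), ← inv_mul_eq_iff_eq_mul, e']
    · rintro (e | e)
      · obtain ⟨k, hk⟩ := S.four_vec ((mk_eq_one_iff Ly).1 e)
        rw [hk, map_smul, K.zero, smul_zero]
      · obtain ⟨b, hb, hcb⟩ := (mk_eq_iff Ly).1 e
        obtain ⟨k, hk⟩ := S.four_vec hb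
        rw [hcb, S.ctx.vecG_mul S.ctx.z_mem_Q (fourGroup_le_Q S.ctx hb), S.ctx.vecG_z, zero_add, hk, map_smul, K.zero,
          smul_zero]
  sq a ha := by
    obtain ⟨c, hc, rfl⟩ := mem_QX.1 ha
    have hv := (S.mem_CE_iff hc).1 c.2
    obtain ⟨hc1, hc2⟩ := mem_QG'.1 hc
    rw [S.piX_mk K hc, K.herm _ _ hv hv, show vecG π (c : G) = π ⟨_, hc1⟩ from dif_pos hc1,
      S.ctx.frame.sq _ hc2, ← map_mul, mk_eq_one_iff]
    constructor
    · intro e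
      show (c : G) * (c : G) ∈ fourGroup Ly
      rw [show (c : G) * (c : G) = 1 from congrArg Subtype.val e]
      exact one_mem _
    · intro e
      have h0 : vecG π ((c : G) * (c : G)) = 0 := by rw [S.ctx.vecG_mul hc hc, S.ctx.frame.add_self]
      rcases (S.ctx.vecG_eq_zero (mul_mem hc hc)).1 h0 with e' | e'
      · exact Subtype.ext e'
      · have e2 : (c : G) * (c : G) ∈ fourGroup Ly := e
        rw [e'] at e2
        exact absurd e2 (z_notMem_four S.ctx)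
  comm a ha b hb := by
    obtain ⟨c, hc, rfl⟩ := mem_QX.1 ha
    obtain ⟨d, hd, rfl⟩ := mem_QX.1 hb
    rw [S.piX_mk K hc, S.piX_mk K hd, K.herm _ _ ((S.mem_CE_iff hc).1 c.2) ((S.mem_CE_iff hd).1 d.2),
      ← S.comm_iff hc hd, ← map_mul, ← map_mul, mk_eq_iff]
    constructor
    · rintro ⟨e, he, hce⟩
      change (c : G) * (d : G) = (d : G) * (c : G) * e at hce
      rcases S.ctx.conj_pm hc hd with e' | e'
      · exact mul_inv_eq_iff_eq_mul.1 e'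
      · exfalso
        rw [mul_inv_eq_iff_eq_mul, mul_assoc, ← S.ctx.comm_z_of_Q hc, ← mul_assoc] at e'
        exact z_notMem_four S.ctx (mul_left_cancel (e'.symm.trans hce) ▸ he)
    · intro e
      exact ⟨1, one_mem _, by show (c : G) * (d : G) = (d : G) * (c : G) * 1; rw [mul_one, e]⟩
  normal y hy q hq := by
    obtain ⟨g, rfl⟩ := QuotientGroup.mk'_surjective (NE Ly) y
    obtain ⟨c, hc, rfl⟩ := mem_QX.1 hq
    rw [← map_inv, ← map_mul, ← map_mul]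
    exact S.mem_QX_iff.2 (S.ctx.QG_conj (S.commute_z.1 hy) hc)
  act y hy := by
    obtain ⟨g, rfl⟩ := QuotientGroup.mk'_surjective (NE Ly) y
    have hgz := S.commute_z.1 hy
    obtain ⟨B, hB⟩ := S.act_of K g.2 hgz
    refine ⟨_, gam_su B, fun q hq => ?_⟩
    obtain ⟨c, hc, rfl⟩ := mem_QX.1 hq
    rw [← map_inv, ← map_mul, ← map_mul, S.piX_mk K (S.ctx.QG_conj hgz hc), S.piX_mk K hc]
    exact hB _ hc c.2
  faithful y hy ht := by
    obtain ⟨g, rfl⟩ := QuotientGroup.mk'_surjective (NE Ly) y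
    have hgz := S.commute_z.1 hy
    refine S.mem_QX_iff.2 (S.faithful K g.2 hgz fun q hq hc => ?_)
    have := ht _ (S.mem_QX_iff (c := ⟨q, hc⟩).2 hq)
    rw [← map_inv, ← map_mul, ← map_mul, S.piX_mk K (S.ctx.QG_conj hgz hq),
      S.piX_mk K (c := ⟨q, hc⟩) hq] at this
    exact this
  ofTau r hr := by
    obtain ⟨g, hg, hgz, hB⟩ := S.exists_real K (tauSU r hr.2)
    refine ⟨mkE Ly ⟨g, hg⟩, S.commute_z.2 hgz, fun q hq => ?_⟩
    obtain ⟨c, hc, rfl⟩ := mem_QX.1 hq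
    rw [← map_inv, ← map_mul, ← map_mul, S.piX_mk K (S.ctx.QG_conj hgz hc), S.piX_mk K hc]
    exact (hB _ hc c.2).trans (tauSU_mulVec r hr.2 _)
  σ := S.sigmaX
  σ_z := by
    rw [mk_z S.ctx]
    exact S.sigma_two S.hd
  σ_mem q hq := by
    obtain ⟨c, hc, rfl⟩ := mem_QX.1 hq
    exact S.mem_QX_iff.2 (S.ctx.QG_conj (Subgroup.mem_centralizer_singleton_iff.1 x.2) hc)
  σ_act q hq := by
    obtain ⟨c, hc, rfl⟩ := mem_QX.1 hq
    show piX π Ly φ (mkE Ly (S.conjX c)) = _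
    rw [S.piX_mk K (c := S.conjX c) (S.ctx.QG_conj (Subgroup.mem_centralizer_singleton_iff.1 x.2) hc),
      S.piX_mk K hc, ← map_smul]
    exact congrArg φ (S.ctx.x_vec S.hx hc)
  σ_cube := S.sigmaHom_cube
  u0 := dX Ly (pt 2) (pt 4)
  u0_comm := S.commute_z.2 (Ly.comm _ (Ly.D_mem _ _) _ Ly.z_mem)
  u0_act q hq := by
    obtain ⟨c, hc, rfl⟩ := mem_QX.1 hq
    have hgz : Ly.D (pt 2) (pt 4) * z = z * Ly.D (pt 2) (pt 4) := Ly.comm _ (Ly.D_mem _ _) _ Ly.z_mem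
    rw [dX, ← map_inv, ← map_mul, ← map_mul, S.piX_mk K (S.ctx.QG_conj hgz hc), S.piX_mk K hc]
    exact hu0 _ hc c.2
  σ_u0 := S.sigma_two S.he
  not_conj := S.not_conj
  exists_swap := by
    obtain ⟨y, hy1, hy2⟩ := S.exists_move_map out_four (by decide +kernel) out_four out_three (by decide +kernel)
    refine ⟨y, hy1, hy2.trans (mk_z S.ctx).symm⟩
  exists_line q hq hne := by
    obtain ⟨c, hc, rfl⟩ := mem_QX.1 hq
    have h2 : Ly.act ⟨c, Ly.Q_le hc⟩ (pt 2) = pt 2 := (fix_of_mem_CE Ly (g := ⟨c, Ly.Q_le hc⟩) c.2).2.2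
    have e : mkE Ly c * dX Ly (pt 2) (pt 4) * (mkE Ly c)⁻¹ = dX Ly (pt 2) (Ly.act ⟨c, Ly.Q_le hc⟩ (pt 4)) := by
      rw [conj_dX Ly (g := ⟨c, Ly.Q_le hc⟩) c.2, h2]
    rw [e] at hne ⊢
    exact S.exists_move_map out_four (by decide +kernel) out_four
      (out_of_tb (by rw [S.ctx.tb_Q hc, tb_small.2.2.2.2]; decide)) fun e' => hne (by rw [← e'])
  exists_plane := by
    obtain ⟨y, hy1, hy2⟩ := S.exists_stab_map out_four (by decide +kernel) S.out_pf S.pf_ne.1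
    refine ⟨y, hy1, ?_, fun q hq => ?_, ?_⟩
    · rw [hy2]; exact S.sigma_two S.hfix
    · obtain ⟨c, hc, rfl⟩ := mem_QX.1 hq
      have hgz : Ly.D (pt 2) pf * z = z * Ly.D (pt 2) pf := Ly.comm _ (Ly.D_mem _ _) _ Ly.z_mem
      rw [hy2, dX, ← map_inv, ← map_mul, ← map_mul, S.piX_mk K (S.ctx.QG_conj hgz hc), S.piX_mk K hc]
      exact hu1 _ hc c.2
    · rw [hy2]
      exact S.exists_move_map out_four (by decide +kernel) out_four S.out_pf S.pf_ne.2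

end Setup

end CfsgLib.FischerLarge.U62
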