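import Cfsg.Agent.Lib.FischerLarge.U62.Tetrad

/-!
FischerLarge/U62: an abelian group labelled by the even sets of points modulo the Golay code, with the
action of its normaliser through `M₂₄`, and the tetrads of the sextet of `z`.
-/

set_option autoImplicit false
set_option linter.unusedSectionVars false

namespace CfsgLib.FischerLarge.U62

open scoped Classical symmDiff
open Cfsg CfsgLib.Golay

universe u

variable {G : Type u} [Group G]

theorem card_symmDiff {α : Type*} [DecidableEq α] (S T : Finset α) :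
    (S ∆ T).card + 2 * (S ∩ T).card = S.card + T.card := by
  rw [show S ∆ T = (S ∪ T) \ (S ∩ T) from symmDiff_eq_sup_sdiff_inf S T,
    Finset.card_sdiff_of_subset Finset.inter_subset_union]
  have := Finset.card_union_add_card_inter S T
  have : (S ∩ T).card ≤ (S ∪ T).card := Finset.card_le_card Finset.inter_subset_union
  omega

theorem even_symmDiff {α : Type*} [DecidableEq α] {S T : Finset α} (hS : Even S.card) (hT : Even T.card) :
    Even (S ∆ T).card := by
  have := card_symmDiff S T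
  rw [Nat.even_iff] at hS hT ⊢
  omega

theorem even_pair {α : Type*} [DecidableEq α] (p q : α) : Even (({p} : Finset α) ∆ {q}).card := by
  have := card_symmDiff ({p} : Finset α) {q}
  simp only [Finset.card_singleton] at this
  rw [Nat.even_iff]
  omega

/-- The data of the labelling. -/
structure Layer (z : G) (Qg : Subgroup G) where
  /-- The abelian group. -/
  A : Subgroup G
  comm : ∀ a ∈ A, ∀ b ∈ A, a * b = b * a
  sq : ∀ a ∈ A, a * a = 1
  /-- The labelling. -/
  ev : Finset GolayPt → G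
  ev_mem : ∀ S, Even S.card → ev S ∈ A
  ev_surj : ∀ a ∈ A, ∃ S, Even S.card ∧ ev S = a
  ev_symm : ∀ S T, Even S.card → Even T.card → ev (S ∆ T) = ev S * ev T
  ev_code : ∀ S, Even S.card → (ev S = 1 ↔ S ∈ GC)
  class_iff : ∀ a ∈ A, a ≠ 1 → (¬ IsConj z a ↔ ∃ S : Finset GolayPt, S.card = 2 ∧ a = ev S)
  z_mem : z ∈ A
  card_inter : Nat.card ↥(A ⊓ Qg) = 128
  Q_le : Qg ≤ Subgroup.normalizer (A : Set G)
  /-- The action on the points. -/
  ρ : ↥(Subgroup.normalizer (A : Set G)) →* ↥M24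
  ρ_surj : Function.Surjective ρ
  ρ_ker : ∀ g, ρ g = 1 → (g : G) ∈ A
  ρ_conj : ∀ (g : ↥(Subgroup.normalizer (A : Set G))) (S : Finset GolayPt), Even S.card →
    ev (S.image ((ρ g : ↥M24) : Equiv.Perm GolayPt)) = (g : G) * ev S * (g : G)⁻¹

namespace Layer

variable {z : G} {Qg : Subgroup G} (L : Layer z Qg)

/-- The element of a duad. -/
def D (p q : GolayPt) : G := L.ev (({p} : Finset GolayPt) ∆ {q})

/-- The action of a normalising element on the points. -/
def act (g : ↥(Subgroup.normalizer (L.A : Set G))) (p : GolayPt) : GolayPt :=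
  ((L.ρ g : ↥M24) : Equiv.Perm GolayPt) p

theorem act_injective (g : ↥(Subgroup.normalizer (L.A : Set G))) : Function.Injective (L.act g) :=
  ((L.ρ g : ↥M24) : Equiv.Perm GolayPt).injective

theorem act_mul (g h : ↥(Subgroup.normalizer (L.A : Set G))) (p : GolayPt) :
    L.act (g * h) p = L.act g (L.act h p) := by
  rw [act, map_mul]; rfl

theorem act_one (p : GolayPt) : L.act 1 p = p := by rw [act, map_one]; rfl

theorem D_mem (p q : GolayPt) : L.D p q ∈ L.A := L.ev_mem _ (even_pair p q)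

theorem ev_empty : L.ev ∅ = 1 :=
  (L.ev_code _ (by simp)).2 (mem_supports_iff.2 ⟨0, zero_mem_spanMasks _, unmask_zero⟩)

theorem D_self (p : GolayPt) : L.D p p = 1 := by
  rw [D, symmDiff_self, Finset.bot_eq_empty, L.ev_empty]

theorem D_symm (p q : GolayPt) : L.D p q = L.D q p := by rw [D, D, symmDiff_comm]

theorem D_trans (p q r : GolayPt) : L.D p q * L.D q r = L.D p r := by
  rw [D, D, D, ← L.ev_symm _ _ (even_pair p q) (even_pair q r), symmDiff_assoc, symmDiff_symmDiff_cancel_left]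

theorem D_mul_self (p q : GolayPt) : L.D p q * L.D p q = 1 := L.sq _ (L.D_mem p q)

theorem D_inv (p q : GolayPt) : (L.D p q)⁻¹ = L.D p q := inv_eq_of_mul_eq_one_right (L.D_mul_self p q)

theorem eq_iff {S T : Finset GolayPt} (hS : Even S.card) (hT : Even T.card) :
    L.ev S = L.ev T ↔ S ∆ T ∈ GC := by
  rw [← L.ev_code _ (even_symmDiff hS hT), L.ev_symm S T hS hT]
  constructor
  · intro h; rw [h]; exact L.sq _ (L.ev_mem T hT)
  · intro h
    calc L.ev S = L.ev S * (L.ev T * L.ev T) := by rw [L.sq _ (L.ev_mem T hT), mul_one]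
      _ = L.ev T := by rw [← mul_assoc, h, one_mul]

theorem pair_eq {p q : GolayPt} (h : p ≠ q) : ({p} : Finset GolayPt) ∆ {q} = {p, q} := by
  ext x
  simp only [Finset.mem_symmDiff, Finset.mem_singleton, Finset.mem_insert]
  by_cases h1 : x = p
  · subst h1; tauto
  tauto

theorem quad_eq {p q r s : GolayPt} (hpq : p ≠ q) (hpr : p ≠ r) (hps : p ≠ s) (hqr : q ≠ r) (hqs : q ≠ s)
    (hrs : r ≠ s) : L.D p q * L.D r s = L.ev {p, q, r, s} := by
  rw [D, D, ← L.ev_symm _ _ (even_pair p q) (even_pair r s), pair_eq hpq, pair_eq hrs,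
    Disjoint.symmDiff_eq_sup (by simp [hpr.symm, hps.symm, hqr.symm, hqs.symm]), Finset.sup_eq_union]
  congr 1
  ext x
  simp only [Finset.mem_union, Finset.mem_insert, Finset.mem_singleton]
  tauto

theorem small_code {S : Finset GolayPt} (h : S ∈ GC) (hc : S.card < 8) : S = ∅ := by
  by_contra hne
  have := min_weight h hc
  exact hne (by simpa using this)

theorem D_ne_one {p q : GolayPt} (h : p ≠ q) : L.D p q ≠ 1 := by
  rw [D, pair_eq h, Ne, L.ev_code _ (by rw [Finset.card_pair h]; decide)]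
  intro hc
  have := small_code hc (by rw [Finset.card_pair h]; norm_num)
  simp at this

theorem D_not_conj {p q : GolayPt} (h : p ≠ q) : ¬ IsConj z (L.D p q) :=
  (L.class_iff _ (L.D_mem p q) (L.D_ne_one h)).2 ⟨{p, q}, Finset.card_pair h, by rw [D, pair_eq h]⟩

theorem D_eq_D {p q r s : GolayPt} (hpq : p ≠ q) (h : L.D p q = L.D r s) :
    (p = r ∧ q = s) ∨ (p = s ∧ q = r) := by
  have hrs : r ≠ s := by
    rintro rfl
    rw [L.D_self] at h
    exact L.D_ne_one hpq h
  rw [D, D, pair_eq hpq, pair_eq hrs, L.eq_iff (by rw [Finset.card_pair hpq]; decide)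
    (by rw [Finset.card_pair hrs]; decide)] at h
  have hc := card_symmDiff ({p, q} : Finset GolayPt) {r, s}
  rw [Finset.card_pair hpq, Finset.card_pair hrs] at hc
  have he := symmDiff_eq_bot.1 ((small_code h (by omega)).trans Finset.bot_eq_empty.symm)
  have hp : p ∈ ({r, s} : Finset GolayPt) := he ▸ Finset.mem_insert_self p {q}
  have hq : q ∈ ({r, s} : Finset GolayPt) := he ▸ by simp
  simp only [Finset.mem_insert, Finset.mem_singleton] at hp hq
  rcases hp with rfl | rfl <;> rcases hq with rfl | rfl <;> simp_all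

theorem quad_ne_one {p q r s : GolayPt} (hpq : p ≠ q) (hpr : p ≠ r) (hps : p ≠ s) (hqr : q ≠ r)
    (hqs : q ≠ s) (hrs : r ≠ s) : L.D p q * L.D r s ≠ 1 := fun h => by
  rcases L.D_eq_D hpq (mul_eq_one_iff_eq_inv.1 h |>.trans (L.D_inv r s)) with ⟨e, -⟩ | ⟨e, -⟩
  exacts [hpr e, hps e]

theorem quad_conj {p q r s : GolayPt} (hpq : p ≠ q) (hpr : p ≠ r) (hps : p ≠ s) (hqr : q ≠ r) (hqs : q ≠ s)
    (hrs : r ≠ s) : IsConj z (L.D p q * L.D r s) := by
  by_contra hn
  obtain ⟨T, hT, he⟩ := (L.class_iff _ (mul_mem (L.D_mem p q) (L.D_mem r s))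
    (L.quad_ne_one hpq hpr hps hqr hqs hrs)).1 hn
  have hc4 : ({p, q, r, s} : Finset GolayPt).card = 4 := by simp [hpq, hpr, hps, hqr, hqs, hrs]
  rw [L.quad_eq hpq hpr hps hqr hqs hrs, L.eq_iff (by rw [hc4]; decide) (by rw [hT]; decide)] at he
  have hc := card_symmDiff ({p, q, r, s} : Finset GolayPt) T
  rw [hc4, hT] at hc
  have := symmDiff_eq_bot.1 ((small_code he (by omega)).trans Finset.bot_eq_empty.symm)
  rw [this, hT] at hc4
  norm_num at hc4

theorem conj_D (g : ↥(Subgroup.normalizer (L.A : Set G))) (p q : GolayPt) :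
    (g : G) * L.D p q * (g : G)⁻¹ = L.D (L.act g p) (L.act g q) := by
  rw [D, D, ← L.ρ_conj g _ (even_pair p q),
    Finset.image_symmDiff (f := ((L.ρ g : ↥M24) : Equiv.Perm GolayPt)) _ _ (Equiv.injective _)]
  simp [act]

/-- `z` is the element of a four-set. -/
theorem exists_z_four : ∃ p q r s : GolayPt, p ≠ q ∧ p ≠ r ∧ p ≠ s ∧ q ≠ r ∧ q ≠ s ∧ r ≠ s ∧
    z = L.D p q * L.D r s := by
  obtain ⟨S, hS, he⟩ := L.ev_surj z L.z_mem
  induction hn : S.card using Nat.strong_induction_on generalizing S with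
  | _ n ih =>
    subst hn
    by_cases h5 : 5 ≤ S.card
    · obtain ⟨F, hF, hF5⟩ := Finset.exists_subset_card_eq h5
      obtain ⟨o, ⟨ho, hFo⟩, -⟩ := exists_octad_above hF5
      have hoe : Even o.card := by rw [card_eq_of_mem_octads ho]; decide
      have hlt : (S ∆ o).card < S.card := by
        have h1 := card_symmDiff S o
        have h2 := Finset.card_le_card (Finset.subset_inter hF hFo)
        rw [card_eq_of_mem_octads ho] at h1
        omega
      exact ih _ hlt (S ∆ o) (even_symmDiff hS hoe)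
        (by rw [L.ev_symm S o hS hoe, (L.ev_code o hoe).2 ho.1, mul_one, he]) rfl
    · have hS4 : S.card = 0 ∨ S.card = 2 ∨ S.card = 4 := by
        rw [Nat.even_iff] at hS; omega
      rcases hS4 with h | h | h
      · rw [Finset.card_eq_zero.1 h, L.ev_empty] at he
        exfalso
        obtain ⟨c, hc⟩ := isConj_iff.1 (L.quad_conj (show pt 0 ≠ pt 1 by decide) (show pt 0 ≠ pt 2 by decide)
          (show pt 0 ≠ pt 3 by decide) (show pt 1 ≠ pt 2 by decide) (show pt 1 ≠ pt 3 by decide)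
          (show pt 2 ≠ pt 3 by decide))
        refine L.quad_ne_one (show pt 0 ≠ pt 1 by decide) (show pt 0 ≠ pt 2 by decide)
          (show pt 0 ≠ pt 3 by decide) (show pt 1 ≠ pt 2 by decide) (show pt 1 ≠ pt 3 by decide)
          (show pt 2 ≠ pt 3 by decide) (hc.symm.trans ?_)
        calc c * z * c⁻¹ = c * 1 * c⁻¹ := congrArg (fun a => c * a * c⁻¹) he.symm
          _ = 1 := by group
      · obtain ⟨p, q, hpq, rfl⟩ := Finset.card_eq_two.1 h
        exfalso
        refine L.D_not_conj hpq ?_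
        rw [D, pair_eq hpq]
        exact isConj_iff.2 ⟨1, by rw [one_mul, inv_one, mul_one]; exact he.symm⟩
      · obtain ⟨p, q, r, s, hpq, hpr, hps, hqr, hqs, hrs, rfl⟩ := Finset.card_eq_four.1 h
        exact ⟨p, q, r, s, hpq, hpr, hps, hqr, hqs, hrs, ((L.quad_eq hpq hpr hps hqr hqs hrs).trans he).symm⟩

include L in
theorem z_ne_one : z ≠ 1 := fun h => by
  obtain ⟨p, q, r, s, h1, h2, h3, h4, h5, h6, e⟩ := L.exists_z_four
  exact L.quad_ne_one h1 h2 h3 h4 h5 h6 (e.symm.trans h)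

/-- A permutation of five points, realised in the normaliser. -/
theorem exists_map (x y : Fin 5 → GolayPt) (hx : Function.Injective x) (hy : Function.Injective y) :
    ∃ g : ↥(Subgroup.normalizer (L.A : Set G)), ∀ i, L.act g (x i) = y i := by
  obtain ⟨σ, hσ, hσv⟩ := exists_M24_map ⟨x, hx⟩ ⟨y, hy⟩
  obtain ⟨g, hg⟩ := L.ρ_surj ⟨σ, hσ⟩
  exact ⟨g, fun i => by rw [act, hg]; exact hσv i⟩

/-- Elements of the normaliser fixing all points lie in `A`. -/
theorem mem_A_of_act {g : ↥(Subgroup.normalizer (L.A : Set G))} (h : ∀ p, L.act g p = p) : (g : G) ∈ L.A :=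
  L.ρ_ker g (Subtype.ext (Equiv.ext h))

theorem act_eq_of_mem {g : ↥(Subgroup.normalizer (L.A : Set G))} (hg : (g : G) ∈ L.A) (p : GolayPt) :
    L.act g p = p := by
  by_contra hne
  obtain ⟨r, hr1, hr2⟩ : ∃ r, r ≠ p ∧ r ≠ L.act g p := by
    obtain ⟨r, hr⟩ := Finset.exists_mem_notMem_of_card_lt_card
      (s := ({p, L.act g p} : Finset GolayPt)) (t := Finset.univ)
      (lt_of_le_of_lt Finset.card_le_two (by rw [Finset.card_univ]; decide))
    simp only [Finset.mem_insert, Finset.mem_singleton, not_or] at hr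
    exact ⟨r, hr.2⟩
  have h := L.conj_D g p r
  rw [L.comm _ hg _ (L.D_mem p r), mul_inv_cancel_right] at h
  rcases L.D_eq_D hr1.symm h with ⟨e, -⟩ | ⟨e1, e2⟩
  · exact hne e.symm
  · exact hr2 e2

/-- A relabelling by an element of `M₂₄`. -/
noncomputable def relabel (π : ↥M24) : Layer z Qg where
  A := L.A
  comm := L.comm
  sq := L.sq
  ev S := L.ev (S.image ((π⁻¹ : ↥M24) : Equiv.Perm GolayPt))
  ev_mem S hS := L.ev_mem _ (by rwa [Finset.card_image_of_injective _ (Equiv.injective _)])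
  ev_surj a ha := by
    obtain ⟨S, hS, e⟩ := L.ev_surj a ha
    refine ⟨S.image (π : Equiv.Perm GolayPt),
      by rwa [Finset.card_image_of_injective _ (Equiv.injective _)], ?_⟩
    rw [Finset.image_image, ← e]
    congr 1
    rw [show ((π⁻¹ : ↥M24) : Equiv.Perm GolayPt) ∘ (π : Equiv.Perm GolayPt) = id from
      funext fun x => by simp, Finset.image_id]
  ev_symm S T hS hT := by
    rw [Finset.image_symmDiff _ _ (Equiv.injective _)]
    exact L.ev_symm _ _ (by rwa [Finset.card_image_of_injective _ (Equiv.injective _)])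
      (by rwa [Finset.card_image_of_injective _ (Equiv.injective _)])
  ev_code S hS := by
    rw [L.ev_code _ (by rwa [Finset.card_image_of_injective _ (Equiv.injective _)])]
    constructor
    · intro h
      have h2 := smul_mem_supports π.2 h
      rw [← Finset.image_smul, Finset.image_image,
        show ((π : Equiv.Perm GolayPt) • ·) ∘ ((π⁻¹ : ↥M24) : Equiv.Perm GolayPt) = id from
          funext fun x => by simp [Equiv.Perm.smul_def], Finset.image_id] at h2
      exact h2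
    · intro h
      exact smul_mem_supports (π⁻¹).2 h
  class_iff a ha ha1 := by
    rw [L.class_iff a ha ha1]
    constructor
    · rintro ⟨S, hS, rfl⟩
      refine ⟨S.image (π : Equiv.Perm GolayPt), by rwa [Finset.card_image_of_injective _ (Equiv.injective _)],
        ?_⟩
      rw [Finset.image_image, show ((π⁻¹ : ↥M24) : Equiv.Perm GolayPt) ∘ (π : Equiv.Perm GolayPt) = id from
        funext fun x => by simp, Finset.image_id]
    · rintro ⟨S, hS, rfl⟩
      exact ⟨_, by rwa [Finset.card_image_of_injective _ (Equiv.injective _)], rfl⟩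
  z_mem := L.z_mem
  card_inter := L.card_inter
  Q_le := L.Q_le
  ρ := (MulAut.conj π).toMonoidHom.comp L.ρ
  ρ_surj := (MulAut.conj π).surjective.comp L.ρ_surj
  ρ_ker g hg := L.ρ_ker g ((MulAut.conj π).injective (by simpa using hg))
  ρ_conj g S hS := by
    rw [← L.ρ_conj g _ (by rwa [Finset.card_image_of_injective _ (Equiv.injective _)]),
      Finset.image_image, Finset.image_image]
    congr 2
    funext x
    simp [MulAut.conj_apply]

theorem D_relabel (π : ↥M24) (p q : GolayPt) :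
    (L.relabel π).D p q = L.D (((π⁻¹ : ↥M24) : Equiv.Perm GolayPt) p) (((π⁻¹ : ↥M24) : Equiv.Perm GolayPt) q) := by
  rw [D, D]
  show L.ev _ = _
  rw [Finset.image_symmDiff _ _ (Equiv.injective _), Finset.image_singleton, Finset.image_singleton]

theorem act_relabel (π : ↥M24) (g : ↥(Subgroup.normalizer (L.A : Set G))) (p : GolayPt) :
    (L.relabel π).act g p =
      (π : Equiv.Perm GolayPt) (L.act g (((π⁻¹ : ↥M24) : Equiv.Perm GolayPt) p)) := by
  show ((MulAut.conj π (L.ρ g) : ↥M24) : Equiv.Perm GolayPt) p = _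
  simp [act, MulAut.conj_apply]

/-! ### The sextet of `z` -/

/-- `z` is the element of the base tetrad. -/
def Std : Prop := L.ev (tet 0) = z

variable {L}

theorem Std.z_eq (hz : L.Std) {p q r s : GolayPt} (hpq : p ≠ q) (hpr : p ≠ r) (hps : p ≠ s) (hqr : q ≠ r)
    (hqs : q ≠ s) (hrs : r ≠ s) (h1 : tb q = tb p) (h2 : tb r = tb p) (h3 : tb s = tb p) :
    L.D p q * L.D r s = z := by
  rw [L.quad_eq hpq hpr hps hqr hqs hrs, four_mem_tet hpq hpr hps hqr hqs hrs rfl h1 h2 h3]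
  refine Eq.trans ?_ hz
  exact (L.eq_iff (by rw [card_tet]; decide) (by rw [card_tet]; decide)).2 (tet_code _)

theorem Std.tb_of_eq (hz : L.Std) {p q r s : GolayPt} (hpq : p ≠ q) (hpr : p ≠ r) (hps : p ≠ s) (hqr : q ≠ r)
    (hqs : q ≠ s) (hrs : r ≠ s) (h : L.D p q * L.D r s = z) : tb q = tb p ∧ tb r = tb p ∧ tb s = tb p := by
  have hc4 : ({p, q, r, s} : Finset GolayPt).card = 4 := by simp [hpq, hpr, hps, hqr, hqs, hrs]
  replace h : L.D p q * L.D r s = L.ev (tet 0) := h.trans hz.symm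
  rw [L.quad_eq hpq hpr hps hqr hqs hrs, L.eq_iff (by rw [hc4]; decide) (by rw [card_tet]; decide)] at h
  have := tb_eq_of_code hc4 h
  exact ⟨this q (by simp) p (by simp), this r (by simp) p (by simp), this s (by simp) p (by simp)⟩

/-- Three further points of a tetrad. -/
theorem exists_mates (p : GolayPt) : ∃ x : Fin 4 → GolayPt, Function.Injective x ∧ x 0 = p ∧ ∀ k, tb (x k) = tb p := by
  obtain ⟨k, hk⟩ := exists_tp p
  exact ⟨fun j => tp (tb p) (Equiv.swap 0 k j), (tp_injective _).comp (Equiv.injective _),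
    by simp [hk], fun j => tb_tp _ _⟩

theorem exists_mates_two {p q : GolayPt} (hpq : p ≠ q) (h : tb q = tb p) :
    ∃ x : Fin 4 → GolayPt, Function.Injective x ∧ x 0 = p ∧ x 1 = q ∧ ∀ k, tb (x k) = tb p := by
  obtain ⟨k, hk⟩ := exists_tp p
  obtain ⟨l, hl⟩ := exists_tp q
  rw [h] at hl
  have hkl : k ≠ l := fun e => hpq (by rw [← hk, e, hl])
  obtain ⟨σ, h0, h1⟩ : ∃ σ : Equiv.Perm (Fin 4), σ 0 = k ∧ σ 1 = l := by
    have : ∀ k l : Fin 4, k ≠ l → ∃ σ : Equiv.Perm (Fin 4), σ 0 = k ∧ σ 1 = l := by decide +kernel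
    exact this k l hkl
  exact ⟨fun j => tp (tb p) (σ j), (tp_injective _).comp σ.injective, by simp [h0, hk], by simp [h1, hl],
    fun j => tb_tp _ _⟩

theorem Std.mul_pair (hz : L.Std) {p q : GolayPt} (hpq : p ≠ q) (h : tb q = tb p) :
    ∃ r s, r ≠ s ∧ r ≠ p ∧ r ≠ q ∧ s ≠ p ∧ s ≠ q ∧ tb r = tb p ∧ tb s = tb p ∧ z * L.D p q = L.D r s := by
  obtain ⟨x, hx, rfl, rfl, htb⟩ := exists_mates_two hpq h
  refine ⟨x 2, x 3, hx.ne (by decide), hx.ne (by decide), hx.ne (by decide), hx.ne (by decide),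
    hx.ne (by decide), htb 2, htb 3, ?_⟩
  refine (congrArg (· * L.D (x 0) (x 1)) (hz.z_eq (hx.ne (show (0 : Fin 4) ≠ 1 by decide))
    (hx.ne (show (0 : Fin 4) ≠ 2 by decide)) (hx.ne (show (0 : Fin 4) ≠ 3 by decide))
    (hx.ne (show (1 : Fin 4) ≠ 2 by decide)) (hx.ne (show (1 : Fin 4) ≠ 3 by decide))
    (hx.ne (show (2 : Fin 4) ≠ 3 by decide)) (htb 1) (htb 2) (htb 3))).symm.trans ?_
  show L.D (x 0) (x 1) * L.D (x 2) (x 3) * L.D (x 0) (x 1) = _
  rw [L.comm _ (L.D_mem _ _) _ (L.D_mem (x 2) (x 3)), mul_assoc, L.D_mul_self, mul_one]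

theorem Std.cross_conj (hz : L.Std) {p r : GolayPt} (h : tb p ≠ tb r) : IsConj z (z * L.D p r) := by
  obtain ⟨x, hx, rfl, htb⟩ := exists_mates p
  have hr : ∀ k, x k ≠ r := fun k e => h (by rw [← e, htb k])
  have h01 := hx.ne (show (0 : Fin 4) ≠ 1 by decide)
  have h23 := hx.ne (show (2 : Fin 4) ≠ 3 by decide)
  have h12 := hx.ne (show (1 : Fin 4) ≠ 2 by decide)
  have h13 := hx.ne (show (1 : Fin 4) ≠ 3 by decide)
  have e : z * L.D (x 0) r = L.D (x 1) r * L.D (x 2) (x 3) := by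
    refine (congrArg (· * L.D (x 0) r) (hz.z_eq h01 (hx.ne (show (0 : Fin 4) ≠ 2 by decide))
      (hx.ne (show (0 : Fin 4) ≠ 3 by decide)) h12 h13 h23 (htb 1) (htb 2) (htb 3))).symm.trans ?_
    show L.D (x 0) (x 1) * L.D (x 2) (x 3) * L.D (x 0) r = _
    rw [mul_assoc, L.comm _ (L.D_mem (x 2) (x 3)) _ (L.D_mem (x 0) r), ← mul_assoc,
      L.D_symm (x 0) (x 1), L.D_trans]
  rw [e]
  exact L.quad_conj (hr 1) h12 h13 (hr 2).symm (hr 3).symm h23

theorem Std.fix_z (hz : L.Std) {g : ↥(Subgroup.normalizer (L.A : Set G))} {p q r s : GolayPt} (hpq : p ≠ q)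
    (hpr : p ≠ r) (hps : p ≠ s) (hqr : q ≠ r) (hqs : q ≠ s) (hrs : r ≠ s) (h1 : tb q = tb p) (h2 : tb r = tb p)
    (h3 : tb s = tb p) (k1 : tb (L.act g q) = tb (L.act g p)) (k2 : tb (L.act g r) = tb (L.act g p))
    (k3 : tb (L.act g s) = tb (L.act g p)) : (g : G) * z = z * (g : G) := by
  refine mul_inv_eq_iff_eq_mul.1 ?_
  refine (congrArg (fun a => (g : G) * a * (g : G)⁻¹) (hz.z_eq hpq hpr hps hqr hqs hrs h1 h2 h3)).symm.trans ?_
  show (g : G) * (L.D p q * L.D r s) * (g : G)⁻¹ = z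
  rw [show (g : G) * (L.D p q * L.D r s) * (g : G)⁻¹ = ((g : G) * L.D p q * (g : G)⁻¹) * ((g : G) * L.D r s * (g : G)⁻¹)
    by group, L.conj_D, L.conj_D]
  have i := L.act_injective g
  exact hz.z_eq (i.ne hpq) (i.ne hpr) (i.ne hps) (i.ne hqr) (i.ne hqs) (i.ne hrs) k1 k2 k3

theorem Std.tb_act (hz : L.Std) {g : ↥(Subgroup.normalizer (L.A : Set G))} (hg : (g : G) * z = z * (g : G))
    {p q : GolayPt} (h : tb q = tb p) : tb (L.act g q) = tb (L.act g p) := by
  rcases eq_or_ne p q with rfl | hne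
  · rfl
  obtain ⟨x, hx, rfl, rfl, htb⟩ := exists_mates_two hne h
  have i := (L.act_injective g).comp hx
  have e := hz.z_eq (hx.ne (show (0 : Fin 4) ≠ 1 by decide)) (hx.ne (show (0 : Fin 4) ≠ 2 by decide))
    (hx.ne (show (0 : Fin 4) ≠ 3 by decide)) (hx.ne (show (1 : Fin 4) ≠ 2 by decide))
    (hx.ne (show (1 : Fin 4) ≠ 3 by decide)) (hx.ne (show (2 : Fin 4) ≠ 3 by decide)) (htb 1) (htb 2) (htb 3)
  have e2 : L.D (L.act g (x 0)) (L.act g (x 1)) * L.D (L.act g (x 2)) (L.act g (x 3)) = z := by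
    rw [← L.conj_D, ← L.conj_D, show ∀ a b : G, (g : G) * a * (g : G)⁻¹ * ((g : G) * b * (g : G)⁻¹) =
      (g : G) * (a * b) * (g : G)⁻¹ from fun a b => by group, e, hg, mul_inv_cancel_right]
  exact (hz.tb_of_eq (i.ne (show (0 : Fin 4) ≠ 1 by decide)) (i.ne (show (0 : Fin 4) ≠ 2 by decide))
    (i.ne (show (0 : Fin 4) ≠ 3 by decide)) (i.ne (show (1 : Fin 4) ≠ 2 by decide))
    (i.ne (show (1 : Fin 4) ≠ 3 by decide)) (i.ne (show (2 : Fin 4) ≠ 3 by decide)) e2).1

theorem Std.tb_act_iff [Finite G] (hz : L.Std) {g : ↥(Subgroup.normalizer (L.A : Set G))}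
    (hg : (g : G) * z = z * (g : G)) {p q : GolayPt} : tb (L.act g q) = tb (L.act g p) ↔ tb q = tb p := by
  refine ⟨fun h => ?_, hz.tb_act hg⟩
  have hgi : ((g⁻¹ : ↥(Subgroup.normalizer (L.A : Set G))) : G) * z =
      z * ((g⁻¹ : ↥(Subgroup.normalizer (L.A : Set G))) : G) := by
    rw [Subgroup.coe_inv, inv_mul_eq_iff_eq_mul, ← mul_assoc, hg, mul_inv_cancel_right]
  have := hz.tb_act hgi h
  rwa [← L.act_mul, ← L.act_mul, inv_mul_cancel, L.act_one, L.act_one] at this

/-- A stabilising element with prescribed images of a tetrad and a further point. -/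
theorem Std.exists_stab (hz : L.Std) {x y : Fin 5 → GolayPt} (hx : Function.Injective x)
    (hy : Function.Injective y) (hxt : ∀ k : Fin 4, tb (x k.castSucc) = tb (x 0))
    (hyt : ∀ k : Fin 4, tb (y k.castSucc) = tb (y 0)) :
    ∃ g : ↥(Subgroup.normalizer (L.A : Set G)), (g : G) * z = z * (g : G) ∧ ∀ i, L.act g (x i) = y i := by
  obtain ⟨g, hg⟩ := L.exists_map x y hx hy
  refine ⟨g, hz.fix_z (hx.ne (show (0 : Fin 5) ≠ 1 by decide)) (hx.ne (show (0 : Fin 5) ≠ 2 by decide))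
    (hx.ne (show (0 : Fin 5) ≠ 3 by decide)) (hx.ne (show (1 : Fin 5) ≠ 2 by decide))
    (hx.ne (show (1 : Fin 5) ≠ 3 by decide)) (hx.ne (show (2 : Fin 5) ≠ 3 by decide))
    (hxt 1) (hxt 2) (hxt 3) ?_ ?_ ?_, hg⟩
  all_goals rw [hg, hg]
  exacts [hyt 1, hyt 2, hyt 3]

/-- Transitivity of the stabiliser on points. -/
theorem Std.exists_point (hz : L.Std) (p q : GolayPt) :
    ∃ g : ↥(Subgroup.normalizer (L.A : Set G)), (g : G) * z = z * (g : G) ∧ L.act g p = q := by
  obtain ⟨x, hx, rfl, hxt⟩ := exists_mates p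
  obtain ⟨y, hy, rfl, hyt⟩ := exists_mates q
  obtain ⟨r, hr⟩ : ∃ r, tb r ≠ tb (x 0) := ⟨tp (tb (x 0) + 1) 0, by rw [tb_tp]; simp⟩
  obtain ⟨s, hs⟩ : ∃ s, tb s ≠ tb (y 0) := ⟨tp (tb (y 0) + 1) 0, by rw [tb_tp]; simp⟩
  have inj : ∀ (w : Fin 4 → GolayPt) (t : GolayPt), Function.Injective w → (∀ k, tb (w k) = tb (w 0)) →
      tb t ≠ tb (w 0) → Function.Injective (Fin.snoc w t : Fin 5 → GolayPt) := fun w t hw hwt ht => by
    refine Fin.snoc_injective_iff.2 ⟨hw, fun ⟨k, hk⟩ => ht ?_⟩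
    rw [← hk, hwt]
  obtain ⟨g, hg, hgv⟩ := hz.exists_stab (x := Fin.snoc x r) (y := Fin.snoc y s) (inj x r hx hxt hr)
    (inj y s hy hyt hs) (fun k => by
      rw [Fin.snoc_castSucc, hxt k, show (0 : Fin 5) = Fin.castSucc 0 from rfl, Fin.snoc_castSucc])
    (fun k => by rw [Fin.snoc_castSucc, hyt k, show (0 : Fin 5) = Fin.castSucc 0 from rfl, Fin.snoc_castSucc])
  exact ⟨g, hg, by simpa using hgv (Fin.castSucc 0)⟩

/-- Double transitivity of the stabiliser on points of different tetrads. -/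
theorem Std.exists_cross (hz : L.Std) {p r p' r' : GolayPt} (h : tb r ≠ tb p) (h' : tb r' ≠ tb p') :
    ∃ g : ↥(Subgroup.normalizer (L.A : Set G)), (g : G) * z = z * (g : G) ∧ L.act g p = p' ∧ L.act g r = r' := by
  obtain ⟨x, hx, rfl, hxt⟩ := exists_mates p
  obtain ⟨y, hy, rfl, hyt⟩ := exists_mates p'
  have inj : ∀ (w : Fin 4 → GolayPt) (t : GolayPt), Function.Injective w → (∀ k, tb (w k) = tb (w 0)) →
      tb t ≠ tb (w 0) → Function.Injective (Fin.snoc w t : Fin 5 → GolayPt) := fun w t hw hwt ht => by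
    refine Fin.snoc_injective_iff.2 ⟨hw, fun ⟨k, hk⟩ => ht ?_⟩
    rw [← hk, hwt]
  obtain ⟨g, hg, hgv⟩ := hz.exists_stab (x := Fin.snoc x r) (y := Fin.snoc y r') (inj x r hx hxt h)
    (inj y r' hy hyt h') (fun k => by
      rw [Fin.snoc_castSucc, hxt k, show (0 : Fin 5) = Fin.castSucc 0 from rfl, Fin.snoc_castSucc])
    (fun k => by rw [Fin.snoc_castSucc, hyt k, show (0 : Fin 5) = Fin.castSucc 0 from rfl, Fin.snoc_castSucc])
  have h4 := hgv (Fin.last 4)
  rw [Fin.snoc_last, Fin.snoc_last] at h4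
  exact ⟨g, hg, by simpa using hgv (Fin.castSucc 0), h4⟩

end Layer

end CfsgLib.FischerLarge.U62
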