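import Cfsg.Agent.Lib.FischerLarge.U62.Theta

/-!
FischerLarge/U62: the 180 members commuting with `z`.
-/

set_option autoImplicit false

namespace CfsgLib.FischerLarge.U62

open scoped Classical

variable {X : Type*} [Group X] (D : Local X)

/-- `c` commutes with `z` and is fixed by `σ`. -/
def Local.Fix (c : X) : Prop := c * D.z = D.z * c ∧ D.σ c = c

/-- `c` induces `g` on the coordinates of `Q`. -/
def Local.Acts (c : X) (g : V4 → V4) : Prop := ∀ q ∈ D.Q, D.π (c * q * c⁻¹) = g (D.π q)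

variable {D}

theorem mul_comm_z {a b : X} (ha : a * D.z = D.z * a) (hb : b * D.z = D.z * b) :
    a * b * D.z = D.z * (a * b) := by rw [mul_assoc, hb, ← mul_assoc, ha, mul_assoc]

theorem inv_comm_z {a : X} (ha : a * D.z = D.z * a) : a⁻¹ * D.z = D.z * a⁻¹ := by
  calc a⁻¹ * D.z = a⁻¹ * (D.z * a) * a⁻¹ := by group
    _ = D.z * a⁻¹ := by rw [← ha]; group

theorem Local.Fix.mul {a b : X} (ha : D.Fix a) (hb : D.Fix b) : D.Fix (a * b) :=
  ⟨mul_comm_z ha.1 hb.1, by rw [_root_.map_mul, ha.2, hb.2]⟩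

theorem Local.Fix.inv {a : X} (ha : D.Fix a) : D.Fix a⁻¹ := ⟨inv_comm_z ha.1, by rw [_root_.map_inv, ha.2]⟩

theorem Local.Acts.mul {a b : X} {g h : V4 → V4} (hb' : b * D.z = D.z * b) (ha : D.Acts a g) (hb : D.Acts b h) :
    D.Acts (a * b) (fun v => g (h v)) := fun q hq => by
  rw [show a * b * q * (a * b)⁻¹ = a * (b * q * b⁻¹) * a⁻¹ by group, ha _ (D.normal b hb' q hq), hb q hq]

theorem Local.Acts.congr {a : X} {g h : V4 → V4} (ha : D.Acts a g) (e : ∀ v, g v = h v) : D.Acts a h :=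
  fun q hq => by rw [ha q hq, e]

theorem Local.Acts.eq {a : X} {g h : V4 → V4} (ha : D.Acts a g) (hb : D.Acts a h) (v : V4) : g v = h v := by
  obtain ⟨q, hq, rfl⟩ := D.surj v
  rw [← ha q hq, hb q hq]

theorem Local.acts_Q {q : X} (hq : q ∈ D.Q) : D.Acts q (fun v => v) := fun x hx => by
  rw [D.map_mul _ (D.Q.mul_mem hq hx) _ (D.Q.inv_mem hq), D.map_mul q hq x hx, D.π_inv hq, add_comm (D.π q),
    add_assoc, vadd_self, add_zero]

theorem Local.acts_z : D.Acts D.z (fun v => v) := D.acts_Q D.z_mem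

theorem Local.exists_fix_tau {r : V4} (hr : Iso r) : ∃ c, D.Fix c ∧ D.Acts c (tau r) := by
  obtain ⟨c, hc, hg⟩ := D.ofTau r hr
  obtain ⟨q, hq, hfix⟩ := D.exists_fixed hc
  exact ⟨c * q, ⟨mul_comm_z hc (D.Q_comm q hq), hfix⟩, Local.Acts.mul (D.Q_comm q hq) hg (D.acts_Q hq)⟩

theorem Local.exists_fix_act {g : V4 → V4} (hg : Gam g) : ∃ c, D.Fix c ∧ D.Acts c g := by
  induction hg with
  | refl => exact ⟨1, ⟨by group, map_one _⟩, fun q _ => by rw [one_mul, inv_one, mul_one]⟩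
  | @step g r hr _ ih =>
    obtain ⟨c, hc, hca⟩ := ih
    obtain ⟨d, hd, hda⟩ := D.exists_fix_tau hr
    exact ⟨d * c, hd.mul hc, Local.Acts.mul hc.1 hda hca⟩

theorem Local.Acts.inv {a : X} {g g' : V4 → V4} (ha' : a * D.z = D.z * a) (ha : D.Acts a g) (h : ∀ v, g' (g v) = v) :
    D.Acts a⁻¹ g' := fun q hq => by
  have h1 := D.normal _ (inv_comm_z ha') q hq
  rw [← h (D.π (a⁻¹ * q * a⁻¹⁻¹)), ← ha _ h1]
  congr 2
  group

theorem isom_conj_tau {g g' : V4 → V4} (hg : Gam g) (h' : ∀ v, g (g' v) = v) (r v : V4) :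
    g (tau r (g' v)) = tau (g r) v := by
  rw [hg.conj_tau, h']

variable (D)

/-- Being a lift over `r` fixed by `σ`. -/
def Local.IsLift (r : V4) (x : X) : Prop :=
  ∃ c g a, D.Fix c ∧ Gam g ∧ D.Acts c g ∧ a ≠ (0 : K4) ∧ g r0 = a • r ∧ x = c * D.u0 * c⁻¹

variable {D}

theorem Local.IsLift.fix {r : V4} {x : X} (h : D.IsLift r x) : D.Fix x := by
  obtain ⟨c, g, a, hc, -, -, -, -, rfl⟩ := h
  exact (hc.mul ⟨D.u0_comm, D.σ_u0⟩).mul hc.inv

theorem Local.IsLift.acts {r : V4} {x : X} (h : D.IsLift r x) : D.Acts x (tau r) := by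
  obtain ⟨c, g, a, hc, hg, hca, ha, hgr, rfl⟩ := h
  obtain ⟨g', hg', h1, h2⟩ := hg.exists_inv
  have := Local.Acts.mul (inv_comm_z hc.1) (Local.Acts.mul (g := g) (h := tau r0) D.u0_comm hca D.u0_act)
    (hca.inv hc.1 h1)
  refine this.congr fun v => ?_
  show g (tau r0 (g' v)) = tau r v
  rw [isom_conj_tau hg h2, hgr, tau_smul_center ha]

theorem Local.exists_conj_z : ∃ g : X, D.u0 = g * D.z * g⁻¹ := by
  obtain ⟨g, hg, -⟩ := D.exists_swap
  exact ⟨g, hg.symm⟩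

theorem Local.u0_sq : D.u0 * D.u0 = 1 := by
  obtain ⟨g, hg⟩ := D.exists_conj_z
  rw [hg, show g * D.z * g⁻¹ * (g * D.z * g⁻¹) = g * (D.z * D.z) * g⁻¹ by group, D.z_sq, mul_one, mul_inv_cancel]

theorem Local.IsLift.sq {r : V4} {x : X} (h : D.IsLift r x) : x * x = 1 := by
  obtain ⟨c, g, a, -, -, -, -, -, rfl⟩ := h
  rw [show c * D.u0 * c⁻¹ * (c * D.u0 * c⁻¹) = c * (D.u0 * D.u0) * c⁻¹ by group, D.u0_sq, mul_one, mul_inv_cancel]

theorem Local.IsLift.unique {r s : V4} {x y : X} (hx : D.IsLift r x) (hy : D.IsLift s y)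
    (h : ∀ v, tau r v = tau s v) : x = y := by
  have hact : D.Acts (x * y) (fun v => v) := (Local.Acts.mul hy.fix.1 hx.acts hy.acts).congr fun v => by
    obtain ⟨c, g, a, -, hg, -, ha, hgr, -⟩ := hy
    have hs : herm s s = 0 := by
      have h1 := hg.lin.2.2 r0 r0
      rw [hgr, herm_smul_left, herm_smul_right, show herm r0 r0 = 0 from rfl] at h1
      exact ((mul_eq_zero.1 ((mul_eq_zero.1 h1).resolve_left ha)).resolve_left ((map_ne_zero _).2 ha))
    rw [h, tau_tau hs]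
  have hq : x * y ∈ D.Q := D.faithful _ (mul_comm_z hx.fix.1 hy.fix.1) hact
  obtain ⟨e, he⟩ := D.fixed_mem hq (hx.fix.mul hy.fix).2
  cases e
  · calc x = x * y * y := by rw [mul_assoc, hy.sq, mul_one]
      _ = y := by rw [show x * y = 1 from he, one_mul]
  · exfalso
    have hxy : x = D.z * y := by rw [← show x * y = D.z from he, mul_assoc, hy.sq, mul_one]
    obtain ⟨c, g, a, hc, -, -, -, -, rfl⟩ := hy
    obtain ⟨d, g', a', -, -, -, -, -, rfl⟩ := hx
    obtain ⟨k, hk⟩ := D.exists_conj_z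
    refine D.not_conj (isConj_iff.2 ⟨c⁻¹ * d * k, ?_⟩)
    calc c⁻¹ * d * k * D.z * (c⁻¹ * d * k)⁻¹ = c⁻¹ * (d * (k * D.z * k⁻¹) * d⁻¹) * c := by group
      _ = c⁻¹ * (D.z * (c * D.u0 * c⁻¹)) * c := by rw [← hk, hxy]
      _ = c⁻¹ * (D.z * c) * D.u0 := by group
      _ = D.z * D.u0 := by rw [← hc.1]; group

theorem Local.exists_lift {r : V4} (hr : Iso r) : ∃ x, D.IsLift r x := by
  obtain ⟨g, hg, hgr⟩ := to_base hr
  obtain ⟨c, hc, hca⟩ := D.exists_fix_act hg
  exact ⟨_, c, g, 1, hc, hg, hca, one_ne_zero, by rw [hgr, one_smul], rfl⟩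

variable (D)

/-- The lift over `r` fixed by `σ`. -/
noncomputable def Local.t (r : V4) : X := if h : Iso r then (D.exists_lift h).choose else 1

variable {D}

theorem Local.t_spec {r : V4} (hr : Iso r) : D.IsLift r (D.t r) := by
  rw [Local.t, dif_pos hr]; exact (D.exists_lift hr).choose_spec

theorem Local.eq_t {r : V4} {x : X} (hr : Iso r) (h : D.IsLift r x) : x = D.t r := h.unique (D.t_spec hr) fun _ => rfl

theorem Local.t_smul {r : V4} (hr : Iso r) {a : K4} (ha : a ≠ 0) : D.t (a • r) = D.t r :=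
  (D.t_spec (hr.smul ha)).unique (D.t_spec hr) fun v => tau_smul_center ha r v

theorem r0_iso : Iso r0 := by decide

theorem r1_iso : Iso r1 := by decide

theorem s0_iso : Iso s0 := by decide

theorem Local.t_r0 : D.t r0 = D.u0 :=
  (D.eq_t r0_iso ⟨1, fun v => v, 1, ⟨by group, map_one _⟩, Gam.refl,
    fun q _ => by rw [one_mul, inv_one, mul_one], one_ne_zero, (one_smul _ _).symm, by group⟩).symm

theorem Local.conj_t {c : X} {g : V4 → V4} (hc : D.Fix c) (hg : Gam g) (hca : D.Acts c g) {r : V4} (hr : Iso r) :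
    c * D.t r * c⁻¹ = D.t (g r) := by
  obtain ⟨d, k, a, hd, hk, hda, ha, hkr, he⟩ := D.t_spec hr
  refine D.eq_t (hg.iso hr) ⟨c * d, fun v => g (k v), a, hc.mul hd, hg.comp hk, Local.Acts.mul hd.1 hca hda, ha,
    ?_, by rw [he]; group⟩
  show g (k r0) = _
  rw [hkr, hg.lin.2.1]

theorem Local.t_th {r : V4} (hr : Iso r) (v : V4) : D.t r * D.th v * (D.t r)⁻¹ = D.th (tau r v) :=
  D.conj_th (D.t_spec hr).fix.1 (D.t_spec hr).fix.2 (D.t_spec hr).acts v

theorem beta_scal {r v : V4} (hr : herm r r = 0) :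
    beta (herm v r • r) v = decide (herm v r ≠ 0) := by
  rw [beta, herm_smul_right]
  have : ∀ a : K4, (K4.om * (K4.conj a * a)).b1 = decide (a ≠ 0) := by decide
  exact this _

variable (D)

/-- The members over a point. -/
noncomputable def Local.m (r : V4) (a : K4) : X := D.th (a • r) * D.zp (decide (a ≠ 0)) * D.t r

variable {D}

theorem Local.m_zero (r : V4) : D.m r 0 = D.t r := by
  simp [Local.m, D.th_zero, Local.zp]

theorem Local.th_conj_t {r : V4} (hr : Iso r) (v : V4) :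
    D.th v * D.t r * (D.th v)⁻¹ = D.m r (herm v r) := by
  have hs : herm (herm v r • r) (herm v r • r) = 0 := by
    rw [herm_smul_left, herm_smul_right, hr.2, mul_zero, mul_zero]
  have h1 := D.th_mul (herm v r • r) v
  rw [add_comm, ← tau_eq, beta_scal hr.2] at h1
  have hz := D.zp_conj (decide (herm v r ≠ 0)) (D.Q_comm _ (D.th_mem (herm v r • r)))
  have h2 : D.th (tau r v) = D.th (herm v r • r) * D.th v * D.zp (decide (herm v r ≠ 0)) := by
    rw [h1, mul_assoc, D.zp_sq, mul_one]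
  calc D.th v * D.t r * (D.th v)⁻¹ = D.th v * (D.t r * (D.th v) * (D.t r)⁻¹)⁻¹ * D.t r := by group
    _ = D.th v * ((D.zp (decide (herm v r ≠ 0)))⁻¹ * (D.th v)⁻¹ * (D.th (herm v r • r))⁻¹) * D.t r := by
      rw [D.t_th hr, h2]; group
    _ = (D.th v * D.zp (decide (herm v r ≠ 0)) * (D.th v)⁻¹) * (D.th (herm v r • r))⁻¹ * D.t r := by
      rw [D.zp_inv]; group
    _ = D.m r (herm v r) := by
      rw [D.zp_conj _ (D.Q_comm _ (D.th_mem v)), inv_eq_of_mul_eq_one_right (D.th_sq hs),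
        ← D.zp_central (D.th_mem _), Local.m]

theorem Local.m_eq_conj {r : V4} (hr : Iso r) (a : K4) :
    ∃ v, herm v r = a ∧ D.m r a = D.th v * D.t r * (D.th v)⁻¹ := by
  obtain ⟨v, hv⟩ := exists_herm hr.1 a
  exact ⟨v, hv, by rw [D.th_conj_t hr, hv]⟩

theorem Local.conj_zp {x : X} (hx : x * D.z = D.z * x) (e : Bool) : D.zp e * x * (D.zp e)⁻¹ = x := by
  rw [← D.zp_comm e hx, mul_inv_cancel_right]

theorem Local.th_conj_m {r : V4} (hr : Iso r) (v : V4) (a : K4) :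
    D.th v * D.m r a * (D.th v)⁻¹ = D.m r (herm v r + a) := by
  obtain ⟨w, hw, e⟩ := D.m_eq_conj hr a
  rw [e, show D.th v * (D.th w * D.t r * (D.th w)⁻¹) * (D.th v)⁻¹ =
    (D.th v * D.th w) * D.t r * (D.th v * D.th w)⁻¹ by group, D.th_mul,
    show D.th (v + w) * D.zp (beta v w) * D.t r * (D.th (v + w) * D.zp (beta v w))⁻¹ =
      D.th (v + w) * (D.zp (beta v w) * D.t r * (D.zp (beta v w))⁻¹) * (D.th (v + w))⁻¹ by group,
    D.conj_zp (D.t_spec hr).fix.1, D.th_conj_t hr, herm_add_left, hw]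

theorem Local.m_comm_z {r : V4} (hr : Iso r) (a : K4) : D.m r a * D.z = D.z * D.m r a :=
  mul_comm_z (mul_comm_z (D.Q_comm _ (D.th_mem _)) (D.Q_comm _ (D.zp_mem _))) (D.t_spec hr).fix.1

theorem Local.m_acts {r : V4} (hr : Iso r) (a : K4) : D.Acts (D.m r a) (tau r) :=
  Local.Acts.mul (g := fun v => v) (h := tau r) (D.t_spec hr).fix.1
    (D.acts_Q (D.Q.mul_mem (D.th_mem _) (D.zp_mem _))) (D.t_spec hr).acts

theorem Local.m_sq {r : V4} (hr : Iso r) (a : K4) : D.m r a * D.m r a = 1 := by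
  obtain ⟨v, -, e⟩ := D.m_eq_conj hr a
  rw [e, show D.th v * D.t r * (D.th v)⁻¹ * (D.th v * D.t r * (D.th v)⁻¹) =
    D.th v * (D.t r * D.t r) * (D.th v)⁻¹ by group, (D.t_spec hr).sq, mul_one, mul_inv_cancel]

theorem Local.conj_m {c : X} {g : V4 → V4} (hc : D.Fix c) (hg : Gam g) (hca : D.Acts c g) {r : V4} (hr : Iso r)
    (a : K4) : c * D.m r a * c⁻¹ = D.m (g r) a := by
  rw [Local.m, show c * (D.th (a • r) * D.zp (decide (a ≠ 0)) * D.t r) * c⁻¹ =
    (c * D.th (a • r) * c⁻¹) * (c * D.zp (decide (a ≠ 0)) * c⁻¹) * (c * D.t r * c⁻¹) by group,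
    D.conj_th hc.1 hc.2 hca, D.zp_conj _ hc.1, D.conj_t hc hg hca hr, hg.lin.2.1, Local.m]

theorem Local.m_smul {r : V4} (hr : Iso r) {l : K4} (hl : l ≠ 0) (a : K4) : D.m (l • r) a = D.m r (a * l) := by
  rw [Local.m, Local.m, D.t_smul hr hl, smul_smul]
  congr 3
  exact decide_eq_decide.2 ⟨fun h => mul_ne_zero h hl, fun h e => h (by rw [e, zero_mul])⟩

theorem Local.σ_m {r : V4} (hr : Iso r) (a : K4) : D.σ (D.m r a) = D.m r (K4.om * a) := by
  rw [Local.m, Local.m, _root_.map_mul, _root_.map_mul, D.σ_zp, (D.t_spec hr).fix.2, D.σ_th, smul_smul]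
  congr 3
  exact decide_eq_decide.2 ⟨fun h => mul_ne_zero (by decide) h, fun h e => h (by rw [e, mul_zero])⟩

theorem Local.m_inj {r s : V4} (hr : Iso r) (hs : Iso s) {a b : K4} (h : D.m r a = D.m s b) :
    ∃ l : K4, l ≠ 0 ∧ s = l • r ∧ a = b * l := by
  have h1 : ∀ v, tau r v = tau s v := (D.m_acts hr a).eq (h ▸ D.m_acts hs b)
  obtain ⟨l, hl⟩ := parallel_of_tau hr hs h1
  have hl0 := hs.ne_of_smul hl
  refine ⟨l, hl0, hl, ?_⟩
  subst hl
  rw [D.m_smul hr hl0] at h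
  simp only [Local.m] at h
  have h2 := congrArg D.π (mul_right_cancel h)
  rw [D.π_mul_zp (D.th_mem _), D.π_mul_zp (D.th_mem _), D.π_th, D.π_th] at h2
  by_contra hne
  have h3 : (a - b * l) • r = 0 := by rw [sub_smul, h2, sub_self]
  exact hne (sub_eq_zero.1 ((smul_eq_zero.1 h3).resolve_right hr.1))

theorem Local.m_ne_z {r : V4} (hr : Iso r) (a : K4) : D.m r a ≠ D.z := by
  intro h
  obtain ⟨v, hv⟩ := exists_herm hr.1 1
  have h1 := (D.m_acts hr a).eq (h ▸ D.acts_z) v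
  rw [tau_eq, hv, one_smul, add_eq_left] at h1
  exact hr.1 h1

theorem Local.t_conj_t {r s : V4} (hr : Iso r) (hs : Iso s) : D.t s * D.t r * D.t s = D.t (tau s r) := by
  have := D.conj_t (D.t_spec hs).fix (Gam.tau hs) (D.t_spec hs).acts hr
  rwa [inv_eq_of_mul_eq_one_right (D.t_spec hs).sq] at this

theorem Local.G1_iff {x : X} : x ∈ D.G1 ↔ ∃ r a, Iso r ∧ x = D.m r a := by
  constructor
  · rintro ⟨c, hc, rfl⟩
    obtain ⟨q, hq, hfix⟩ := D.exists_fixed hc
    obtain ⟨g, hg, hga⟩ := D.act c hc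
    have hga' : D.Acts (c * q) g := Local.Acts.mul (D.Q_comm q hq) hga (D.acts_Q hq)
    have hcq : D.Fix (c * q) := ⟨mul_comm_z hc (D.Q_comm q hq), hfix⟩
    obtain ⟨e, he⟩ := D.exists_rep (D.Q.inv_mem hq)
    refine ⟨g r0, herm (D.π q⁻¹) r0, hg.iso r0_iso, ?_⟩
    calc c * D.u0 * c⁻¹ = (c * q) * (q⁻¹ * D.t r0 * q⁻¹⁻¹) * (c * q)⁻¹ := by rw [D.t_r0]; group
      _ = (c * q) * (D.th (D.π q⁻¹) * (D.zp e * D.t r0 * (D.zp e)⁻¹) * (D.th (D.π q⁻¹))⁻¹) * (c * q)⁻¹ := by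
        conv_lhs => rw [he]
        group
      _ = _ := by rw [D.conj_zp (D.t_spec r0_iso).fix.1, D.th_conj_t r0_iso, D.conj_m hcq hg hga' r0_iso]
  · rintro ⟨r, a, hr, rfl⟩
    obtain ⟨v, -, e⟩ := D.m_eq_conj hr a
    obtain ⟨c, g, a', hc, -, -, -, -, he⟩ := D.t_spec hr
    exact ⟨D.th v * c, mul_comm_z (D.Q_comm _ (D.th_mem v)) hc.1, by rw [e, he]; group⟩

theorem exists_two_herm {r s : V4} (hr : Iso r) (hs : Iso s) (h : herm r s ≠ 0) (a b : K4) :
    ∃ v, herm v r = a ∧ herm v s = b := by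
  have h' : herm s r ≠ 0 := fun e => h (herm_eq_zero_symm e)
  refine ⟨(b * (herm r s)⁻¹) • r + (a * (herm s r)⁻¹) • s, ?_, ?_⟩
  · rw [herm_add_left, herm_smul_left, herm_smul_left, hr.2, mul_zero, zero_add, mul_assoc, inv_mul_cancel₀ h',
      mul_one]
  · rw [herm_add_left, herm_smul_left, herm_smul_left, hs.2, mul_zero, add_zero, mul_assoc, inv_mul_cancel₀ h,
      mul_one]

theorem Local.m_braid {r s : V4} (hr : Iso r) (hs : Iso s) (h : herm r s ≠ 0) (a b : K4) :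
    D.m r a * D.m s b * D.m r a = D.m s b * D.m r a * D.m s b := by
  obtain ⟨v, hva, hvb⟩ := exists_two_herm hr hs h a b
  have e1 := D.th_conj_t hr v
  have e2 := D.th_conj_t hs v
  rw [hva] at e1
  rw [hvb] at e2
  have key : D.t r * D.t s * D.t r = D.t s * D.t r * D.t s := by
    rw [D.t_conj_t hs hr, D.t_conj_t hr hs]
    have h' : herm s r ≠ 0 := fun e => h (herm_eq_zero_symm e)
    have : tau r s = herm s r • tau s r := by
      rw [tau_eq, tau_eq, smul_add, smul_smul, herm_symm s r, mul_comm, norm_one h', one_smul, add_comm]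
    rw [this, D.t_smul ((Gam.tau hs).iso hr) h']
  rw [← e1, ← e2]
  calc _ = D.th v * (D.t r * D.t s * D.t r) * (D.th v)⁻¹ := by group
    _ = _ := by rw [key]; group

theorem Local.t_commute {r s : V4} (hr : Iso r) (hs : Iso s) (h : herm r s = 0) :
    D.t s * D.t r = D.t r * D.t s := by
  have h1 := D.t_conj_t hr hs
  rw [tau_eq, h, zero_smul, add_zero] at h1
  calc D.t s * D.t r = D.t s * D.t r * (D.t s * D.t s) := by rw [(D.t_spec hs).sq, mul_one]
    _ = D.t r * D.t s := by rw [← mul_assoc, h1]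

theorem Local.m_commute_iff {r s : V4} (hr : Iso r) (hs : Iso s) (a b : K4) :
    D.m r a * D.m s b = D.m s b * D.m r a ↔ herm r s = 0 := by
  constructor
  · intro hcom
    by_contra h
    have hb := D.m_braid hr hs h a b
    rw [hcom, mul_assoc, D.m_sq hr, mul_one, ← hcom, mul_assoc, D.m_sq hs, mul_one] at hb
    obtain ⟨l, -, hl, -⟩ := D.m_inj hs hr hb
    exact h (by rw [hl, herm_smul_left, hs.2, mul_zero])
  · intro h
    have hsr := herm_eq_zero_symm h
    obtain ⟨v, hv, e1⟩ := D.m_eq_conj hr a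
    have e2 : D.m s b = D.th v * D.m s (herm v s + b) * (D.th v)⁻¹ := by
      rw [D.th_conj_m hs, ← add_assoc, K4.add_self, zero_add]
    have key : ∀ c, D.t r * D.m s c = D.m s c * D.t r := by
      intro c
      have := D.conj_m (D.t_spec hr).fix (Gam.tau hr) (D.t_spec hr).acts hs c
      rw [tau_eq r s, hsr, zero_smul, add_zero] at this
      calc D.t r * D.m s c = D.t r * D.m s c * (D.t r)⁻¹ * D.t r := by group
        _ = _ := by rw [this]
    rw [e1, e2]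
    calc _ = D.th v * (D.t r * D.m s (herm v s + b)) * (D.th v)⁻¹ := by group
      _ = _ := by rw [key]; group

end CfsgLib.FischerLarge.U62
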