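import Cfsg.Agent.Lib.FischerLarge.U62.Perms
import Cfsg.Agent.Lib.LargeFischer.Base.Exists

/-!
FischerLarge/U62: a layer from the self-centralising elementary abelian subgroup and a labelling of it by
the duads.
-/

set_option autoImplicit false
set_option linter.unusedSectionVars false

namespace CfsgLib.FischerLarge.U62

open scoped Classical symmDiff
open Cfsg CfsgLib.Golay

universe u

variable {G : Type u} [Group G] [Finite G] {z : G} {Q : Subgroup (Cz z)} [hQn : Q.Normal]

/-- The layer of a labelled base subgroup. -/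
theorem nonempty_layer_of_base {A : Subgroup G} (hA : CfsgLib.LargeFischer.Base.IsBase z Q A)
    (ev : Finset GolayPt → G) (ρ : ↥(Subgroup.normalizer (A : Set G)) →* ↥M24)
    (hmem : ∀ S : Finset GolayPt, Even S.card → ev S ∈ A)
    (hsurj : ∀ a ∈ A, ∃ S : Finset GolayPt, Even S.card ∧ ev S = a)
    (hsymm : ∀ S T : Finset GolayPt, Even S.card → Even T.card → ev (S ∆ T) = ev S * ev T)
    (hcode : ∀ S : Finset GolayPt, Even S.card → (ev S = 1 ↔ S ∈ GC))
    (hclass : ∀ a ∈ A, a ≠ 1 → (¬ IsConj z a ↔ ∃ S : Finset GolayPt, S.card = 2 ∧ a = ev S))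
    (hρ : Function.Surjective ρ) (hker : ∀ g, ρ g = 1 → (g : G) ∈ A)
    (hconj : ∀ (g : ↥(Subgroup.normalizer (A : Set G))) (S : Finset GolayPt), Even S.card →
      ev (S.image ((ρ g : ↥M24) : Equiv.Perm GolayPt)) = (g : G) * ev S * (g : G)⁻¹) :
    Nonempty (Layer z (QG' Q)) :=
  ⟨{ A := A
     comm := fun a ha b hb => congrArg Subtype.val (hA.elem.1.is_comm.comm ⟨a, ha⟩ ⟨b, hb⟩)
     sq := fun a ha => by rw [← pow_two]; exact hA.elem.2 a ha
     ev := ev
     ev_mem := hmem
     ev_surj := hsurj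
     ev_symm := hsymm
     ev_code := hcode
     class_iff := hclass
     z_mem := hA.z_mem
     card_inter := by rw [show (128 : ℕ) = 2 ^ 7 by norm_num]; exact hA.card_inter
     Q_le := hA.normQ
     ρ := ρ
     ρ_surj := hρ
     ρ_ker := hker
     ρ_conj := hconj }⟩

end CfsgLib.FischerLarge.U62
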