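import Cfsg.Agent.Lib.FischerLarge.U62.Layer
import Cfsg.Agent.Lib.FischerLarge.Outer

/-!
FischerLarge/U62: consequences of the labelling by permutations alone: the duads in `Q` are those inside a
tetrad, `C(A ∩ Q) ≤ A`, the image of `A ∩ Q` is a subspace, an element inducing a scalar has one fixed point in
each tetrad, and a cross duad moves at least a plane of `Q/⟨z⟩`.
-/

set_option autoImplicit false
set_option linter.style.haveILetI false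
set_option linter.unusedSectionVars false

namespace CfsgLib.FischerLarge.U62

open scoped Classical symmDiff
open Cfsg CfsgLib.Golay

universe u

variable {G : Type u} [Group G] {z : G}

/-- The radical as a subgroup of the whole group. -/
abbrev QG' (Q : Subgroup (Cz z)) : Subgroup G := Q.map (Cz z).subtype

theorem mem_QG' {Q : Subgroup (Cz z)} {g : G} :
    g ∈ QG' Q ↔ ∃ hg : g ∈ Cz z, (⟨g, hg⟩ : Cz z) ∈ Q :=
  ⟨fun ⟨a, ha, e⟩ => e ▸ ⟨a.2, ha⟩, fun ⟨hg, h⟩ => ⟨⟨g, hg⟩, h, rfl⟩⟩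

theorem coe_mem_QG' {Q : Subgroup (Cz z)} {a : Cz z} : (a : G) ∈ QG' Q ↔ a ∈ Q :=
  ⟨fun ⟨b, hb, e⟩ => (Subtype.ext e : b = a) ▸ hb, fun h => ⟨a, h, rfl⟩⟩

/-- The setting. -/
structure Ctx {P : Type} [Group P] (Q M : Subgroup (Cz z)) [Q.Normal] {V : Type u} [AddCommGroup V]
    [Module K4 V] (L : Subgroup (V ≃ₗ[K4] V)) (f : L →* P) (h : V → V → K4) (π : Cz z → V)
    (Ly : Layer z (QG' Q)) : Prop where
  frame : Frame Q M L f h π
  le : Q ≤ M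
  index : M.index = 2
  normal : M.Normal
  outer : ∀ c : Cz z, c ∉ M → ∃ e : V ≃+ V,
    (∀ a ∈ Q, π (c * a * c⁻¹) = e (π a)) ∧ ∀ (k : K4) v, e (k • v) = K4.conj k • e v
  card : Nat.card Q = 8192
  std : Ly.Std

variable [Finite G] {P : Type} [Group P] [Finite P] {Q M : Subgroup (Cz z)} [hQn : Q.Normal] {V : Type u}
  [AddCommGroup V] [Module K4 V] [Finite V] {L : Subgroup (V ≃ₗ[K4] V)} {f : L →* P} {h : V → V → K4}
  {π : Cz z → V} {Ly : Layer z (QG' Q)}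

/-- The action of `Q` on the points. -/
def qPerm (Ly : Layer z (QG' Q)) : ↥(QG' Q) →* Equiv.Perm GolayPt :=
  M24.subtype.comp (Ly.ρ.comp (Subgroup.inclusion Ly.Q_le))

theorem qPerm_apply (q : ↥(QG' Q)) (p : GolayPt) :
    qPerm Ly q p = Ly.act ⟨q, Ly.Q_le q.2⟩ p := rfl

namespace Ctx

variable (C : Ctx Q M L f h π Ly)
include C

theorem z_sq : z * z = 1 := Ly.sq z Ly.z_mem

theorem mem_Cz_of_A {a : G} (ha : a ∈ Ly.A) : a ∈ Cz z :=
  Subgroup.mem_centralizer_singleton_iff.2 (Ly.comm a ha z Ly.z_mem)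

theorem mem_N_of_A {a : G} (ha : a ∈ Ly.A) : a ∈ Subgroup.normalizer (Ly.A : Set G) :=
  Subgroup.le_normalizer ha

theorem mem_N_of_Q {q : G} (hq : q ∈ QG' Q) : q ∈ Subgroup.normalizer (Ly.A : Set G) := Ly.Q_le hq

theorem comm_z_of_Q {q : G} (hq : q ∈ QG' Q) : q * z = z * q :=
  Subgroup.mem_centralizer_singleton_iff.1 (mem_QG'.1 hq).1

theorem QG_conj {g q : G} (hg : g * z = z * g) (hq : q ∈ QG' Q) : g * q * g⁻¹ ∈ QG' Q := by
  obtain ⟨hq1, hq2⟩ := mem_QG'.1 hq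
  exact coe_mem_QG'.2 (hQn.conj_mem _ hq2 ⟨g, Subgroup.mem_centralizer_singleton_iff.2 hg⟩)

theorem card_QG : Nat.card ↥(QG' Q) = 8192 := by
  rw [← C.card, Nat.card_congr (Subgroup.equivMapOfInjective Q _ (Cz z).subtype_injective).toEquiv]

theorem conj_pm {q w : G} (hq : q ∈ QG' Q) (hw : w ∈ QG' Q) :
    q * w * q⁻¹ = w ∨ q * w * q⁻¹ = w * z := by
  obtain ⟨hq1, hq2⟩ := mem_QG'.1 hq
  obtain ⟨hw1, hw2⟩ := mem_QG'.1 hw
  rcases C.frame.fiber hw2 (hQn.conj_mem _ hw2 (⟨q, hq1⟩ : Cz z)) (C.frame.map_conj_eq hq2 hw2).symm with e | e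
  · exact Or.inl (congrArg Subtype.val e)
  · exact Or.inr e

theorem comm_mem {q a : G} (hq : q ∈ QG' Q) (ha : a * z = z * a) : q * a * q⁻¹ * a⁻¹ ∈ QG' Q := by
  rw [show q * a * q⁻¹ * a⁻¹ = q * (a * q⁻¹ * a⁻¹) by group]
  exact mul_mem hq (C.QG_conj ha (inv_mem hq))

/-- Conjugation of the action of `Q` by a stabilising element. -/
theorem act_conj {g : ↥(Subgroup.normalizer (Ly.A : Set G))} (hg : (g : G) * z = z * (g : G))
    {q : G} (hq : q ∈ QG' Q) (p : GolayPt) :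
    Ly.act ⟨(g : G) * q * (g : G)⁻¹, Ly.Q_le (C.QG_conj hg hq)⟩ (Ly.act g p) =
      Ly.act g (Ly.act ⟨q, Ly.Q_le hq⟩ p) := by
  rw [show (⟨(g : G) * q * (g : G)⁻¹, Ly.Q_le (C.QG_conj hg hq)⟩ : ↥(Subgroup.normalizer (Ly.A : Set G))) =
    g * ⟨q, Ly.Q_le hq⟩ * g⁻¹ from rfl, Ly.act_mul, Ly.act_mul, ← Ly.act_mul g⁻¹ g, inv_mul_cancel, Ly.act_one]

/-- `Q` fixes every tetrad. -/
theorem tb_Q {q : G} (hq : q ∈ QG' Q) (p : GolayPt) : tb (Ly.act ⟨q, Ly.Q_le hq⟩ p) = tb p := by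
  by_contra hne
  let σ : ↥(QG' Q) → Fin 6 → Fin 6 := fun k i => tb ((qPerm Ly) k (tp i 0))
  have hσ : ∀ (k : ↥(QG' Q)) (r : GolayPt), tb ((qPerm Ly) k r) = σ k (tb r) := fun k r =>
    C.std.tb_act (C.comm_z_of_Q k.2) (p := tp (tb r) 0) (q := r) (by rw [tb_tp])
  letI : MulAction ↥(QG' Q) (Fin 6) :=
    { smul := fun k i => σ k i
      one_smul := fun i => by
        show tb ((qPerm Ly) 1 (tp i 0)) = i
        rw [map_one]; exact tb_tp i 0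
      mul_smul := fun k l i => by
        show tb ((qPerm Ly) (k * l) (tp i 0)) = σ k (σ l i)
        rw [map_mul, Equiv.Perm.mul_apply, hσ] }
  have hall : MulAction.orbit ↥(QG' Q) (tb p) = Set.univ := by
    refine Set.eq_univ_of_forall fun j => ?_
    rcases eq_or_ne j (tb p) with rfl | hj
    · exact MulAction.mem_orbit_self _
    obtain ⟨g, hg, hgp, hgr⟩ := C.std.exists_cross (p := p) (r := Ly.act ⟨q, Ly.Q_le hq⟩ p)
      (p' := p) (r' := tp j 0) hne (by rw [tb_tp]; exact hj)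
    refine ⟨⟨_, C.QG_conj hg hq⟩, ?_⟩
    show σ _ (tb p) = j
    rw [← hσ, qPerm_apply]
    conv_lhs => rw [← hgp]
    rw [C.act_conj hg hq, hgr, tb_tp]
  have h1 := MulAction.index_stabilizer ↥(QG' Q) (tb p)
  rw [hall, Set.ncard_univ, Nat.card_eq_fintype_card, Fintype.card_fin] at h1
  have h2 := Subgroup.index_dvd_card (MulAction.stabilizer ↥(QG' Q) (tb p))
  rw [h1, C.card_QG] at h2
  norm_num at h2

/-- Some element of `Q` fixes the second point of a cross pair and moves the first. -/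
theorem exists_fix_move {p r : GolayPt} (hpr : tb p ≠ tb r) :
    ∃ q, ∃ hq : q ∈ QG' Q, Ly.act ⟨q, Ly.Q_le hq⟩ r = r ∧ Ly.act ⟨q, Ly.Q_le hq⟩ p ≠ p := by
  by_contra hno
  push Not at hno
  have hall : ∀ p' r', tb p' ≠ tb r' → ∀ q, ∀ hq : q ∈ QG' Q,
      Ly.act ⟨q, Ly.Q_le hq⟩ r' = r' → Ly.act ⟨q, Ly.Q_le hq⟩ p' = p' := by
    intro p' r' h' q hq hr'
    obtain ⟨g, hg, hgp, hgr⟩ := C.std.exists_cross (p := p') (r := r') (p' := p) (r' := r) h'.symm hpr.symm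
    have h1 := C.act_conj hg hq r'
    rw [hgr, hr', hgr] at h1
    have h2 := C.act_conj hg hq p'
    rw [hgp, hno _ (C.QG_conj hg hq) h1] at h2
    exact (Ly.act_injective g (hgp.trans h2)).symm
  letI : MulAction ↥(QG' Q) GolayPt := MulAction.compHom GolayPt (qPerm Ly)
  have horb : (MulAction.orbit ↥(QG' Q) r).ncard ≤ 4 := by
    refine le_trans (Set.ncard_le_ncard (t := ↑(tet (tb r))) ?_ (Set.toFinite _))
      (by rw [Set.ncard_coe_finset, card_tet])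
    rintro x ⟨k, rfl⟩
    show _ ∈ (tet (tb r) : Set GolayPt)
    rw [Finset.mem_coe, mem_tet]
    exact C.tb_Q k.2 r
  have hstab : Nat.card (MulAction.stabilizer ↥(QG' Q) r) ≤ 128 := by
    rw [← Ly.card_inter]
    have hmem : ∀ k : MulAction.stabilizer ↥(QG' Q) r, ((k : ↥(QG' Q)) : G) ∈ Ly.A ⊓ QG' Q := by
      rintro ⟨k, hk⟩
      refine ⟨?_, k.2⟩
      have hkr : Ly.act ⟨k, Ly.Q_le k.2⟩ r = r := hk
      refine Ly.mem_A_of_act (g := ⟨k, Ly.Q_le k.2⟩) fun x => ?_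
      by_cases hx : tb x = tb r
      · have hp := hall p r hpr k k.2 hkr
        exact hall x p (by rw [hx]; exact hpr.symm) k k.2 hp
      · exact hall x r hx k k.2 hkr
    exact Nat.card_le_card_of_injective (fun k => (⟨_, hmem k⟩ : ↥(Ly.A ⊓ QG' Q)))
      fun a b e => Subtype.ext (Subtype.ext (congrArg Subtype.val e :))
  have h1 := Subgroup.card_mul_index (MulAction.stabilizer ↥(QG' Q) r)
  rw [MulAction.index_stabilizer, C.card_QG] at h1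
  have := Nat.mul_le_mul hstab horb
  omega

/-- The commutator of such an element with the cross duad. -/
theorem comm_duad {q : G} (hq : q ∈ QG' Q) (p r : GolayPt) :
    q * Ly.D p r * q⁻¹ * (Ly.D p r)⁻¹ =
      Ly.D (Ly.act ⟨q, Ly.Q_le hq⟩ p) (Ly.act ⟨q, Ly.Q_le hq⟩ r) * Ly.D p r := by
  have := Ly.conj_D ⟨q, Ly.Q_le hq⟩ p r
  rw [this, Ly.D_inv]

theorem cross_notMem {p r : GolayPt} (hpr : tb p ≠ tb r) : Ly.D p r ∉ QG' Q := by
  intro hmem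
  obtain ⟨q, hq, hqr, hqp⟩ := C.exists_fix_move hpr
  have hne : Ly.act ⟨q, Ly.Q_le hq⟩ p ≠ r := fun e => hpr (by rw [← C.tb_Q hq p, e])
  have hc := Ly.conj_D ⟨q, Ly.Q_le hq⟩ p r
  rw [hqr] at hc
  rcases C.conj_pm hq hmem with e | e
  · rcases Ly.D_eq_D hne (hc.symm.trans e) with ⟨e1, -⟩ | ⟨e1, -⟩
    exacts [hqp e1, hne e1]
  · refine Ly.D_not_conj hne ?_
    rw [← hc]
    show IsConj z (q * Ly.D p r * q⁻¹)
    rw [e, Ly.comm _ (Ly.D_mem p r) _ Ly.z_mem]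
    exact C.std.cross_conj hpr

theorem in_tet_mem {p p' : GolayPt} (h' : tb p' = tb p) : Ly.D p p' ∈ QG' Q := by
  rcases eq_or_ne p p' with rfl | hne
  · rw [Ly.D_self]; exact one_mem _
  obtain ⟨r, hr⟩ : ∃ r, tb p ≠ tb r := ⟨tp (tb p + 1) 0, by rw [tb_tp]; simp⟩
  obtain ⟨q, hq, hqr, hqp⟩ := C.exists_fix_move hr
  have hmem := C.comm_mem hq (Ly.comm _ (Ly.D_mem p r) z Ly.z_mem)
  rw [C.comm_duad hq, hqr, Ly.D_symm p r, Ly.D_trans] at hmem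
  obtain ⟨x, hx, hx0, hx1, hxt⟩ := Layer.exists_mates_two hqp (C.tb_Q hq p).symm
  obtain ⟨y, hy, hy0, hy1, hyt⟩ := Layer.exists_mates_two hne h'
  obtain ⟨s, hs⟩ : ∃ s, tb s ≠ tb (x 0) := ⟨tp (tb (x 0) + 1) 0, by rw [tb_tp]; simp⟩
  have hxt0 : ∀ k, tb (x k) = tb (x 0) := fun k => by rw [hxt k, hxt 0]
  have hyt0 : ∀ k, tb (y k) = tb (y 0) := fun k => by rw [hyt k, hyt 0]
  obtain ⟨t, ht⟩ : ∃ t, tb t ≠ tb (y 0) := ⟨tp (tb (y 0) + 1) 0, by rw [tb_tp]; simp⟩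
  have inj : ∀ (w : Fin 4 → GolayPt) (v : GolayPt), Function.Injective w → (∀ k, tb (w k) = tb (w 0)) →
      tb v ≠ tb (w 0) → Function.Injective (Fin.snoc w v : Fin 5 → GolayPt) := fun w v hw hwt hv => by
    refine Fin.snoc_injective_iff.2 ⟨hw, fun ⟨k, hk⟩ => hv ?_⟩
    rw [← hk, hwt]
  obtain ⟨g, hg, hgv⟩ := C.std.exists_stab (x := Fin.snoc x s) (y := Fin.snoc y t) (inj x s hx hxt0 hs)
    (inj y t hy hyt0 ht) (fun k => by
      rw [Fin.snoc_castSucc, hxt0 k, show (0 : Fin 5) = Fin.castSucc 0 from rfl, Fin.snoc_castSucc])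
    (fun k => by rw [Fin.snoc_castSucc, hyt0 k, show (0 : Fin 5) = Fin.castSucc 0 from rfl, Fin.snoc_castSucc])
  have h0 := hgv (Fin.castSucc 0)
  have h1 := hgv (Fin.castSucc 1)
  rw [Fin.snoc_castSucc, Fin.snoc_castSucc, hx0, hy0] at h0
  rw [Fin.snoc_castSucc, Fin.snoc_castSucc, hx1, hy1] at h1
  have := C.QG_conj hg hmem
  rw [Ly.conj_D, h0, h1] at this
  first
    | exact this
    | (rw [Ly.D_symm]; exact this)

theorem z_mem_Q : z ∈ QG' Q := by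
  have e : Ly.D (tp 0 0) (tp 0 1) * Ly.D (tp 0 2) (tp 0 3) = z :=
    C.std.z_eq ((tp_injective 0).ne (by decide)) ((tp_injective 0).ne (by decide))
      ((tp_injective 0).ne (by decide)) ((tp_injective 0).ne (by decide)) ((tp_injective 0).ne (by decide))
      ((tp_injective 0).ne (by decide)) (by rw [tb_tp, tb_tp]) (by rw [tb_tp, tb_tp]) (by rw [tb_tp, tb_tp])
  have := mul_mem (C.in_tet_mem (p := tp 0 0) (p' := tp 0 1) (by rw [tb_tp, tb_tp]))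
    (C.in_tet_mem (p := tp 0 2) (p' := tp 0 3) (by rw [tb_tp, tb_tp]))
  rw [e] at this
  exact this

theorem D_ne_z {p q : GolayPt} (hpq : p ≠ q) : Ly.D p q ≠ z := fun e =>
  Ly.D_not_conj hpq (isConj_iff.2 ⟨1, by rw [one_mul, inv_one, mul_one]; exact e.symm⟩)

/-- An element fixing every cross duad up to `z` fixes every point. -/
theorem mem_A_of_cross {g : ↥(Subgroup.normalizer (Ly.A : Set G))} (hg : (g : G) * z = z * (g : G))
    (htb : ∀ p, tb (Ly.act g p) = tb p)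
    (hfix : ∀ p r, tb p ≠ tb r → (g : G) * Ly.D p r * (g : G)⁻¹ = Ly.D p r ∨
      (g : G) * Ly.D p r * (g : G)⁻¹ = Ly.D p r * z) : (g : G) ∈ Ly.A := by
  refine Ly.mem_A_of_act fun p => ?_
  obtain ⟨r, hr⟩ : ∃ r, tb p ≠ tb r := ⟨tp (tb p + 1) 0, by rw [tb_tp]; simp⟩
  have hne : Ly.act g p ≠ Ly.act g r := (Ly.act_injective g).ne fun e => hr (by rw [e])
  rcases hfix p r hr with e | e <;> rw [Ly.conj_D] at e
  · rcases Ly.D_eq_D hne e with ⟨e1, -⟩ | ⟨e1, -⟩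
    · exact e1
    · exact absurd (by rw [← htb p, e1]) hr
  · exfalso
    refine Ly.D_not_conj hne ?_
    rw [e, Ly.comm _ (Ly.D_mem p r) _ Ly.z_mem]
    exact C.std.cross_conj hr

theorem A_subset_of {H : Subgroup G} (hD : ∀ p q, Ly.D p q ∈ H) : Ly.A ≤ H := by
  intro a ha
  obtain ⟨S, hS, rfl⟩ := Ly.ev_surj a ha
  clear ha
  induction hn : S.card using Nat.strong_induction_on generalizing S with
  | _ n ih =>
    subst hn
    rcases Nat.eq_zero_or_pos S.card with h0 | h0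
    · rw [Finset.card_eq_zero.1 h0, Ly.ev_empty]; exact one_mem _
    · obtain ⟨p, hp, q, hq, hpq⟩ := Finset.one_lt_card.1 (show 1 < S.card by rw [Nat.even_iff] at hS; omega)
      have hsub : ({p} : Finset GolayPt) ∆ {q} ⊆ S := by
        rw [Layer.pair_eq hpq]; simp [Finset.insert_subset_iff, hp, hq]
      have hcard : (S ∆ (({p} : Finset GolayPt) ∆ {q})).card < S.card := by
        have h1 := card_symmDiff S (({p} : Finset GolayPt) ∆ {q})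
        rw [Finset.inter_eq_right.2 hsub, Layer.pair_eq hpq, Finset.card_pair hpq] at h1
        rw [Layer.pair_eq hpq]
        omega
      have he := even_symmDiff hS (even_pair p q)
      have h2 := ih _ hcard _ he rfl
      have e := Ly.ev_symm _ _ he (even_pair p q)
      rw [symmDiff_assoc, symmDiff_self, symmDiff_bot] at e
      rw [e]
      exact mul_mem h2 (hD p q)

theorem exists_mem_M {g : ↥(Subgroup.normalizer (Ly.A : Set G))} (hg : (g : G) * z = z * (g : G))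
    {p r : GolayPt} (h1 : (⟨Ly.D p r, C.mem_Cz_of_A (Ly.D_mem p r)⟩ : Cz z) ∈ M) :
    (⟨Ly.D (Ly.act g p) (Ly.act g r), C.mem_Cz_of_A (Ly.D_mem _ _)⟩ : Cz z) ∈ M := by
  haveI := C.normal
  have := Subgroup.Normal.conj_mem ‹M.Normal› _ h1 ⟨g, Subgroup.mem_centralizer_singleton_iff.2 hg⟩
  convert this using 1
  exact Subtype.ext (Ly.conj_D g p r).symm

/-- `A ≤ M`. -/
theorem A_le_M {a : G} (ha : a ∈ Ly.A) : (⟨a, C.mem_Cz_of_A ha⟩ : Cz z) ∈ M := by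
  have hcross : ∀ p r, tb p ≠ tb r → (⟨Ly.D p r, C.mem_Cz_of_A (Ly.D_mem p r)⟩ : Cz z) ∈ M := by
    intro p r hpr
    by_contra hno
    have hout : ∀ p' r', tb p' ≠ tb r' → (⟨Ly.D p' r', C.mem_Cz_of_A (Ly.D_mem p' r')⟩ : Cz z) ∉ M := by
      intro p' r' h' hm
      obtain ⟨g, hg, hgp, hgr⟩ := C.std.exists_cross (p := p') (r := r') (p' := p) (r' := r) h'.symm hpr.symm
      have := C.exists_mem_M hg hm
      simp only [hgp, hgr] at this
      exact hno this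
    obtain ⟨s, hs1, hs2⟩ : ∃ s, tb p ≠ tb s ∧ tb r ≠ tb s := by
      have : ∀ i j : Fin 6, ∃ k, i ≠ k ∧ j ≠ k := by decide
      obtain ⟨k, hk⟩ := this (tb p) (tb r)
      exact ⟨tp k 0, by rw [tb_tp]; exact hk⟩
    refine hout p s hs1 ?_
    have := (Subgroup.mul_mem_iff_of_index_two C.index (a := ⟨Ly.D p r, C.mem_Cz_of_A (Ly.D_mem p r)⟩)
      (b := ⟨Ly.D r s, C.mem_Cz_of_A (Ly.D_mem r s)⟩)).2 (iff_of_false (hout p r hpr) (hout r s hs2))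
    convert this using 1
    exact Subtype.ext (Ly.D_trans p r s).symm
  suffices h : Ly.A ≤ M.map (Cz z).subtype by
    obtain ⟨b, hb, e⟩ := h ha
    exact (Subtype.ext e : b = ⟨a, C.mem_Cz_of_A ha⟩) ▸ hb
  refine C.A_subset_of fun p q => ?_
  by_cases hpq : tb q = tb p
  · obtain ⟨b, hb, e⟩ := C.in_tet_mem hpq
    exact ⟨b, C.le hb, e⟩
  · exact ⟨_, hcross p q (Ne.symm hpq), rfl⟩

/-- A linear map for an element of `A`. -/
theorem exists_lin {a : G} (ha : a ∈ Ly.A) : ∃ g ∈ L, ∀ q ∈ Q,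
    π (⟨a, C.mem_Cz_of_A ha⟩ * q * (⟨a, C.mem_Cz_of_A ha⟩ : Cz z)⁻¹) = g (π q) :=
  C.frame.lift _ (C.A_le_M ha)

/-- An element of `Q` centralising `A ∩ Q` lies in `A`. -/
theorem mem_A_of_comm {q : G} (hq : q ∈ QG' Q)
    (hc : ∀ w ∈ Ly.A ⊓ QG' Q, q * w = w * q) : q ∈ Ly.A := by
  refine Ly.mem_A_of_act (g := ⟨q, Ly.Q_le hq⟩) fun p => ?_
  obtain ⟨x, hx, rfl, hxt⟩ := Layer.exists_mates p
  have h : ∀ k : Fin 4, k ≠ 0 → Ly.D (Ly.act ⟨q, Ly.Q_le hq⟩ (x 0)) (Ly.act ⟨q, Ly.Q_le hq⟩ (x k)) =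
      Ly.D (x 0) (x k) := fun k _ => by
    rw [← Ly.conj_D]
    exact mul_inv_eq_iff_eq_mul.2 (hc _ ⟨Ly.D_mem _ _, C.in_tet_mem (hxt k)⟩)
  have hne : ∀ k : Fin 4, k ≠ 0 → Ly.act ⟨q, Ly.Q_le hq⟩ (x 0) ≠ Ly.act ⟨q, Ly.Q_le hq⟩ (x k) :=
    fun k hk => (Ly.act_injective _).ne (hx.ne hk.symm)
  rcases Ly.D_eq_D (hne 1 (by decide)) (h 1 (by decide)) with ⟨e, -⟩ | ⟨e, -⟩
  · exact e
  rcases Ly.D_eq_D (hne 2 (by decide)) (h 2 (by decide)) with ⟨e', -⟩ | ⟨e', -⟩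
  · exact e'
  · exact absurd (hx (e.symm.trans e')) (by decide)

/-- The image of `A ∩ Q` is closed under scalars. -/
theorem smul_mem {a : Cz z} (haQ : a ∈ Q) (haA : (a : G) ∈ Ly.A) (k : K4) :
    ∃ b ∈ Q, (b : G) ∈ Ly.A ∧ π b = k • π a := by
  obtain ⟨b, hb, hbv⟩ := C.frame.surj (k • π a)
  refine ⟨b, hb, C.mem_A_of_cross (g := ⟨b, Ly.Q_le (coe_mem_QG'.2 hb)⟩) (C.comm_z_of_Q (coe_mem_QG'.2 hb))
    (fun p => C.tb_Q (coe_mem_QG'.2 hb) p) (fun p r _ => ?_), hbv⟩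
  show (b : G) * Ly.D p r * (b : G)⁻¹ = Ly.D p r ∨ (b : G) * Ly.D p r * (b : G)⁻¹ = Ly.D p r * z
  set d : Cz z := ⟨Ly.D p r, C.mem_Cz_of_A (Ly.D_mem p r)⟩
  obtain ⟨g, -, hg⟩ := C.exists_lin (Ly.D_mem p r)
  have hfix : g (π a) = π a := by
    rw [← hg a haQ]
    congr 1
    refine Subtype.ext ?_
    show Ly.D p r * a * (Ly.D p r)⁻¹ = a
    rw [Ly.comm _ (Ly.D_mem p r) _ haA, mul_inv_cancel_right]
  have hb' : π (d * b * d⁻¹) = π b := by rw [hg b hb, hbv, map_smul, hfix]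
  rcases C.frame.fiber hb (hQn.conj_mem b hb d) hb'.symm with e | e
  · left
    have e' : Ly.D p r * (b : G) * (Ly.D p r)⁻¹ = b := congrArg Subtype.val e
    exact mul_inv_eq_iff_eq_mul.2 (mul_inv_eq_iff_eq_mul.1 e').symm
  · right
    have e' : Ly.D p r * (b : G) * (Ly.D p r)⁻¹ = (b : G) * z := e
    have hcd : (Ly.D p r) * (b : G) = (b : G) * z * Ly.D p r := mul_inv_eq_iff_eq_mul.1 e'
    refine mul_inv_eq_iff_eq_mul.2 ?_
    rw [mul_assoc, ← C.comm_z_of_Q (coe_mem_QG'.2 hb), ← mul_assoc, hcd, mul_assoc _ (Ly.D p r) z,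
      Ly.comm _ (Ly.D_mem p r) _ Ly.z_mem, mul_assoc, ← mul_assoc z z, C.z_sq, one_mul]

/-- A vector orthogonal to the image of `A ∩ Q` lies in it. -/
theorem mem_W_of_orth {u : V} (hu : ∀ w : Cz z, w ∈ Q → (w : G) ∈ Ly.A → h u (π w) = 0) :
    ∃ b ∈ Q, (b : G) ∈ Ly.A ∧ π b = u := by
  obtain ⟨b, hb, rfl⟩ := C.frame.surj u
  refine ⟨b, hb, C.mem_A_of_comm (coe_mem_QG'.2 hb) ?_, rfl⟩
  rintro w ⟨hwA, hwQ⟩
  obtain ⟨hw1, hw2⟩ := mem_QG'.1 hwQ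
  have := (C.frame.comm b hb ⟨w, hw1⟩ hw2).2 (by rw [hu _ hw2 hwA]; rfl)
  exact congrArg Subtype.val this

theorem exists_nonzero : ∃ w ∈ Q, (w : G) ∈ Ly.A ∧ π w ≠ 0 := by
  have h0 : tb (tp 0 1) = tb (tp 0 0) := by rw [tb_tp, tb_tp]
  obtain ⟨h1, h2⟩ := mem_QG'.1 (C.in_tet_mem h0)
  exact ⟨⟨_, h1⟩, h2, Ly.D_mem _ _, C.frame.ne_zero_of h2 (Ly.D_ne_one ((tp_injective 0).ne (by decide)))
    (C.D_ne_z ((tp_injective 0).ne (by decide)))⟩

/-- The centraliser of `A ∩ Q` is `A`. -/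
theorem cent {c : G} (hc : ∀ w ∈ Ly.A ⊓ QG' Q, c * w = w * c) : c ∈ Ly.A := by
  haveI := C.normal
  have main : ∀ c : G, (∀ w ∈ Ly.A ⊓ QG' Q, c * w = w * c) → ∀ a ∈ Ly.A, c * a * c⁻¹ ∈ Ly.A := by
    intro c hc a ha
    have hcz : c ∈ Cz z := Subgroup.mem_centralizer_singleton_iff.2 (hc z ⟨Ly.z_mem, C.z_mem_Q⟩)
    set c' : Cz z := ⟨c, hcz⟩
    have hcfix : ∀ w : Cz z, w ∈ Q → (w : G) ∈ Ly.A → c' * w * c'⁻¹ = w := fun w hw hwA =>
      mul_inv_eq_iff_eq_mul.2 (Subtype.ext (hc w ⟨hwA, coe_mem_QG'.2 hw⟩))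
    have hcM : c' ∈ M := by
      by_contra hno
      obtain ⟨e, he, hes⟩ := C.outer c' hno
      obtain ⟨w, hw, hwA, hw0⟩ := C.exists_nonzero
      obtain ⟨b, hb, hbA, hbv⟩ := C.smul_mem hw hwA .om
      have h1 := he b hb
      rw [hcfix b hb hbA, hbv, hes, ← he w hw, hcfix w hw hwA] at h1
      have h2 : ((K4.om : K4) + K4.conj .om) • π w = 0 := by rw [add_smul, ← h1, C.frame.add_self]
      rw [show (K4.om : K4) + K4.conj .om = 1 from rfl, one_smul] at h2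
      exact hw0 h2
    obtain ⟨g, hg, hgv⟩ := C.frame.lift c' hcM
    obtain ⟨g', hg', hgv'⟩ := C.exists_lin ha
    set a' : Cz z := ⟨a, C.mem_Cz_of_A ha⟩
    have hafix : ∀ w : Cz z, w ∈ Q → (w : G) ∈ Ly.A → a' * w * a'⁻¹ = w := fun w hw hwA =>
      mul_inv_eq_iff_eq_mul.2 (Subtype.ext (Ly.comm a ha w hwA))
    have himg : ∀ k ∈ L, (∀ w : Cz z, w ∈ Q → (w : G) ∈ Ly.A → k (π w) = π w) →
        ∀ u, ∃ b ∈ Q, (b : G) ∈ Ly.A ∧ π b = k u + u := by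
      intro k hk hkfix u
      refine C.mem_W_of_orth fun w hw hwA => ?_
      rw [C.frame.cover.add_left]
      conv_lhs => arg 1; rw [← hkfix w hw hwA]
      rw [C.frame.cover.pres ⟨k, hk⟩, K4.add_self]
    have hgfix : ∀ w : Cz z, w ∈ Q → (w : G) ∈ Ly.A → g (π w) = π w := fun w hw hwA => by
      rw [← hgv w hw, hcfix w hw hwA]
    have hgfix' : ∀ w : Cz z, w ∈ Q → (w : G) ∈ Ly.A → g' (π w) = π w := fun w hw hwA => by
      rw [← hgv' w hw, hafix w hw hwA]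
    have hcomm : ∀ v, g (g' v) = g' (g v) := fun v => by
      obtain ⟨b, hb, hbA, hbv⟩ := himg g' hg' hgfix' v
      obtain ⟨b', hb', hbA', hbv'⟩ := himg g hg hgfix v
      have e1 : g' v = v + π b := by rw [hbv, add_comm (g' v) v, ← add_assoc, C.frame.add_self, zero_add]
      have e2 : g v = v + π b' := by rw [hbv', add_comm (g v) v, ← add_assoc, C.frame.add_self, zero_add]
      rw [e1, e2, map_add, map_add, hgfix b hb hbA, hgfix' b' hb' hbA', e1, e2]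
      abel
    have hk : c' * a' * c'⁻¹ * a'⁻¹ ∈ Q := by
      refine C.frame.faithful _ fun q hq => ?_
      have hq2 : (a' * c')⁻¹ * q * (a' * c')⁻¹⁻¹ ∈ Q := hQn.conj_mem q hq _
      set q2 := (a' * c')⁻¹ * q * (a' * c')⁻¹⁻¹ with hq2def
      have e1 : c' * a' * c'⁻¹ * a'⁻¹ * q * (c' * a' * c'⁻¹ * a'⁻¹)⁻¹ = c' * (a' * q2 * a'⁻¹) * c'⁻¹ := by
        rw [hq2def]; group
      have e2 : q = a' * (c' * q2 * c'⁻¹) * a'⁻¹ := by rw [hq2def]; group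
      rw [e1, hgv _ (hQn.conj_mem q2 hq2 a'), hgv' q2 hq2, hcomm, ← hgv q2 hq2,
        ← hgv' _ (hQn.conj_mem q2 hq2 c'), ← e2]
    have hk' : c * a * c⁻¹ * a⁻¹ ∈ Ly.A := by
      refine C.mem_A_of_comm (coe_mem_QG'.2 hk) fun w hw => ?_
      show c * a * c⁻¹ * a⁻¹ * w = w * (c * a * c⁻¹ * a⁻¹)
      have k1 : Commute c w := hc w hw
      have k2 : Commute a w := Ly.comm a ha w hw.1
      exact ((((k1.mul_left k2).mul_left k1.inv_left).mul_left k2.inv_left)).eq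
    simpa using mul_mem hk' ha
  have hci : ∀ w ∈ Ly.A ⊓ QG' Q, c⁻¹ * w = w * c⁻¹ := fun w hw => (Commute.inv_left (hc w hw)).eq
  have hN : c ∈ Subgroup.normalizer (Ly.A : Set G) := by
    rw [Subgroup.mem_normalizer_iff]
    intro a
    refine ⟨main c hc a, fun ha => ?_⟩
    have := main c⁻¹ hci _ ha
    rwa [show c⁻¹ * (c * a * c⁻¹) * c⁻¹⁻¹ = a by group] at this
  refine Ly.mem_A_of_act (g := ⟨c, hN⟩) fun p => ?_
  obtain ⟨x, hx, rfl, hxt⟩ := Layer.exists_mates p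
  have h : ∀ k : Fin 4, Ly.D (Ly.act ⟨c, hN⟩ (x 0)) (Ly.act ⟨c, hN⟩ (x k)) = Ly.D (x 0) (x k) := fun k => by
    rw [← Ly.conj_D]
    exact mul_inv_eq_iff_eq_mul.2 (hc _ ⟨Ly.D_mem _ _, C.in_tet_mem (hxt k)⟩)
  have hne : ∀ k : Fin 4, k ≠ 0 → Ly.act ⟨c, hN⟩ (x 0) ≠ Ly.act ⟨c, hN⟩ (x k) :=
    fun k hk => (Ly.act_injective _).ne (hx.ne hk.symm)
  rcases Ly.D_eq_D (hne 1 (by decide)) (h 1) with ⟨e, -⟩ | ⟨e, -⟩
  · exact e
  rcases Ly.D_eq_D (hne 2 (by decide)) (h 2) with ⟨e', -⟩ | ⟨e', -⟩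
  · exact e'
  · exact absurd (hx (e.symm.trans e')) (by decide)

end Ctx

end CfsgLib.FischerLarge.U62
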