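import Cfsg.Agent.Lib.FischerLarge.U62.Model

/-!
FischerLarge/U62: normalised representatives of the isotropic points of the six-dimensional space.
-/

set_option autoImplicit false
set_option maxRecDepth 100000

namespace CfsgLib.FischerLarge.U62

/-- All vectors of the six-dimensional space. -/
def allV6 : List V6 :=
  let ks : List K4 := [0, 1, .om, .om2]
  ks.flatMap fun a => ks.flatMap fun b => ks.flatMap fun c =>
    ks.flatMap fun d => ks.flatMap fun e => ks.map fun f => ![a, b, c, d, e, f]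

theorem mem_k4 : ∀ a : K4, a ∈ ([0, 1, .om, .om2] : List K4) := by decide

theorem mem_allV6 (v : V6) : v ∈ allV6 := by
  simp only [allV6, List.mem_flatMap, List.mem_map]
  refine ⟨v 0, mem_k4 _, v 1, mem_k4 _, v 2, mem_k4 _, v 3, mem_k4 _, v 4, mem_k4 _, v 5, mem_k4 _, ?_⟩
  funext i
  fin_cases i <;> rfl

/-- The first nonzero coordinate. -/
def lead6 (v : V6) : K4 :=
  if v 0 ≠ 0 then v 0 else if v 1 ≠ 0 then v 1 else if v 2 ≠ 0 then v 2
    else if v 3 ≠ 0 then v 3 else if v 4 ≠ 0 then v 4 else v 5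

theorem lead6_ne_zero {v : V6} (hv : v ≠ 0) : lead6 v ≠ 0 := by
  intro h
  refine hv (funext fun i => ?_)
  simp only [lead6] at h
  split_ifs at h <;> fin_cases i <;> simp_all

theorem lead6_smul {a : K4} (ha : a ≠ 0) (v : V6) : lead6 (a • v) = a * lead6 v := by
  simp only [lead6, Pi.smul_apply, smul_eq_mul, ne_eq, mul_eq_zero, ha, false_or]
  split_ifs <;> rfl

/-- The normalised isotropic vectors. -/
def points6 : List V6 := allV6.filter fun v => decide (lead6 v = 1 ∧ herm6 v v = 0)

/-- The base isotropic vector. -/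
def baseV6 : V6 := ![1, 1, 0, 0, 0, 0]

/-- The normalised isotropic vectors orthogonal to the base one, other than it. -/
def perp6 : List V6 := points6.filter fun v => decide (herm6 v baseV6 = 0 ∧ v ≠ baseV6)

theorem length_points6 : points6.length = 693 := by decide +kernel

theorem length_perp6 : perp6.length = 180 := by decide +kernel

theorem exists_point6 {v : V6} (hv : Iso6 v) :
    (lead6 v)⁻¹ • v ∈ points6 ∧ lead6 v ≠ 0 := by
  have h := lead6_ne_zero hv.1
  refine ⟨List.mem_filter.2 ⟨mem_allV6 _, decide_eq_true ⟨?_, ?_⟩⟩, h⟩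
  · rw [lead6_smul (inv_ne_zero h), inv_mul_cancel₀ h]
  · rw [herm6_smul_left, herm6_smul_right, hv.2, mul_zero, mul_zero]

theorem perp6_of {v : V6} (hv : Iso6 v) (h : herm6 v baseV6 = 0) (hne : ∀ a : K4, v ≠ a • baseV6) :
    (lead6 v)⁻¹ • v ∈ perp6 := by
  obtain ⟨hm, h0⟩ := exists_point6 hv
  refine List.mem_filter.2 ⟨hm, decide_eq_true ⟨by rw [herm6_smul_left, h, mul_zero], fun e => ?_⟩⟩
  refine hne (lead6 v) ?_
  rw [← e, smul_smul, mul_inv_cancel₀ h0, one_smul]

theorem baseV6_eq : baseV6 = ptE.1 := rfl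

end CfsgLib.FischerLarge.U62
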