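import Cfsg.Agent.Lib.FischerLarge.U62.Perms

/-!
FischerLarge/U62: an element inducing a scalar on `Q/⟨z⟩`; vectors of the six tetrads; a cross duad moves at
least a plane; a triangle of cross duads determines `A`.
-/

set_option autoImplicit false
set_option linter.style.haveILetI false
set_option linter.unusedSectionVars false

namespace CfsgLib.FischerLarge.U62

open scoped Classical symmDiff
open Cfsg CfsgLib.Golay

universe u

variable {G : Type u} [Group G] {z : G}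
variable [Finite G] {P : Type} [Group P] [Finite P] {Q M : Subgroup (Cz z)} [hQn : Q.Normal] {V : Type u}
  [AddCommGroup V] [Module K4 V] [Finite V] {L : Subgroup (V ≃ₗ[K4] V)} {f : L →* P} {h : V → V → K4}
  {π : Cz z → V} {Ly : Layer z (QG' Q)}

/-- The vector of an element of the radical. -/
noncomputable def vecG (π : Cz z → V) (w : G) : V := if hw : w ∈ Cz z then π ⟨w, hw⟩ else 0

theorem vecG_coe (π : Cz z → V) (a : Cz z) : vecG π (a : G) = π a := dif_pos a.2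

namespace Ctx

variable (C : Ctx Q M L f h π Ly)
include C

theorem vecG_mul {a b : G} (ha : a ∈ QG' Q) (hb : b ∈ QG' Q) :
    vecG π (a * b) = vecG π a + vecG π b := by
  obtain ⟨ha1, ha2⟩ := mem_QG'.1 ha
  obtain ⟨hb1, hb2⟩ := mem_QG'.1 hb
  rw [show a * b = ((⟨a, ha1⟩ * ⟨b, hb1⟩ : Cz z) : G) from rfl, vecG_coe,
    C.frame.map_mul _ ha2 _ hb2, show vecG π a = π ⟨a, ha1⟩ from dif_pos ha1,
    show vecG π b = π ⟨b, hb1⟩ from dif_pos hb1]

theorem vecG_eq_zero {a : G} (ha : a ∈ QG' Q) : vecG π a = 0 ↔ a = 1 ∨ a = z := by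
  obtain ⟨ha1, ha2⟩ := mem_QG'.1 ha
  rw [show vecG π a = π ⟨a, ha1⟩ from dif_pos ha1]
  exact C.frame.ker _ ha2

theorem vecG_z : vecG π z = 0 := (C.vecG_eq_zero C.z_mem_Q).2 (Or.inr rfl)

/-- Three duads in three tetrads have no relation. -/
theorem no_relation {S : Finset GolayPt} (hS : Even S.card) (h0 : S.card ≠ 0) (h8 : S.card < 8) {i : Fin 6}
    (h1 : S.card + 4 < 8 + 2 * (S ∩ tet i).card) (h2 : S ≠ tet i) (hSQ : Ly.ev S ∈ QG' Q) :
    vecG π (Ly.ev S) ≠ 0 := by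
  rw [Ne, C.vecG_eq_zero hSQ]
  rintro (e | e)
  · exact h0 (Finset.card_eq_zero.2 (Layer.small_code ((Ly.ev_code S hS).1 e) h8))
  · have e2 : Ly.ev S = Ly.ev (tet i) := e.trans (C.std.symm.trans
      ((Ly.eq_iff (by rw [card_tet]; decide) (by rw [card_tet]; decide)).2 (by rw [symmDiff_comm]; exact tet_code i)))
    rw [Ly.eq_iff hS (by rw [card_tet]; decide)] at e2
    have hc := card_symmDiff S (tet i)
    rw [card_tet] at hc
    exact h2 (symmDiff_eq_bot.1 ((Layer.small_code e2 (by omega)).trans Finset.bot_eq_empty.symm))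

theorem vec_duad {p p' : GolayPt} (hne : p ≠ p') (h' : tb p' = tb p) : vecG π (Ly.D p p') ≠ 0 := by
  rw [Ne, C.vecG_eq_zero (C.in_tet_mem h')]
  rintro (e | e)
  exacts [Ly.D_ne_one hne e, C.D_ne_z hne e]

theorem vec_two {p p' r r' : GolayPt} (hp : p ≠ p') (hr : r ≠ r') (tp' : tb p' = tb p) (tr' : tb r' = tb r)
    (hpr : tb p ≠ tb r) : vecG π (Ly.D p p') + vecG π (Ly.D r r') ≠ 0 := by
  have n : ∀ a b : GolayPt, tb a ≠ tb b → a ≠ b := fun a b e h => e (by rw [h])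
  have n1 := n p r hpr
  have n2 := n p r' (by rw [tr']; exact hpr)
  have n3 := n p' r (by rw [tp']; exact hpr)
  have n4 := n p' r' (by rw [tp', tr']; exact hpr)
  rw [← C.vecG_mul (C.in_tet_mem tp') (C.in_tet_mem tr'), Ly.quad_eq hp n1 n2 n3 n4 hr]
  have hc : ({p, p', r, r'} : Finset GolayPt).card = 4 := by simp [hp, hr, n1, n2, n3, n4]
  have hsub : ({p, p'} : Finset GolayPt) ⊆ ({p, p', r, r'} : Finset GolayPt) ∩ tet (tb p) := by
    intro x hx
    simp only [Finset.mem_insert, Finset.mem_singleton] at hx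
    rcases hx with rfl | rfl <;> simp [mem_tet, tp']
  have hc2 := Finset.card_le_card hsub
  rw [Finset.card_pair hp] at hc2
  refine C.no_relation (i := tb p) (by rw [hc]; decide) (by omega) (by omega) (by omega) (fun e => ?_) ?_
  · exact hpr ((mem_tet.1 (e ▸ (by simp : r ∈ ({p, p', r, r'} : Finset GolayPt)))).symm)
  · rw [← Ly.quad_eq hp n1 n2 n3 n4 hr]; exact mul_mem (C.in_tet_mem tp') (C.in_tet_mem tr')

theorem vec_three {p p' r r' s s' : GolayPt} (hp : p ≠ p') (hr : r ≠ r') (hs : s ≠ s') (tp' : tb p' = tb p)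
    (tr' : tb r' = tb r) (ts' : tb s' = tb s) (hpr : tb p ≠ tb r) (hps : tb p ≠ tb s) (hrs : tb r ≠ tb s) :
    vecG π (Ly.D p p') + vecG π (Ly.D r r') + vecG π (Ly.D s s') ≠ 0 := by
  have n : ∀ a b : GolayPt, tb a ≠ tb b → a ≠ b := fun a b e h => e (by rw [h])
  have n1 := n p r hpr
  have n2 := n p r' (by rw [tr']; exact hpr)
  have n3 := n p' r (by rw [tp']; exact hpr)
  have n4 := n p' r' (by rw [tp', tr']; exact hpr)
  have n5 := n p s hps
  have n6 := n p s' (by rw [ts']; exact hps)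
  have n7 := n p' s (by rw [tp']; exact hps)
  have n8 := n p' s' (by rw [tp', ts']; exact hps)
  have n9 := n r s hrs
  have n10 := n r s' (by rw [ts']; exact hrs)
  have n11 := n r' s (by rw [tr']; exact hrs)
  have n12 := n r' s' (by rw [tr', ts']; exact hrs)
  rw [← C.vecG_mul (C.in_tet_mem tp') (C.in_tet_mem tr'),
    ← C.vecG_mul (mul_mem (C.in_tet_mem tp') (C.in_tet_mem tr')) (C.in_tet_mem ts')]
  have he : Ly.D p p' * Ly.D r r' * Ly.D s s' = Ly.ev ({p, p', r, r', s, s'} : Finset GolayPt) := by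
    rw [Ly.quad_eq hp n1 n2 n3 n4 hr, Layer.D, Layer.pair_eq hs,
      ← Ly.ev_symm _ _ (by simp [hp, hr, n1, n2, n3, n4]; decide) (by rw [Finset.card_pair hs]; decide),
      Disjoint.symmDiff_eq_sup (by simp [n5.symm, n6.symm, n7.symm, n8.symm, n9.symm, n10.symm, n11.symm, n12.symm]),
      Finset.sup_eq_union]
    congr 1
    ext x
    simp only [Finset.mem_union, Finset.mem_insert, Finset.mem_singleton]
    tauto
  have hc : ({p, p', r, r', s, s'} : Finset GolayPt).card = 6 := by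
    simp [hp, hr, hs, n1, n2, n3, n4, n5, n6, n7, n8, n9, n10, n11, n12]
  have hsub : ({p, p'} : Finset GolayPt) ⊆ ({p, p', r, r', s, s'} : Finset GolayPt) ∩ tet (tb p) := by
    intro x hx
    simp only [Finset.mem_insert, Finset.mem_singleton] at hx
    rcases hx with rfl | rfl <;> simp [mem_tet, tp']
  have hc2 := Finset.card_le_card hsub
  rw [Finset.card_pair hp] at hc2
  rw [he]
  refine C.no_relation (i := tb p) (by rw [hc]; decide) (by omega) (by omega) (by omega) (fun e => ?_) ?_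
  · rw [e, card_tet] at hc; norm_num at hc
  · rw [← he]; exact mul_mem (mul_mem (C.in_tet_mem tp') (C.in_tet_mem tr')) (C.in_tet_mem ts')

end Ctx

/-- An element inducing the scalar `ω`. -/
def ScalarElt (Q : Subgroup (Cz z)) (π : Cz z → V) (x : Cz z) : Prop :=
  x ^ 3 = 1 ∧ ∀ q ∈ Q, π (x * q * x⁻¹) = (K4.om : K4) • π q

namespace Ctx

variable (C : Ctx Q M L f h π Ly) {x : Cz z} (hx : ScalarElt Q π x)
include C hx

theorem x_comm_z : (x : G) * z = z * (x : G) := Subgroup.mem_centralizer_singleton_iff.1 x.2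

theorem x_conj_A {a : G} (ha : a ∈ Ly.A) : (x : G) * a * (x : G)⁻¹ ∈ Ly.A := by
  refine C.cent fun w hw => ?_
  obtain ⟨hw1, hw2⟩ := mem_QG'.1 hw.2
  set w' : Cz z := ⟨w, hw1⟩
  have hx3 : x * x * x = 1 := by rw [← hx.1, pow_succ, pow_two]
  have hq2 : x⁻¹ * w' * x⁻¹⁻¹ ∈ Q := hQn.conj_mem _ hw2 _
  obtain ⟨b, hb, hbA, hbv⟩ := C.smul_mem hw2 hw.1 .om2
  have e : π (x⁻¹ * w' * x⁻¹⁻¹) = π b := by
    have h1 := hx.2 _ hq2
    rw [show x * (x⁻¹ * w' * x⁻¹⁻¹) * x⁻¹ = w' by group] at h1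
    rw [hbv, h1, smul_smul, show (K4.om2 : K4) * K4.om = 1 from rfl, one_smul]
  have hmem : ((x⁻¹ * w' * x⁻¹⁻¹ : Cz z) : G) ∈ Ly.A := by
    rcases C.frame.fiber hb hq2 e.symm with e' | e'
    · rw [e']; exact hbA
    · rw [e']; exact mul_mem hbA Ly.z_mem
  have hc := Ly.comm a ha _ hmem
  simp only [Subgroup.coe_mul, Subgroup.coe_inv] at hc
  calc (x : G) * a * (x : G)⁻¹ * w = (x : G) * (a * ((x : G)⁻¹ * w * (x : G)⁻¹⁻¹)) * (x : G)⁻¹ := by group
    _ = (x : G) * (((x : G)⁻¹ * w * (x : G)⁻¹⁻¹) * a) * (x : G)⁻¹ := by rw [hc]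
    _ = w * ((x : G) * a * (x : G)⁻¹) := by group

theorem x_mem_N : (x : G) ∈ Subgroup.normalizer (Ly.A : Set G) := by
  have hx3 : (x : G) * (x : G) * (x : G) = 1 := by
    have := congrArg Subtype.val hx.1
    rwa [Subgroup.coe_pow, pow_succ, pow_two, OneMemClass.coe_one] at this
  rw [Subgroup.mem_normalizer_iff]
  refine fun a => ⟨C.x_conj_A hx, fun ha => ?_⟩
  have h2 := C.x_conj_A hx (C.x_conj_A hx ha)
  rwa [show (x : G) * ((x : G) * ((x : G) * a * (x : G)⁻¹) * (x : G)⁻¹) * (x : G)⁻¹ =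
    (x : G) * (x : G) * (x : G) * a * ((x : G) * (x : G) * (x : G))⁻¹ by group, hx3, one_mul, inv_one, mul_one] at h2

/-- The normalising element. -/
def xN : ↥(Subgroup.normalizer (Ly.A : Set G)) := ⟨x, C.x_mem_N hx⟩

theorem x_cube_act (p : GolayPt) : Ly.act (C.xN hx) (Ly.act (C.xN hx) (Ly.act (C.xN hx) p)) = p := by
  rw [← Ly.act_mul, ← Ly.act_mul, show C.xN hx * C.xN hx * C.xN hx = 1 from Subtype.ext (by
    have := congrArg Subtype.val hx.1
    rwa [Subgroup.coe_pow, pow_succ, pow_two, OneMemClass.coe_one] at this), Ly.act_one]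

theorem x_vec {w : G} (hw : w ∈ QG' Q) : vecG π ((x : G) * w * (x : G)⁻¹) = (K4.om : K4) • vecG π w := by
  obtain ⟨hw1, hw2⟩ := mem_QG'.1 hw
  rw [show (x : G) * w * (x : G)⁻¹ = ((x * ⟨w, hw1⟩ * x⁻¹ : Cz z) : G) from rfl, vecG_coe, hx.2 _ hw2,
    show vecG π w = π ⟨w, hw1⟩ from dif_pos hw1]

/-- The conjugates of `x` by stabilising elements are `x^±` modulo `Q`. -/
theorem x_normal {g : G} (hg : g * z = z * g) :
    g * (x : G) * g⁻¹ * (x : G)⁻¹ ∈ QG' Q ∨ g * (x : G) * g⁻¹ * (x : G) ∈ QG' Q := by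
  set g' : Cz z := ⟨g, Subgroup.mem_centralizer_singleton_iff.2 hg⟩
  obtain ⟨e, he, hes⟩ := C.frame.semi g'
  have hk : ∀ (m : K4), (∀ v, e ((K4.om : K4) • v) = m • e v) → ∀ q ∈ Q,
      π (g' * x * g'⁻¹ * q * (g' * x * g'⁻¹)⁻¹) = m • π q := by
    intro m hm q hq
    have h1 := he _ (hQn.conj_mem _ (hQn.conj_mem q hq g'⁻¹) x)
    rw [hx.2 _ (hQn.conj_mem q hq g'⁻¹), hm, ← he _ (hQn.conj_mem q hq g'⁻¹),
      show g' * (g'⁻¹ * q * g'⁻¹⁻¹) * g'⁻¹ = q by group] at h1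
    rw [← h1]
    congr 1; group
  rcases hes with hlin | hsemi
  · left
    refine (coe_mem_QG' (a := g' * x * g'⁻¹ * x⁻¹)).2 (C.frame.faithful _ fun q hq => ?_)
    have := hk .om (fun v => hlin _ v) _ (hQn.conj_mem q hq x⁻¹)
    have h2 := hx.2 _ (hQn.conj_mem q hq x⁻¹)
    rw [show x * (x⁻¹ * q * x⁻¹⁻¹) * x⁻¹ = q by group] at h2
    rw [← h2] at this
    rw [← this]
    congr 1; group
  · right
    refine (coe_mem_QG' (a := g' * x * g'⁻¹ * x)).2 (C.frame.faithful _ fun q hq => ?_)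
    have := hk (K4.conj .om) (fun v => hsemi _ v) _ (hQn.conj_mem q hq x)
    rw [hx.2 q hq, smul_smul, show K4.conj .om * (K4.om : K4) = 1 from rfl, one_smul] at this
    rw [← this]
    congr 1; group

/-- `x` fixes every tetrad. -/
theorem x_tb (p : GolayPt) : tb (Ly.act (C.xN hx) p) = tb p := by
  by_contra hne
  set y := C.xN hx
  have hyz : (y : G) * z = z * (y : G) := C.x_comm_z hx
  have hyiz : ((y⁻¹ : ↥(Subgroup.normalizer (Ly.A : Set G))) : G) * z =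
      z * ((y⁻¹ : ↥(Subgroup.normalizer (Ly.A : Set G))) : G) := (Commute.inv_left (show Commute (y : G) z from hyz)).eq
  have hall : ∀ k : Fin 6, k ≠ tb p → k = tb (Ly.act y p) ∨ k = tb (Ly.act y⁻¹ p) := by
    intro k hk
    obtain ⟨g, hg, hgp, hgr⟩ := C.std.exists_cross (p := p) (r := Ly.act y p) (p' := p) (r' := tp k 0) hne
      (by rw [tb_tp]; exact hk)
    have hgk : Ly.act (g * y * g⁻¹) p = tp k 0 := by
      rw [Ly.act_mul, Ly.act_mul]
      conv_lhs => rw [← hgp, ← Ly.act_mul g⁻¹ g, inv_mul_cancel, Ly.act_one, hgr]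
    rcases C.x_normal hx hg with hq | hq
    · left
      rw [← tb_tp k 0, ← hgk]
      have e : g * y * g⁻¹ = ⟨(g : G) * (x : G) * (g : G)⁻¹ * (x : G)⁻¹, Ly.Q_le hq⟩ * y := by
        apply Subtype.ext; show (g : G) * (x : G) * (g : G)⁻¹ = _ * _ * _ * _ * (x : G); group
      rw [e, Ly.act_mul]
      exact C.tb_Q hq _
    · right
      rw [← tb_tp k 0, ← hgk]
      have e : g * y * g⁻¹ = ⟨(g : G) * (x : G) * (g : G)⁻¹ * (x : G), Ly.Q_le hq⟩ * y⁻¹ := by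
        apply Subtype.ext; show (g : G) * (x : G) * (g : G)⁻¹ = _ * _ * _ * _ * (x : G)⁻¹; group
      rw [e, Ly.act_mul]
      exact C.tb_Q hq _
  have : ∀ i a b : Fin 6, ¬ ∀ k, k ≠ i → k = a ∨ k = b := by decide
  exact this _ _ _ hall

theorem x_scalar_duad (p p' : GolayPt) (h' : tb p' = tb p) :
    vecG π (Ly.D (Ly.act (C.xN hx) p) (Ly.act (C.xN hx) p')) = (K4.om : K4) • vecG π (Ly.D p p') := by
  rw [← Ly.conj_D]
  exact C.x_vec hx (C.in_tet_mem h')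

/-- `x` has exactly one fixed point in each tetrad. -/
theorem x_fixed_unique {p p' : GolayPt} (h' : tb p' = tb p) (hp : Ly.act (C.xN hx) p = p)
    (hp' : Ly.act (C.xN hx) p' = p') : p = p' := by
  by_contra hne
  have h := C.x_scalar_duad hx p p' h'
  rw [hp, hp'] at h
  have h2 : ((1 : K4) + .om) • vecG π (Ly.D p p') = 0 := by
    rw [add_smul, one_smul, ← h, C.frame.add_self]
  rcases smul_eq_zero.1 h2 with e | e
  · exact absurd e (by decide)
  · exact C.vec_duad hne h' e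

theorem x_fixed_exists (i : Fin 6) : ∃ p, tb p = i ∧ Ly.act (C.xN hx) p = p := by
  have hm : ∀ k : Fin 4, ∃ l, tp i l = Ly.act (C.xN hx) (tp i k) := fun k => by
    obtain ⟨l, hl⟩ := exists_tp (Ly.act (C.xN hx) (tp i k))
    exact ⟨l, by rwa [C.x_tb hx, tb_tp] at hl⟩
  choose m hm using hm
  have hcube : ∀ k, m (m (m k)) = k := fun k => tp_injective i (by
    rw [hm, hm, hm, C.x_cube_act hx])
  have hfix : ∀ g : Fin 4 → Fin 4, (∀ k, g (g (g k)) = k) → ∃ k, g k = k := by decide +kernel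
  obtain ⟨k, hk⟩ := hfix m hcube
  exact ⟨tp i k, tb_tp i k, by rw [← hm, hk]⟩

/-- Scalar multiples of tetrad vectors are tetrad vectors. -/
theorem exists_scaled {p p' : GolayPt} (hne : p ≠ p') (h' : tb p' = tb p) {a : K4} (ha : a ≠ 0) :
    ∃ r r', r ≠ r' ∧ tb r' = tb r ∧ tb r = tb p ∧ vecG π (Ly.D r r') = a • vecG π (Ly.D p p') := by
  have i := Ly.act_injective (C.xN hx)
  rcases K4.cases4 a with rfl | rfl | rfl | rfl
  · exact absurd rfl ha
  · exact ⟨p, p', hne, h', rfl, by rw [one_smul]⟩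
  · exact ⟨_, _, i.ne hne, by rw [C.x_tb hx, C.x_tb hx, h'], C.x_tb hx p, C.x_scalar_duad hx p p' h'⟩
  · refine ⟨_, _, i.ne (i.ne hne), by rw [C.x_tb hx, C.x_tb hx, C.x_tb hx, C.x_tb hx, h'],
      by rw [C.x_tb hx, C.x_tb hx], ?_⟩
    rw [C.x_scalar_duad hx _ _ (by rw [C.x_tb hx, C.x_tb hx, h']), C.x_scalar_duad hx p p' h', smul_smul]
    rfl

/-- The tetrad vectors of three tetrads are independent. -/
theorem indep {p p' r r' s s' : GolayPt} (hp : p ≠ p') (hr : r ≠ r') (hs : s ≠ s') (tp' : tb p' = tb p)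
    (tr' : tb r' = tb r) (ts' : tb s' = tb s) (hpr : tb p ≠ tb r) (hps : tb p ≠ tb s) (hrs : tb r ≠ tb s)
    {a b c : K4} (h0 : a • vecG π (Ly.D p p') + b • vecG π (Ly.D r r') + c • vecG π (Ly.D s s') = 0) :
    a = 0 ∧ b = 0 ∧ c = 0 := by
  by_cases ha : a = 0 <;> by_cases hb : b = 0 <;> by_cases hc : c = 0
  · exact ⟨ha, hb, hc⟩
  · exfalso
    simp only [ha, hb, zero_smul, zero_add] at h0
    exact C.vec_duad hs ts' ((smul_eq_zero.1 h0).resolve_left hc)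
  · exfalso
    simp only [ha, hc, zero_smul, zero_add, add_zero] at h0
    exact C.vec_duad hr tr' ((smul_eq_zero.1 h0).resolve_left hb)
  · exfalso
    obtain ⟨r1, r2, hr12, tr12, tr1, er⟩ := C.exists_scaled hx hr tr' hb
    obtain ⟨s1, s2, hs12, ts12, ts1, es⟩ := C.exists_scaled hx hs ts' hc
    simp only [ha, zero_smul, zero_add] at h0
    rw [← er, ← es] at h0
    exact C.vec_two hr12 hs12 tr12 ts12 (by rw [tr1, ts1]; exact hrs) h0
  · exfalso
    simp only [hb, hc, zero_smul, add_zero] at h0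
    exact C.vec_duad hp tp' ((smul_eq_zero.1 h0).resolve_left ha)
  · exfalso
    obtain ⟨r1, r2, hr12, tr12, tr1, er⟩ := C.exists_scaled hx hp tp' ha
    obtain ⟨s1, s2, hs12, ts12, ts1, es⟩ := C.exists_scaled hx hs ts' hc
    simp only [hb, zero_smul, add_zero] at h0
    rw [← er, ← es] at h0
    exact C.vec_two hr12 hs12 tr12 ts12 (by rw [tr1, ts1]; exact hps) h0
  · exfalso
    obtain ⟨r1, r2, hr12, tr12, tr1, er⟩ := C.exists_scaled hx hp tp' ha
    obtain ⟨s1, s2, hs12, ts12, ts1, es⟩ := C.exists_scaled hx hr tr' hb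
    simp only [hc, zero_smul, add_zero] at h0
    rw [← er, ← es] at h0
    exact C.vec_two hr12 hs12 tr12 ts12 (by rw [tr1, ts1]; exact hpr) h0
  · exfalso
    obtain ⟨p1, p2, hp12, tp12, tp1, ep⟩ := C.exists_scaled hx hp tp' ha
    obtain ⟨r1, r2, hr12, tr12, tr1, er⟩ := C.exists_scaled hx hr tr' hb
    obtain ⟨s1, s2, hs12, ts12, ts1, es⟩ := C.exists_scaled hx hs ts' hc
    rw [← ep, ← er, ← es] at h0
    exact C.vec_three hp12 hr12 hs12 tp12 tr12 ts12 (by rw [tp1, tr1]; exact hpr)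
      (by rw [tp1, ts1]; exact hps) (by rw [tr1, ts1]; exact hrs) h0

/-- The displacement of a cross duad contains vectors of both tetrads. -/
theorem exists_disp {p r : GolayPt} (hpr : tb p ≠ tb r) {g : V ≃ₗ[K4] V}
    (hg : ∀ q ∈ Q, π (⟨Ly.D p r, C.mem_Cz_of_A (Ly.D_mem p r)⟩ * q *
      (⟨Ly.D p r, C.mem_Cz_of_A (Ly.D_mem p r)⟩ : Cz z)⁻¹) = g (π q)) :
    ∃ p', p' ≠ p ∧ tb p' = tb p ∧ ∀ a : K4, ∃ v, g v + v = a • vecG π (Ly.D p p') := by
  obtain ⟨q, hq, hqr, hqp⟩ := C.exists_fix_move hpr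
  refine ⟨_, hqp, C.tb_Q hq p, fun a => ?_⟩
  obtain ⟨hq1, hq2⟩ := mem_QG'.1 hq
  refine ⟨a • π ⟨q, hq1⟩, ?_⟩
  rw [map_smul, ← smul_add]
  congr 1
  set d : Cz z := ⟨Ly.D p r, C.mem_Cz_of_A (Ly.D_mem p r)⟩
  have e : (⟨q, hq1⟩ : Cz z) * (d * (⟨q, hq1⟩ : Cz z)⁻¹ * d⁻¹) = (⟨q, hq1⟩ : Cz z) * d * (⟨q, hq1⟩ : Cz z)⁻¹ * d⁻¹ := by
    group
  have h1 := C.frame.map_mul _ hq2 _ (hQn.conj_mem _ (inv_mem hq2) d)
  rw [hg _ (inv_mem hq2), C.frame.map_inv hq2, e] at h1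
  rw [add_comm, ← h1, ← vecG_coe π (_ * _ * _ * _)]
  congr 1
  show q * Ly.D p r * q⁻¹ * (Ly.D p r)⁻¹ = _
  rw [C.comm_duad hq, hqr, Ly.D_symm p r, Ly.D_trans, Ly.D_symm]

/-- A cross duad fixes at most 256 vectors. -/
theorem card_fix_le {p r : GolayPt} (hpr : tb p ≠ tb r) {g : V ≃ₗ[K4] V}
    (hg : ∀ q ∈ Q, π (⟨Ly.D p r, C.mem_Cz_of_A (Ly.D_mem p r)⟩ * q *
      (⟨Ly.D p r, C.mem_Cz_of_A (Ly.D_mem p r)⟩ : Cz z)⁻¹) = g (π q)) :
    Nat.card {v : V // g v = v} ≤ 256 := by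
  obtain ⟨p', hp', tp', hpv⟩ := C.exists_disp hx hpr hg
  have hg' : ∀ q ∈ Q, π (⟨Ly.D r p, C.mem_Cz_of_A (Ly.D_mem r p)⟩ * q *
      (⟨Ly.D r p, C.mem_Cz_of_A (Ly.D_mem r p)⟩ : Cz z)⁻¹) = g (π q) := fun q hq => by
    rw [← hg q hq]
    simp only [Ly.D_symm r p]
  obtain ⟨r', hr', tr', hrv⟩ := C.exists_disp hx (Ne.symm hpr) hg'
  let α : V →+ V := AddMonoidHom.mk' (fun v => g v + v) fun u v => by rw [map_add]; abel
  have hker : Nat.card α.ker = Nat.card {v : V // g v = v} := Nat.card_congr (Equiv.subtypeEquivRight fun v => by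
    show g v + v = 0 ↔ g v = v
    exact ⟨fun e => by rw [← add_zero (g v), ← C.frame.add_self v, ← add_assoc, e, zero_add],
      fun e => by rw [e, C.frame.add_self]⟩)
  obtain ⟨s, hs1, hs2⟩ : ∃ s, tb p ≠ tb s ∧ tb r ≠ tb s := by
    have : ∀ i j : Fin 6, ∃ k, i ≠ k ∧ j ≠ k := by decide
    obtain ⟨k, hk⟩ := this (tb p) (tb r)
    exact ⟨tp k 0, by rw [tb_tp]; exact hk⟩
  obtain ⟨w, hw, -, -, hwt⟩ := Layer.exists_mates_two (p := s) (q := tp (tb s) (if tp (tb s) 0 = s then 1 else 0))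
    (by
      split_ifs with h0
      · intro e; exact absurd (tp_injective _ (h0.trans e)) (by decide)
      · exact fun e => h0 e.symm) (tb_tp _ _)
  have hrange : 16 ≤ Nat.card α.range := by
    have hmem : ∀ ab : K4 × K4, ab.1 • vecG π (Ly.D p p') + ab.2 • vecG π (Ly.D r r') ∈ α.range := fun ab => by
      obtain ⟨v, hv⟩ := hpv ab.1
      obtain ⟨v', hv'⟩ := hrv ab.2
      exact ⟨v + v', by show g (v + v') + (v + v') = _; rw [map_add, ← hv, ← hv']; abel⟩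
    have hinj : Function.Injective fun ab => (⟨_, hmem ab⟩ : α.range) := by
      rintro ⟨a, b⟩ ⟨a', b'⟩ e
      have e' : a • vecG π (Ly.D p p') + b • vecG π (Ly.D r r') =
          a' • vecG π (Ly.D p p') + b' • vecG π (Ly.D r r') := congrArg Subtype.val e
      have h0 : (a + a') • vecG π (Ly.D p p') + (b + b') • vecG π (Ly.D r r') +
          (0 : K4) • vecG π (Ly.D (w 0) (w 1)) = 0 := by
        rw [add_smul, add_smul, zero_smul, add_zero, add_add_add_comm, e', C.frame.add_self]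
      obtain ⟨ha, hb, -⟩ := C.indep hx hp'.symm hr'.symm (hw.ne (show (0 : Fin 4) ≠ 1 by decide)) tp' tr'
        (by rw [hwt 1, hwt 0]) hpr (by rw [hwt 0]; exact hs1) (by rw [hwt 0]; exact hs2) h0
      have hd : ∀ a b : K4, a + b = 0 → a = b := by decide
      rw [hd _ _ ha, hd _ _ hb]
    have := Nat.card_le_card_of_injective _ hinj
    rwa [Nat.card_prod, K4.card_eq] at this
  have h1 := AddSubgroup.card_mul_index α.ker
  rw [AddSubgroup.index_ker, C.frame.cover.card, hker] at h1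
  have h2 := Nat.mul_le_mul (le_refl (Nat.card {v : V // g v = v})) hrange
  norm_num at h1 h2
  omega

/-- The commutators of `Q` with two sides of a triangle determine `A`. -/
theorem triangle {p r s : GolayPt} (hpr : tb p ≠ tb r) (hps : tb p ≠ tb s) (hrs : tb r ≠ tb s) {c : G}
    (hcz : c * z = z * c)
    (hc1 : ∀ q ∈ QG' Q, c * (q * Ly.D p r * q⁻¹ * (Ly.D p r)⁻¹) = q * Ly.D p r * q⁻¹ * (Ly.D p r)⁻¹ * c)
    (hc2 : ∀ q ∈ QG' Q, c * (q * Ly.D p s * q⁻¹ * (Ly.D p s)⁻¹) = q * Ly.D p s * q⁻¹ * (Ly.D p s)⁻¹ * c) :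
    c ∈ Ly.A := by
  set U : Set V := {v | ∃ b ∈ QG' Q, b ∈ Ly.A ∧ c * b = b * c ∧ vecG π b = v}
  have hadd : ∀ u v, u ∈ U → v ∈ U → u + v ∈ U := by
    rintro _ _ ⟨b, hb, hbA, hbc, rfl⟩ ⟨b', hb', hbA', hbc', rfl⟩
    exact ⟨b * b', mul_mem hb hb', mul_mem hbA hbA', (Commute.mul_right hbc hbc').eq, C.vecG_mul hb hb'⟩
  have hdisp : ∀ {p r : GolayPt} (hpr : tb p ≠ tb r),
      (∀ q ∈ QG' Q, c * (q * Ly.D p r * q⁻¹ * (Ly.D p r)⁻¹) = q * Ly.D p r * q⁻¹ * (Ly.D p r)⁻¹ * c) →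
      ∃ p', p' ≠ p ∧ tb p' = tb p ∧ ∀ a : K4, a • vecG π (Ly.D p p') ∈ U := by
    intro p r hpr hc
    obtain ⟨g, -, hg⟩ := C.exists_lin (Ly.D_mem p r)
    obtain ⟨p', h1, h2, h3⟩ := C.exists_disp hx hpr hg
    refine ⟨p', h1, h2, fun a => ?_⟩
    obtain ⟨v, hv⟩ := h3 a
    obtain ⟨b, hb, rfl⟩ := C.frame.surj v
    have hbQ : (b : G) ∈ QG' Q := coe_mem_QG'.2 hb
    set d : Cz z := ⟨Ly.D p r, C.mem_Cz_of_A (Ly.D_mem p r)⟩
    refine ⟨(b : G) * Ly.D p r * (b : G)⁻¹ * (Ly.D p r)⁻¹, C.comm_mem hbQ (Ly.comm _ (Ly.D_mem p r) z Ly.z_mem),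
      mul_mem ((Subgroup.mem_normalizer_iff.1 (Ly.Q_le hbQ) _).1 (Ly.D_mem p r)) (inv_mem (Ly.D_mem p r)),
      hc _ hbQ, ?_⟩
    rw [show (b : G) * Ly.D p r * (b : G)⁻¹ * (Ly.D p r)⁻¹ = ((b * (d * b⁻¹ * d⁻¹) : Cz z) : G) by
      simp only [Subgroup.coe_mul, Subgroup.coe_inv, d]; group, vecG_coe,
      C.frame.map_mul b hb _ (hQn.conj_mem _ (inv_mem hb) d), hg _ (inv_mem hb), C.frame.map_inv hb, ← hv,
      add_comm]
  have hc1' : ∀ q ∈ QG' Q, c * (q * Ly.D r p * q⁻¹ * (Ly.D r p)⁻¹) = q * Ly.D r p * q⁻¹ * (Ly.D r p)⁻¹ * c := by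
    rw [Ly.D_symm r p]; exact hc1
  have hc2' : ∀ q ∈ QG' Q, c * (q * Ly.D s p * q⁻¹ * (Ly.D s p)⁻¹) = q * Ly.D s p * q⁻¹ * (Ly.D s p)⁻¹ * c := by
    rw [Ly.D_symm s p]; exact hc2
  obtain ⟨p', hp', tp', hpU⟩ := hdisp hpr hc1
  obtain ⟨r', hr', tr', hrU⟩ := hdisp (Ne.symm hpr) hc1'
  obtain ⟨s', hs', ts', hsU⟩ := hdisp (Ne.symm hps) hc2'
  have hmul : ∀ a b : ↥(Ly.A ⊓ QG' Q), vecG π ((a * b : ↥(Ly.A ⊓ QG' Q)) : G) =
      vecG π (a : G) + vecG π (b : G) := fun a b => C.vecG_mul a.2.2 b.2.2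
  let φ : ↥(Ly.A ⊓ QG' Q) →* Multiplicative V :=
    MonoidHom.mk' (fun a => Multiplicative.ofAdd (vecG π (a : G))) fun a b => by rw [hmul]; rfl
  have hcard : Nat.card φ.range = 64 := by
    have hk : Nat.card φ.ker = 2 := by
      rw [Nat.card_eq_two_iff' (⟨1, one_mem _⟩ : φ.ker)]
      refine ⟨⟨⟨z, Ly.z_mem, C.z_mem_Q⟩, ?_⟩, fun e => Ly.z_ne_one (congrArg (fun a => (a.1 : G)) e), ?_⟩
      · rw [MonoidHom.mem_ker]; exact congrArg Multiplicative.ofAdd C.vecG_z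
      · rintro ⟨⟨a, haA, haQ⟩, ha⟩ hne
        have h0 : vecG π a = 0 := Multiplicative.ofAdd.injective ha
        rcases (C.vecG_eq_zero haQ).1 h0 with e | e
        · exact absurd (Subtype.ext (Subtype.ext e)) hne
        · exact Subtype.ext (Subtype.ext e)
    have h1 := Subgroup.card_mul_index φ.ker
    rw [Subgroup.index_ker, hk, Ly.card_inter] at h1
    omega
  have hmem : ∀ abc : K4 × K4 × K4, Multiplicative.ofAdd (abc.1 • vecG π (Ly.D p p') +
      abc.2.1 • vecG π (Ly.D r r') + abc.2.2 • vecG π (Ly.D s s')) ∈ φ.range ∧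
      abc.1 • vecG π (Ly.D p p') + abc.2.1 • vecG π (Ly.D r r') + abc.2.2 • vecG π (Ly.D s s') ∈ U := by
    rintro ⟨a, b, e⟩
    have hu := hadd _ _ (hadd _ _ (hpU a) (hrU b)) (hsU e)
    refine ⟨?_, hu⟩
    obtain ⟨y, hy, hyA, -, hyv⟩ := hu
    exact ⟨⟨y, hyA, hy⟩, congrArg Multiplicative.ofAdd hyv⟩
  have hinj : Function.Injective fun abc => (⟨_, (hmem abc).1⟩ : φ.range) := by
    rintro ⟨a, b, e⟩ ⟨a', b', e'⟩ heq
    have heq' : a • vecG π (Ly.D p p') + b • vecG π (Ly.D r r') + e • vecG π (Ly.D s s') =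
        a' • vecG π (Ly.D p p') + b' • vecG π (Ly.D r r') + e' • vecG π (Ly.D s s') :=
      Multiplicative.ofAdd.injective (congrArg Subtype.val heq)
    have h0 : (a + a') • vecG π (Ly.D p p') + (b + b') • vecG π (Ly.D r r') + (e + e') • vecG π (Ly.D s s') = 0 := by
      rw [← C.frame.add_self (a' • vecG π (Ly.D p p') + b' • vecG π (Ly.D r r') + e' • vecG π (Ly.D s s'))]
      nth_rewrite 1 [← heq']
      simp only [add_smul]
      abel
    obtain ⟨h1, h2, h3⟩ := C.indep hx hp'.symm hr'.symm hs'.symm tp' tr' ts' hpr hps hrs h0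
    have hd : ∀ a b : K4, a + b = 0 → a = b := by decide
    rw [hd _ _ h1, hd _ _ h2, hd _ _ h3]
  have hbij : Function.Bijective fun abc => (⟨_, (hmem abc).1⟩ : φ.range) :=
    hinj.bijective_of_nat_card_le (by rw [hcard, Nat.card_prod, Nat.card_prod, K4.card_eq])
  refine C.cent fun w hw => ?_
  obtain ⟨abc, habc⟩ := hbij.2 ⟨φ ⟨w, hw⟩, ⟨_, rfl⟩⟩
  obtain ⟨b, hb, hbA, hbc, hbv⟩ := (hmem abc).2
  have e : vecG π b = vecG π w := hbv.trans (Multiplicative.ofAdd.injective (congrArg Subtype.val habc))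
  have h0 : vecG π (b * w) = 0 := by rw [C.vecG_mul hb hw.2, e, C.frame.add_self]
  have hbb : b * b = 1 := Ly.sq b hbA
  rcases (C.vecG_eq_zero (mul_mem hb hw.2)).1 h0 with e' | e'
  · rw [show w = b by rw [← one_mul w, ← hbb, mul_assoc, e', mul_one]]
    exact hbc
  · rw [show w = b * z by rw [← one_mul w, ← hbb, mul_assoc, e']]
    exact (Commute.mul_right hbc hcz).eq

end Ctx

end CfsgLib.FischerLarge.U62
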