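import Cfsg.Agent.Lib.Golay.M24
import Cfsg.Agent.Lib.Golay.Octads

/-!
FischerLarge/U62: the sextet through the points 0, 1, 2, 3, as a labelling of the points by six tetrads.
-/

set_option autoImplicit false

namespace CfsgLib.FischerLarge.U62

open Cfsg CfsgLib.Golay
open scoped symmDiff

/-- The six tetrads. -/
def tetMasks : List ℕ := [15, 5264, 622848, 3416064, 4196928, 8536096]

/-- The tetrad of a bit number. -/
def tnum (i : ℕ) : ℕ := tetMasks.findIdx fun m => m.testBit i

/-- The tetrad of a point. -/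
def tb (p : GolayPt) : Fin 6 := ⟨tnum (idx p) % 6, Nat.mod_lt _ (by norm_num)⟩

/-- The bit numbers of the points, tetrad by tetrad. -/
def tpIdx : Fin 6 → Fin 4 → ℕ :=
  ![![0, 1, 2, 3], ![4, 7, 10, 12], ![8, 15, 16, 19], ![13, 18, 20, 21], ![6, 9, 11, 22], ![5, 14, 17, 23]]

/-- The points, tetrad by tetrad. -/
def tp (i : Fin 6) (k : Fin 4) : GolayPt := pt (tpIdx i k)

theorem tp_checks : (∀ i k, tb (tp i k) = i) ∧ (∀ i k l, tp i k = tp i l → k = l) ∧
    ∀ n : Fin 24, ∃ k, tp (tb (pt n)) k = pt n := by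
  decide +kernel

theorem tb_tp (i : Fin 6) (k : Fin 4) : tb (tp i k) = i := tp_checks.1 i k

theorem exists_tp (p : GolayPt) : ∃ k, tp (tb p) k = p := by
  have := tp_checks.2.2 ⟨idx p, idx_lt p⟩
  rwa [pt_idx] at this

theorem tp_injective (i : Fin 6) : Function.Injective (tp i) := fun k l => tp_checks.2.1 i k l

/-- The set of points of a tetrad. -/
def tet (i : Fin 6) : Finset GolayPt := Finset.univ.filter fun p => tb p = i

theorem mem_tet {i : Fin 6} {p : GolayPt} : p ∈ tet i ↔ tb p = i := by simp [tet]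

theorem tet_eq_image (i : Fin 6) : tet i = Finset.univ.image (tp i) := by
  ext p
  simp only [mem_tet, Finset.mem_image, Finset.mem_univ, true_and]
  refine ⟨fun h => ?_, fun ⟨k, hk⟩ => hk ▸ tb_tp i k⟩
  subst h
  exact exists_tp p

theorem card_tet (i : Fin 6) : (tet i).card = 4 := by
  rw [tet_eq_image, Finset.card_image_of_injective _ (tp_injective i)]; rfl

theorem four_mem_tet {p q r s : GolayPt} {i : Fin 6} (hpq : p ≠ q) (hpr : p ≠ r) (hps : p ≠ s)
    (hqr : q ≠ r) (hqs : q ≠ s) (hrs : r ≠ s) (hp : tb p = i) (hq : tb q = i) (hr : tb r = i)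
    (hs : tb s = i) : ({p, q, r, s} : Finset GolayPt) = tet i := by
  refine Finset.eq_of_subset_of_card_le (fun x hx => ?_) ?_
  · simp only [Finset.mem_insert, Finset.mem_singleton] at hx
    rcases hx with rfl | rfl | rfl | rfl <;> rw [mem_tet] <;> assumption
  · rw [card_tet]
    simp [hpq, hpr, hps, hqr, hqs, hrs]

/-- The mask of four bit numbers. -/
def quadMask (i j k l : ℕ) : ℕ := 2 ^ i ^^^ 2 ^ j ^^^ 2 ^ k ^^^ 2 ^ l

theorem tet_mask_checks : ∀ i : Fin 6, inCode (quadMask (tpIdx i 0) (tpIdx i 1) (tpIdx i 2) (tpIdx i 3) ^^^ 15)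
    = true ∧ (∀ k, tpIdx i k < 24) := by
  decide +kernel

theorem quad_mask_check : ((List.range 24).all fun l => (List.range l).all fun k => (List.range k).all fun j =>
    (List.range j).all fun i => !(inCode (quadMask i j k l ^^^ 15)) ||
      (tnum i == tnum j && tnum j == tnum k && tnum k == tnum l)) = true := by
  decide +kernel

theorem unmask_pair {i j : ℕ} (hi : i < 24) (hj : j < 24) :
    unmask (2 ^ i ^^^ 2 ^ j) = ({pt i} : Finset GolayPt) ∆ {pt j} := by
  rw [unmask_xor, unmask_two_pow_of_lt hi, unmask_two_pow_of_lt hj]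

theorem unmask_quad {i j k l : ℕ} (hi : i < 24) (hj : j < 24) (hk : k < 24) (hl : l < 24)
    (hne : [i, j, k, l].Nodup) : unmask (quadMask i j k l) = ({pt i, pt j, pt k, pt l} : Finset GolayPt) := by
  have hp : ∀ {a b : ℕ}, a < 24 → b < 24 → pt a = pt b → a = b := fun ha hb h => by
    have := congrArg idx h
    rwa [idx_pt ha, idx_pt hb] at this
  simp only [List.nodup_cons, List.mem_cons, List.not_mem_nil, or_false, not_or] at hne
  obtain ⟨⟨hij, hik, hil⟩, ⟨hjk, hjl⟩, hkl, -⟩ := hne
  rw [quadMask, unmask_xor, unmask_xor, unmask_xor, unmask_two_pow_of_lt hi, unmask_two_pow_of_lt hj,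
    unmask_two_pow_of_lt hk, unmask_two_pow_of_lt hl]
  have := mt (hp hi hj) hij
  have := mt (hp hi hk) hik
  have := mt (hp hi hl) hil
  have := mt (hp hj hk) hjk
  have := mt (hp hj hl) hjl
  have := mt (hp hk hl) hkl
  ext x
  simp only [Finset.mem_symmDiff, Finset.mem_insert, Finset.mem_singleton]
  by_cases h1 : x = pt i
  · subst h1; tauto
  by_cases h2 : x = pt j
  · subst h2; tauto
  by_cases h3 : x = pt k
  · subst h3; tauto
  tauto

/-- The Golay supports. -/
abbrev GC : Set (Finset GolayPt) := supports (golayCode : Set (GolayPt → ZMod 2))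

theorem unmask_fifteen : unmask 15 = tet 0 := by
  have h : (15 : ℕ) = quadMask 0 1 2 3 := by decide
  rw [h, unmask_quad (by norm_num) (by norm_num) (by norm_num) (by norm_num) (by decide)]
  exact four_mem_tet (by decide) (by decide) (by decide) (by decide) (by decide) (by decide)
    (by decide +kernel) (by decide +kernel) (by decide +kernel) (by decide +kernel)

theorem quadMask_lt {i j k l : ℕ} (hi : i < 24) (hj : j < 24) (hk : k < 24) (hl : l < 24) :
    quadMask i j k l ^^^ 15 < 2 ^ 24 := by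
  have h : ∀ {a}, a < 24 → 2 ^ a < 2 ^ 24 := fun ha => Nat.pow_lt_pow_right (by norm_num) ha
  exact Nat.xor_lt_two_pow (Nat.xor_lt_two_pow (Nat.xor_lt_two_pow (Nat.xor_lt_two_pow (h hi) (h hj)) (h hk))
    (h hl)) (by norm_num)

theorem tet_code (i : Fin 6) : tet i ∆ tet 0 ∈ GC := by
  obtain ⟨hc, hlt⟩ := tet_mask_checks i
  have hinj : ∀ k l, tpIdx i k = tpIdx i l → k = l := fun k l h => tp_injective i (congrArg pt h)
  have hn : [tpIdx i 0, tpIdx i 1, tpIdx i 2, tpIdx i 3].Nodup := by
    have : ([0, 1, 2, 3] : List (Fin 4)).Nodup := by decide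
    exact this.map fun k l h => hinj k l h
  have he : ({pt (tpIdx i 0), pt (tpIdx i 1), pt (tpIdx i 2), pt (tpIdx i 3)} : Finset GolayPt) = tet i := by
    rw [tet_eq_image, show (Finset.univ : Finset (Fin 4)) = {0, 1, 2, 3} from by decide]
    simp [Finset.image_insert, tp]
  rw [← he, ← unmask_quad (hlt 0) (hlt 1) (hlt 2) (hlt 3) hn, ← unmask_fifteen, ← unmask_xor,
    unmask_mem_supports_iff (quadMask_lt (hlt 0) (hlt 1) (hlt 2) (hlt 3))]
  exact hc

theorem tb_eq_of_tnum {p q : GolayPt} (h : tnum (idx p) = tnum (idx q)) : tb p = tb q :=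
  Fin.ext (congrArg (· % 6) h)

theorem quad_mask_spec {i j k l : ℕ} (hl : l < 24) (hk : k < l) (hj : j < k) (hi : i < j)
    (h : inCode (quadMask i j k l ^^^ 15) = true) : tnum i = tnum j ∧ tnum j = tnum k ∧ tnum k = tnum l := by
  have hc := quad_mask_check
  simp only [List.all_eq_true, List.mem_range, Bool.or_eq_true, Bool.not_eq_true', Bool.and_eq_true,
    beq_iff_eq] at hc
  rcases hc l hl k hk j hj i hi with h' | ⟨⟨h1, h2⟩, h3⟩
  · rw [h] at h'; exact absurd h' (by decide)
  · exact ⟨h1, h2, h3⟩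

/-- A four-set equivalent to the base tetrad is a tetrad. -/
theorem tb_eq_of_code {S : Finset GolayPt} (hS : S.card = 4) (h : S ∆ tet 0 ∈ GC) :
    ∀ p ∈ S, ∀ q ∈ S, tb p = tb q := by
  set L := (S.image idx).sort (· ≤ ·) with hL
  have hlen : L.length = 4 := by
    rw [hL, Finset.length_sort, Finset.card_image_of_injective _ idx_injective, hS]
  obtain ⟨i, j, k, l, he⟩ : ∃ i j k l, L = [i, j, k, l] := by
    match L, hlen with
    | [i, j, k, l], _ => exact ⟨i, j, k, l, rfl⟩
  have hsort : L.Pairwise (· ≤ ·) := Finset.pairwise_sort ..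
  have hnd : L.Nodup := Finset.sort_nodup ..
  have hlt : ∀ x ∈ L, x < 24 := fun x hx => by
    rw [hL, Finset.mem_sort, Finset.mem_image] at hx
    obtain ⟨p, -, rfl⟩ := hx
    exact idx_lt p
  rw [he] at hsort hnd hlt
  have hSe : S = {pt i, pt j, pt k, pt l} := by
    ext p
    have hm : p ∈ S ↔ idx p ∈ L := by
      rw [hL, Finset.mem_sort, Finset.mem_image]
      exact ⟨fun hp => ⟨p, hp, rfl⟩, fun ⟨q, hq, e⟩ => idx_injective e ▸ hq⟩
    rw [hm, he]
    simp only [List.mem_cons, List.not_mem_nil, or_false, Finset.mem_insert, Finset.mem_singleton]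
    constructor
    · rintro (e | e | e | e) <;> rw [← e, pt_idx] <;> tauto
    · rintro (rfl | rfl | rfl | rfl) <;> rw [idx_pt (hlt _ (by simp))] <;> tauto
  simp only [List.pairwise_cons, List.mem_cons, List.not_mem_nil, or_false, forall_eq_or_imp, forall_eq] at hsort
  have hnd' := hnd
  simp only [List.nodup_cons, List.mem_cons, List.not_mem_nil, or_false, not_or] at hnd'
  simp only [List.mem_cons, List.not_mem_nil, or_false, forall_eq_or_imp, forall_eq] at hlt
  obtain ⟨hi24, hj24, hk24, hl24⟩ := hlt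
  rw [hSe, ← unmask_quad hi24 hj24 hk24 hl24 hnd, ← unmask_fifteen, ← unmask_xor,
    unmask_mem_supports_iff (quadMask_lt hi24 hj24 hk24 hl24)] at h
  obtain ⟨h1, h2, h3⟩ := quad_mask_spec hl24 (lt_of_le_of_ne hsort.2.2.1 hnd'.2.2.1)
    (lt_of_le_of_ne hsort.2.1.1 hnd'.2.1.1) (lt_of_le_of_ne hsort.1.1 hnd'.1.1) h
  have hall : ∀ p ∈ S, tb p = tb (pt i) := by
    intro p hp
    rw [hSe, Finset.mem_insert, Finset.mem_insert, Finset.mem_insert, Finset.mem_singleton] at hp
    refine tb_eq_of_tnum ?_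
    rcases hp with rfl | rfl | rfl | rfl <;> simp only [idx_pt hi24, idx_pt hj24, idx_pt hk24, idx_pt hl24] <;>
      omega
  exact fun p hp q hq => (hall p hp).trans (hall q hq).symm

/-- Six points off `a b c` forming with `a`, `b` an octad. -/
theorem octad_six : ({pt 0} : Finset GolayPt) ∆ {pt 1} ∆ (({pt 13} : Finset GolayPt) ∆ {pt 15}) ∆
    (({pt 17} : Finset GolayPt) ∆ {pt 18}) ∆ (({pt 19} : Finset GolayPt) ∆ {pt 23}) ∈ GC := by
  rw [← unmask_pair (by norm_num) (by norm_num), ← unmask_pair (by norm_num) (by norm_num),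
    ← unmask_pair (by norm_num) (by norm_num), ← unmask_pair (by norm_num) (by norm_num),
    ← unmask_xor, ← unmask_xor, ← unmask_xor, unmask_mem_supports_iff (by decide +kernel)]
  decide +kernel

end CfsgLib.FischerLarge.U62
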