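import Cfsg.Agent.Lib.FischerLarge.U62.Gam

/-!
FischerLarge/U62: the canonical lifts in `Q` and the decomposition of the centraliser of `z`.
-/

set_option autoImplicit false

namespace CfsgLib.FischerLarge.U62

variable {X : Type*} [Group X] (D : Local X)

/-- The power of `z` selected by a bit. -/
def Local.zp (e : Bool) : X := bif e then D.z else 1

theorem Local.zp_mem (e : Bool) : D.zp e ∈ D.Q := by
  cases e
  exacts [D.Q.one_mem, D.z_mem]

theorem Local.zp_mul (e f : Bool) : D.zp e * D.zp f = D.zp (xor e f) := by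
  cases e <;> cases f <;> simp [Local.zp, D.z_sq]

theorem Local.zp_sq (e : Bool) : D.zp e * D.zp e = 1 := by rw [D.zp_mul, Bool.xor_self]; rfl

theorem Local.zp_inv (e : Bool) : (D.zp e)⁻¹ = D.zp e := inv_eq_of_mul_eq_one_right (D.zp_sq e)

theorem Local.zp_comm (e : Bool) {x : X} (h : x * D.z = D.z * x) : x * D.zp e = D.zp e * x := by
  cases e
  · simp [Local.zp]
  · exact h

theorem Local.zp_conj (e : Bool) {x : X} (h : x * D.z = D.z * x) : x * D.zp e * x⁻¹ = D.zp e := by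
  rw [D.zp_comm e h, mul_inv_cancel_right]

theorem Local.zp_injective {e f : Bool} (h : D.zp e = D.zp f) : e = f := by
  cases e <;> cases f <;> simp only [Local.zp, cond_true, cond_false] at h <;>
    first | rfl | exact absurd h D.z_ne | exact absurd h.symm D.z_ne

theorem Local.σ_zp (e : Bool) : D.σ (D.zp e) = D.zp e := by
  cases e
  · exact map_one D.σ
  · exact D.σ_z

theorem Local.π_one : D.π 1 = 0 := (D.ker 1 D.Q.one_mem).2 (Or.inl rfl)

theorem Local.π_zp (e : Bool) : D.π (D.zp e) = 0 := by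
  cases e
  · exact D.π_one
  · exact (D.ker _ D.z_mem).2 (Or.inr rfl)

theorem Local.π_mul_zp {a : X} (ha : a ∈ D.Q) (e : Bool) : D.π (a * D.zp e) = D.π a := by
  rw [D.map_mul a ha _ (D.zp_mem e), D.π_zp, add_zero]

theorem Local.π_inv {a : X} (ha : a ∈ D.Q) : D.π a⁻¹ = D.π a := by
  have h := D.map_mul a ha a⁻¹ (D.Q.inv_mem ha)
  rw [mul_inv_cancel, D.π_one] at h
  calc D.π a⁻¹ = D.π a⁻¹ + (D.π a + D.π a) := by rw [vadd_self, add_zero]
    _ = (D.π a + D.π a⁻¹) + D.π a := by abel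
    _ = D.π a := by rw [← h, zero_add]

theorem Local.eq_mul_zp {a b : X} (ha : a ∈ D.Q) (hb : b ∈ D.Q) (h : D.π a = D.π b) : ∃ e, b = a * D.zp e := by
  have h1 : D.π (a⁻¹ * b) = 0 := by rw [D.map_mul _ (D.Q.inv_mem ha) b hb, D.π_inv ha, h, vadd_self]
  rcases (D.ker _ (D.Q.mul_mem (D.Q.inv_mem ha) hb)).1 h1 with h2 | h2
  · exact ⟨false, by rw [show D.zp false = 1 from rfl, mul_one]; exact (inv_mul_eq_one.1 h2).symm⟩
  · exact ⟨true, by rw [show D.zp true = D.z from rfl, ← h2, mul_inv_cancel_left]⟩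

theorem Local.swap {a b : X} (ha : a ∈ D.Q) (hb : b ∈ D.Q) :
    b * a = a * b * D.zp (herm (D.π a) (D.π b)).b1 := by
  obtain ⟨e, he⟩ := D.eq_mul_zp (D.Q.mul_mem ha hb) (D.Q.mul_mem hb ha)
    (by rw [D.map_mul a ha b hb, D.map_mul b hb a ha, add_comm])
  rw [he]
  congr 1
  cases hbit : (herm (D.π a) (D.π b)).b1
  · have := (D.comm a ha b hb).2 hbit
    cases e
    · rfl
    · rw [← this, show D.zp true = D.z from rfl] at he
      exact absurd (mul_eq_left.1 he.symm) D.z_ne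
  · cases e
    · rw [show D.zp false = 1 from rfl, mul_one] at he
      rw [(D.comm a ha b hb).1 he.symm] at hbit
      exact absurd hbit Bool.false_ne_true
    · rfl

theorem Local.zp_central {a : X} (ha : a ∈ D.Q) (e : Bool) : a * D.zp e = D.zp e * a :=
  D.zp_comm e (D.Q_comm a ha)

/-- The product of the three images of an element. -/
def Local.orb (a : X) : X := a * D.σ a * D.σ (D.σ a)

theorem Local.orb_zp {a : X} (ha : a ∈ D.Q) (e : Bool) : D.orb (a * D.zp e) = D.orb a * D.zp e := by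
  have h1 := D.zp_central (D.σ_mem a ha) e
  have h2 := D.zp_central (D.σ_mem _ (D.σ_mem a ha)) e
  simp only [Local.orb, _root_.map_mul, D.σ_zp]
  calc a * D.zp e * (D.σ a * D.zp e) * (D.σ (D.σ a) * D.zp e)
      = a * (D.zp e * D.σ a) * (D.zp e * D.σ (D.σ a)) * D.zp e := by group
    _ = a * (D.σ a * D.zp e) * (D.σ (D.σ a) * D.zp e) * D.zp e := by rw [← h1, ← h2]
    _ = a * D.σ a * (D.zp e * D.σ (D.σ a)) * (D.zp e * D.zp e) := by group
    _ = a * D.σ a * D.σ (D.σ a) * D.zp e := by rw [← h2, D.zp_sq, mul_one]; group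

theorem Local.π_σσ {a : X} (ha : a ∈ D.Q) : D.π (D.σ (D.σ a)) = K4.om2 • D.π a := by
  rw [D.σ_act _ (D.σ_mem a ha), D.σ_act a ha, smul_smul]
  rfl

theorem Local.exists_canon (v : V4) : ∃ a, a ∈ D.Q ∧ D.π a = v ∧ D.orb a = 1 := by
  obtain ⟨a, ha, rfl⟩ := D.surj v
  have hm := D.σ_mem a ha
  have hm2 := D.σ_mem _ hm
  have h0 : D.π (D.orb a) = 0 := by
    rw [Local.orb, D.map_mul _ (D.Q.mul_mem ha hm) _ hm2, D.map_mul a ha _ hm, D.π_σσ ha, D.σ_act a ha]
    funext i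
    simp only [Pi.add_apply, Pi.smul_apply, smul_eq_mul, Pi.zero_apply]
    have : ∀ x : K4, x + K4.om * x + K4.om2 * x = 0 := by decide
    exact this _
  rcases (D.ker _ (D.Q.mul_mem (D.Q.mul_mem ha hm) hm2)).1 h0 with h | h
  · exact ⟨a, ha, rfl, h⟩
  · exact ⟨a * D.zp true, D.Q.mul_mem ha (D.zp_mem _), D.π_mul_zp ha _, by
      rw [D.orb_zp ha, show D.orb a = D.z from h]; exact D.z_sq⟩

/-- The canonical lift. -/
noncomputable def Local.th (v : V4) : X := (D.exists_canon v).choose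

theorem Local.th_mem (v : V4) : D.th v ∈ D.Q := (D.exists_canon v).choose_spec.1

theorem Local.π_th (v : V4) : D.π (D.th v) = v := (D.exists_canon v).choose_spec.2.1

theorem Local.orb_th (v : V4) : D.orb (D.th v) = 1 := (D.exists_canon v).choose_spec.2.2

theorem Local.th_unique {a : X} {v : V4} (ha : a ∈ D.Q) (hv : D.π a = v) (h : D.orb a = 1) : a = D.th v := by
  obtain ⟨e, he⟩ := D.eq_mul_zp (D.th_mem v) ha (by rw [D.π_th, hv])
  rw [he, D.orb_zp (D.th_mem v), D.orb_th, one_mul] at h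
  rw [he, h, mul_one]

theorem Local.exists_rep {a : X} (ha : a ∈ D.Q) : ∃ e, a = D.th (D.π a) * D.zp e :=
  D.eq_mul_zp (D.th_mem _) ha (D.π_th _)

theorem Local.th_zero : D.th 0 = 1 := (D.th_unique D.Q.one_mem D.π_one (by simp [Local.orb])).symm

theorem Local.σ_th (v : V4) : D.σ (D.th v) = D.th (K4.om • v) := by
  refine D.th_unique (D.σ_mem _ (D.th_mem v)) (by rw [D.σ_act _ (D.th_mem v), D.π_th]) ?_
  have h := D.orb_th v
  simp only [Local.orb] at h ⊢
  rw [D.σ_cube]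
  calc D.σ (D.th v) * D.σ (D.σ (D.th v)) * D.th v
      = (D.th v)⁻¹ * (D.th v * D.σ (D.th v) * D.σ (D.σ (D.th v))) * D.th v := by group
    _ = 1 := by rw [h, mul_one, inv_mul_cancel]

/-- The cocycle of the canonical lifts. -/
def beta (u v : V4) : Bool := (K4.om * herm v u).b1

theorem beta_spec (u v : V4) : xor (herm v (K4.om • u)).b1
    (xor (herm v (K4.om2 • u)).b1 (herm (K4.om • v) (K4.om2 • u)).b1) = beta u v := by
  rw [herm_smul_right, herm_smul_right, herm_smul_left, herm_smul_right, beta]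
  have : ∀ h : K4, xor (K4.conj K4.om * h).b1
    (xor (K4.conj K4.om2 * h).b1 (K4.om * (K4.conj K4.om2 * h)).b1) = (K4.om * h).b1 := by decide
  exact this _

theorem Local.th_mul (u v : V4) : D.th u * D.th v = D.th (u + v) * D.zp (beta u v) := by
  have hu := D.th_mem u
  have hv := D.th_mem v
  have hu1 := D.σ_mem _ hu
  have hv1 := D.σ_mem _ hv
  have hu2 := D.σ_mem _ hu1
  have hv2 := D.σ_mem _ hv1
  have key : D.orb (D.th u * D.th v) = D.zp (beta u v) := by
    have e1 : D.π (D.th v) = v := D.π_th v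
    have a1 : D.σ (D.th u) * D.th v = D.th v * D.σ (D.th u) * D.zp (herm v (K4.om • u)).b1 := by
      rw [D.swap hv hu1, D.π_th, D.σ_act _ hu, D.π_th]
    have a2 : D.σ (D.σ (D.th u)) * D.th v = D.th v * D.σ (D.σ (D.th u)) * D.zp (herm v (K4.om2 • u)).b1 := by
      rw [D.swap hv hu2, D.π_th, D.π_σσ hu, D.π_th]
    have a3 : D.σ (D.σ (D.th u)) * D.σ (D.th v) = D.σ (D.th v) * D.σ (D.σ (D.th u)) *
        D.zp (herm (K4.om • v) (K4.om2 • u)).b1 := by
      rw [D.swap hv1 hu2, D.π_σσ hu, D.π_th, D.σ_act _ hv, D.π_th]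
    have b1 : D.th v * D.σ (D.th u) = D.σ (D.th u) * D.th v * D.zp (herm v (K4.om • u)).b1 := by
      rw [a1, mul_assoc, D.zp_sq, mul_one]
    have b2 : D.th v * D.σ (D.σ (D.th u)) = D.σ (D.σ (D.th u)) * D.th v * D.zp (herm v (K4.om2 • u)).b1 := by
      rw [a2, mul_assoc, D.zp_sq, mul_one]
    have b3 : D.σ (D.th v) * D.σ (D.σ (D.th u)) = D.σ (D.σ (D.th u)) * D.σ (D.th v) *
        D.zp (herm (K4.om • v) (K4.om2 • u)).b1 := by
      rw [a3, mul_assoc, D.zp_sq, mul_one]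
    have c : ∀ {x : X}, x ∈ D.Q → ∀ e, D.zp e * x = x * D.zp e := fun hx e => (D.zp_central hx e).symm
    simp only [Local.orb, _root_.map_mul]
    calc D.th u * D.th v * (D.σ (D.th u) * D.σ (D.th v)) * (D.σ (D.σ (D.th u)) * D.σ (D.σ (D.th v)))
        = D.th u * (D.th v * D.σ (D.th u)) * (D.σ (D.th v) * D.σ (D.σ (D.th u))) * D.σ (D.σ (D.th v)) := by group
      _ = D.th u * D.σ (D.th u) * (D.th v * (D.zp (herm v (K4.om • u)).b1 * D.σ (D.σ (D.th u)))) * D.σ (D.th v) *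
            (D.zp (herm (K4.om • v) (K4.om2 • u)).b1 * D.σ (D.σ (D.th v))) := by rw [b1, b3]; group
      _ = D.th u * D.σ (D.th u) * (D.th v * D.σ (D.σ (D.th u))) * (D.zp (herm v (K4.om • u)).b1 * D.σ (D.th v)) *
            D.σ (D.σ (D.th v)) * D.zp (herm (K4.om • v) (K4.om2 • u)).b1 := by rw [c hu2, c hv2]; group
      _ = (D.th u * D.σ (D.th u) * D.σ (D.σ (D.th u))) * D.th v * (D.zp (herm v (K4.om2 • u)).b1 *
            (D.σ (D.th v) * (D.zp (herm v (K4.om • u)).b1 * D.σ (D.σ (D.th v))))) *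
            D.zp (herm (K4.om • v) (K4.om2 • u)).b1 := by rw [b2, c hv1]; group
      _ = (D.th v * D.σ (D.th v) * D.σ (D.σ (D.th v))) * (D.zp (herm v (K4.om2 • u)).b1 *
            D.zp (herm v (K4.om • u)).b1 * D.zp (herm (K4.om • v) (K4.om2 • u)).b1) := by
          rw [show D.th u * D.σ (D.th u) * D.σ (D.σ (D.th u)) = 1 from D.orb_th u, one_mul, c hv2,
            ← mul_assoc (D.σ (D.th v)) _ _, c (D.Q.mul_mem (D.Q.mul_mem hv1 hv2) (D.zp_mem _))]
          simp only [← mul_assoc]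
          rw [mul_assoc _ (D.zp (herm v (K4.om • u)).b1) (D.zp (herm v (K4.om2 • u)).b1), D.zp_central (D.zp_mem _),
            ← mul_assoc]
      _ = D.zp (beta u v) := by
          rw [show D.th v * D.σ (D.th v) * D.σ (D.σ (D.th v)) = 1 from D.orb_th v, one_mul, D.zp_mul, D.zp_mul,
            ← beta_spec]
          congr 1
          cases (herm v (K4.om • u)).b1 <;> cases (herm v (K4.om2 • u)).b1 <;>
            cases (herm (K4.om • v) (K4.om2 • u)).b1 <;> rfl
  have hp : D.π (D.th u * D.th v * D.zp (beta u v)) = u + v := by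
    rw [D.π_mul_zp (D.Q.mul_mem hu hv), D.map_mul _ hu _ hv, D.π_th, D.π_th]
  have := D.th_unique (D.Q.mul_mem (D.Q.mul_mem hu hv) (D.zp_mem _)) hp
    (by rw [D.orb_zp (D.Q.mul_mem hu hv), key, D.zp_sq])
  rw [← this, mul_assoc, D.zp_sq, mul_one]

theorem Local.th_inv (v : V4) : (D.th v)⁻¹ = D.th v * D.zp (beta v v) := by
  refine inv_eq_of_mul_eq_one_right ?_
  rw [← mul_assoc, D.th_mul, vadd_self, D.th_zero, one_mul, D.zp_sq]

theorem Local.th_sq {v : V4} (h : herm v v = 0) : D.th v * D.th v = 1 := by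
  rw [D.th_mul, vadd_self, D.th_zero, one_mul, beta, h, mul_zero]
  rfl

theorem Local.z_inv : D.z⁻¹ = D.z := inv_eq_of_mul_eq_one_right D.z_sq

theorem Local.comm_conj {c : X} (hc : c * D.z = D.z * c) : D.σ c * D.z = D.z * D.σ c := by
  have := congrArg D.σ hc
  rwa [_root_.map_mul, _root_.map_mul, D.σ_z] at this

theorem Local.conj_th {c : X} (hc : c * D.z = D.z * c) (hσ : D.σ c = c) {g : V4 → V4}
    (hg : ∀ q ∈ D.Q, D.π (c * q * c⁻¹) = g (D.π q)) (v : V4) : c * D.th v * c⁻¹ = D.th (g v) := by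
  refine D.th_unique (D.normal c hc _ (D.th_mem v)) (by rw [hg _ (D.th_mem v), D.π_th]) ?_
  have h : D.orb (c * D.th v * c⁻¹) = c * D.orb (D.th v) * c⁻¹ := by
    simp only [Local.orb, _root_.map_mul, _root_.map_inv, hσ]
    group
  rw [h, D.orb_th, mul_one, mul_inv_cancel]

theorem Local.exists_shift (q0 : X) (hq0 : q0 ∈ D.Q) : ∃ q ∈ D.Q, ∃ e, q0 * D.σ q = q * D.zp e := by
  refine ⟨D.th (K4.om • D.π q0), D.th_mem _, ?_⟩
  refine D.eq_mul_zp (D.th_mem _) (D.Q.mul_mem hq0 (D.σ_mem _ (D.th_mem _))) ?_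
  rw [D.map_mul _ hq0 _ (D.σ_mem _ (D.th_mem _)), D.σ_act _ (D.th_mem _), D.π_th, smul_smul]
  funext i
  simp only [Pi.add_apply, Pi.smul_apply, smul_eq_mul]
  have : ∀ x : K4, K4.om * x = x + K4.om * K4.om * x := by decide
  exact this _

theorem Local.exists_fixed {c : X} (hc : c * D.z = D.z * c) : ∃ q ∈ D.Q, D.σ (c * q) = c * q := by
  obtain ⟨g, hg, hga⟩ := D.act c hc
  have hlin := hg.lin
  have hact : ∀ q ∈ D.Q, D.π (D.σ c * q * (D.σ c)⁻¹) = g (D.π q) := by
    intro q hq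
    have hq1 := D.σ_mem _ (D.σ_mem q hq)
    have e : D.σ c * q * (D.σ c)⁻¹ = D.σ (c * D.σ (D.σ q) * c⁻¹) := by
      rw [_root_.map_mul, _root_.map_mul, _root_.map_inv, D.σ_cube]
    rw [e, D.σ_act _ (D.normal c hc _ hq1), hga _ hq1, D.π_σσ hq, hlin.2.1, smul_smul,
      show K4.om * K4.om2 = 1 from rfl, one_smul]
  have hσc := D.comm_conj hc
  have hq0 : c⁻¹ * D.σ c ∈ D.Q := by
    refine D.faithful _ ?_ fun q hq => ?_
    · calc c⁻¹ * D.σ c * D.z = c⁻¹ * (D.z * c) * c⁻¹ * D.σ c := by rw [mul_assoc, hσc]; group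
        _ = D.z * (c⁻¹ * D.σ c) := by rw [← hc]; group
    · have hc' : c⁻¹ * D.z = D.z * c⁻¹ := by
        calc c⁻¹ * D.z = c⁻¹ * (D.z * c) * c⁻¹ := by group
          _ = D.z * c⁻¹ := by rw [← hc]; group
      have h1 : D.σ c * q * (D.σ c)⁻¹ ∈ D.Q := D.normal _ hσc q hq
      have h2 : c⁻¹ * (D.σ c * q * (D.σ c)⁻¹) * c⁻¹⁻¹ ∈ D.Q := D.normal _ hc' _ h1
      rw [show c⁻¹ * D.σ c * q * (c⁻¹ * D.σ c)⁻¹ = c⁻¹ * (D.σ c * q * (D.σ c)⁻¹) * c⁻¹⁻¹ by group]
      refine hg.injective ?_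
      rw [← hga _ h2, ← hact q hq]
      congr 1
      group
  obtain ⟨q, hq, e, he⟩ := D.exists_shift _ hq0
  have h1 : D.σ (c * q) = c * q * D.zp e := by
    rw [_root_.map_mul]
    calc D.σ c * D.σ q = c * (c⁻¹ * D.σ c * D.σ q) := by group
      _ = c * q * D.zp e := by rw [he, ← mul_assoc]
  refine ⟨q, hq, ?_⟩
  have h3 := D.σ_cube (c * q)
  rw [h1, _root_.map_mul, h1, D.σ_zp, _root_.map_mul, _root_.map_mul, h1, D.σ_zp, mul_assoc, mul_assoc, D.zp_sq, mul_one] at h3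
  rw [h1, mul_eq_left.1 h3, mul_one]

theorem Local.fixed_mem {q : X} (hq : q ∈ D.Q) (h : D.σ q = q) : ∃ e, q = D.zp e := by
  have h1 := D.σ_act q hq
  rw [h] at h1
  have : D.π q = 0 := by
    funext i
    have h2 := congrFun h1 i
    simp only [Pi.smul_apply, smul_eq_mul] at h2
    have : ∀ x : K4, x = K4.om * x → x = 0 := by decide
    exact this _ h2
  obtain ⟨e, he⟩ := D.exists_rep hq
  exact ⟨e, by rw [he, this, D.th_zero, one_mul]⟩

end CfsgLib.FischerLarge.U62
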