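import Cfsg.Agent.Lib.FischerLarge.U62.Basic
import Cfsg.Agent.Lib.FischerLarge.StabUnitary

/-!
FischerLarge/U62: transvections of the four-dimensional hermitian space generate `SU₄(2)`; normal forms
for isotropic vectors.
-/

set_option autoImplicit false
set_option linter.unusedSectionVars false

namespace CfsgLib.FischerLarge.U62

open Matrix CfsgLib.Fischer.UnitaryPoint

theorem hermForm_eq (v w : V4) : Cfsg.hermForm 4 K4 2 v w = herm v w := by
  simp [Cfsg.hermForm, herm, Fin.sum_univ_four, K4.conj, pow_two]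

theorem tau_add_witt (r v w : V4) : tau r (v + w) = tau r v + tau r w := by
  funext i; simp only [tau, herm_add_left, Pi.add_apply]; ring

theorem tau_smul_witt (r : V4) (a : K4) (v : V4) : tau r (a • v) = a • tau r v := by
  funext i; simp only [tau, herm_smul_left, Pi.smul_apply, smul_eq_mul]; ring

theorem tau_eq_witt (r v : V4) : tau r v = v + herm v r • r := by
  funext i; simp [tau]

theorem add_self' (v : V4) : v + v = 0 := funext fun i => K4.add_self (v i)

theorem herm_tau {r : V4} (hr : herm r r = 0) (v w : V4) : herm (tau r v) (tau r w) = herm v w := by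
  rw [tau_eq_witt, tau_eq_witt, herm_add_left, herm_add_right, herm_add_right, herm_smul_left, herm_smul_left,
    herm_smul_right, herm_smul_right, hr, herm_symm w r]
  linear_combination K4.add_self (herm v r * K4.conj (herm w r))

theorem tau_tau_witt {r : V4} (hr : herm r r = 0) (v : V4) : tau r (tau r v) = v := by
  have h : herm (tau r v) r = herm v r := by
    rw [tau_eq_witt, herm_add_left, herm_smul_left, hr, mul_zero, add_zero]
  rw [tau_eq_witt r (tau r v), h, tau_eq_witt, add_assoc, add_self', add_zero]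

theorem exists_herm_one {r : V4} (hr : r ≠ 0) : ∃ w, herm w r = 1 := by
  obtain ⟨i, hi⟩ := Function.ne_iff.1 hr
  refine ⟨Pi.single i (K4.conj (r i))⁻¹, ?_⟩
  have hne : K4.conj (r i) ≠ 0 := fun h => hi (by
    have := congrArg K4.conj h; rwa [K4.conj_conj, map_zero] at this)
  fin_cases i <;> simp [herm, Pi.single_apply] <;> exact inv_mul_cancel₀ hne

/-- A transvection as a matrix. -/
def tauMat (r : V4) : Matrix (Fin 4) (Fin 4) K4 := 1 + vecMulVec r fun j => K4.conj (r j)

theorem tauMat_mulVec (r v : V4) : tauMat r *ᵥ v = tau r v := by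
  rw [tauMat, Matrix.add_mulVec, Matrix.one_mulVec, tau_eq_witt]
  funext i
  simp only [Pi.add_apply, Pi.smul_apply, smul_eq_mul, Matrix.mulVec, dotProduct, Matrix.vecMulVec_apply,
    Fin.sum_univ_four, herm]
  ring

theorem det_tauMat {r : V4} (hr : herm r r = 0) : (tauMat r).det = 1 := by
  have h : (vecMulVec r fun j => K4.conj (r j)) =
      Matrix.replicateCol Unit r * Matrix.replicateRow Unit fun j => K4.conj (r j) :=
    Matrix.vecMulVec_eq Unit _ _
  rw [tauMat, h, Matrix.det_one_add_replicateCol_mul_replicateRow]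
  simp only [dotProduct, Fin.sum_univ_four]
  rw [show K4.conj (r 0) * r 0 + K4.conj (r 1) * r 1 + K4.conj (r 2) * r 2 + K4.conj (r 3) * r 3 = herm r r
    from by simp only [herm]; ring, hr, add_zero]

/-- A transvection in the special unitary group. -/
def tauSU (r : V4) (hr : herm r r = 0) : Cfsg.SU 4 K4 2 :=
  mkSU (tauMat r) (det_tauMat hr) fun x y => by
    rw [hermForm_eq, hermForm_eq, tauMat_mulVec, tauMat_mulVec, herm_tau hr]

theorem tauSU_mulVec (r : V4) (hr : herm r r = 0) (v : V4) : mat (tauSU r hr) *ᵥ v = tau r v := by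
  rw [tauSU, mat_mkSU, tauMat_mulVec]

theorem herm_su (A : Cfsg.SU 4 K4 2) (v w : V4) : herm (mat A *ᵥ v) (mat A *ᵥ w) = herm v w := by
  rw [← hermForm_eq, ← hermForm_eq, herm_mat]

theorem su_inv_mulVec (A : Cfsg.SU 4 K4 2) (v : V4) : mat A *ᵥ (mat A⁻¹ *ᵥ v) = v := by
  rw [Matrix.mulVec_mulVec, ← mat_mul, mul_inv_cancel, mat_one, Matrix.one_mulVec]

theorem su_inv_mulVec' (A : Cfsg.SU 4 K4 2) (v : V4) : mat A⁻¹ *ᵥ (mat A *ᵥ v) = v := by
  rw [Matrix.mulVec_mulVec, ← mat_mul, inv_mul_cancel, mat_one, Matrix.one_mulVec]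

theorem su_ext {A B : Cfsg.SU 4 K4 2} (h : ∀ v : V4, mat A *ᵥ v = mat B *ᵥ v) : A = B :=
  mat_inj (Matrix.ext_of_mulVec_single fun i => h (Pi.single i 1))

theorem iso_su (A : Cfsg.SU 4 K4 2) {r : V4} (hr : Iso r) : Iso (mat A *ᵥ r) :=
  ⟨fun h => hr.1 (by rw [← su_inv_mulVec' A r, h, Matrix.mulVec_zero]), by rw [herm_su]; exact hr.2⟩

theorem tau_conj (A : Cfsg.SU 4 K4 2) (r v : V4) :
    mat A *ᵥ tau r v = tau (mat A *ᵥ r) (mat A *ᵥ v) := by
  rw [tau_eq_witt, tau_eq_witt, Matrix.mulVec_add, Matrix.mulVec_smul, herm_su]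

theorem gam_comp {f g : V4 → V4} (hf : Gam f) (hg : Gam g) : Gam (fun v => f (g v)) := by
  induction hf with
  | refl => exact hg
  | step hr _ ih => exact Gam.step hr ih

/-- Every element of the special unitary group is a product of transvections. -/
theorem gam_su (A : Cfsg.SU 4 K4 2) : Gam fun v => mat A *ᵥ v := by
  let S : Set (Cfsg.SU 4 K4 2) := {B | ∃ (r : V4) (h : Iso r), B = tauSU r h.2}
  have hn : (Subgroup.closure S).Normal := by
    refine ⟨fun x hx g => ?_⟩
    induction hx using Subgroup.closure_induction with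
    | mem y hy =>
      obtain ⟨r, hr, rfl⟩ := hy
      refine Subgroup.subset_closure ⟨mat g *ᵥ r, iso_su g hr, su_ext fun v => ?_⟩
      rw [mat_mul, mat_mul, ← Matrix.mulVec_mulVec, ← Matrix.mulVec_mulVec, tauSU_mulVec, tauSU_mulVec,
        tau_conj, su_inv_mulVec]
    | one => simp
    | mul a b _ _ iha ihb =>
      rw [show g * (a * b) * g⁻¹ = g * a * g⁻¹ * (g * b * g⁻¹) by group]
      exact mul_mem iha ihb
    | inv a _ iha =>
      rw [show g * a⁻¹ * g⁻¹ = (g * a * g⁻¹)⁻¹ by group]
      exact inv_mem iha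
  haveI := isSimple_su4 (F := K4) K4.card_fintype
  have htop : Subgroup.closure S = ⊤ := (hn.eq_bot_or_eq_top).resolve_left fun hb => by
    have hi : Iso r0 := by decide
    have h1 : tauSU r0 hi.2 = 1 := by
      rw [← Subgroup.mem_bot, ← hb]; exact Subgroup.subset_closure ⟨r0, hi, rfl⟩
    have h2 := tauSU_mulVec r0 hi.2 ![1, 0, 0, 0]
    rw [h1, mat_one, Matrix.one_mulVec] at h2
    exact absurd h2 (by decide)
  have hA : A ∈ Subgroup.closure S := htop ▸ Subgroup.mem_top A
  suffices h : (Gam fun v => mat A *ᵥ v) ∧ Gam fun v => mat A⁻¹ *ᵥ v from h.1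
  induction hA using Subgroup.closure_induction with
  | mem y hy =>
    obtain ⟨r, hr, rfl⟩ := hy
    have hinv : (tauSU r hr.2)⁻¹ = tauSU r hr.2 := inv_eq_of_mul_eq_one_right (su_ext fun v => by
      rw [mat_mul, ← Matrix.mulVec_mulVec, tauSU_mulVec, tauSU_mulVec, tau_tau_witt hr.2, mat_one, Matrix.one_mulVec])
    have hg : Gam fun v => mat (tauSU r hr.2) *ᵥ v := by
      simp only [tauSU_mulVec]; exact Gam.step hr Gam.refl
    exact ⟨hg, hinv.symm ▸ hg⟩
  | one => simp only [inv_one, mat_one, Matrix.one_mulVec]; exact ⟨Gam.refl, Gam.refl⟩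
  | mul a b _ _ iha ihb =>
    constructor
    · simp only [mat_mul, ← Matrix.mulVec_mulVec]; exact gam_comp iha.1 ihb.1
    · simp only [_root_.mul_inv_rev, mat_mul, ← Matrix.mulVec_mulVec]; exact gam_comp ihb.2 iha.2
  | inv a _ iha => rw [inv_inv]; exact ⟨iha.2, iha.1⟩

theorem exists_smul_of_tau_eq {r r' : V4} (hr' : r' ≠ 0) (h : ∀ v, tau r v = tau r' v) :
    ∃ a : K4, r' = a • r := by
  obtain ⟨w, hw⟩ := exists_herm_one hr'
  refine ⟨herm w r, ?_⟩
  have := h w
  rw [tau_eq_witt, tau_eq_witt, hw, one_smul] at this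
  exact (add_left_cancel this).symm

theorem tau_scale {a : K4} (ha : a ≠ 0) (r v : V4) : tau (a • r) v = tau r v := by
  rw [tau_eq_witt, tau_eq_witt, herm_smul_right, smul_smul]
  have hd : ∀ a x : K4, a ≠ 0 → K4.conj a * x * a = x := by decide
  rw [hd a _ ha]

/-- An isometric involution with at most four displacements is a transvection. -/
theorem exists_tau (B : V4 →ₗ[K4] V4) (hB : ∀ v w, herm (B v) (B w) = herm v w) (hinv : ∀ v, B (B v) = v)
    (hne : ∃ v, B v ≠ v) {S : Finset V4} (hS : ∀ v, B v + v ∈ S) (hcard : S.card ≤ 4) :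
    ∃ r, Iso r ∧ ∀ v, B v = tau r v := by
  classical
  obtain ⟨v0, hv0⟩ := hne
  set r := B v0 + v0 with hr
  have hr0 : r ≠ 0 := fun h => hv0 (by
    calc B v0 = B v0 + (v0 + v0) := by rw [add_self', add_zero]
      _ = v0 := by rw [← add_assoc, ← hr, h, zero_add])
  have hsub : Finset.univ.image (fun a : K4 => a • r) ⊆ S := by
    intro x hx
    obtain ⟨a, -, rfl⟩ := Finset.mem_image.1 hx
    have := hS (a • v0)
    rwa [map_smul, ← smul_add] at this
  have heq : Finset.univ.image (fun a : K4 => a • r) = S := by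
    refine Finset.eq_of_subset_of_card_le hsub (hcard.trans ?_)
    rw [Finset.card_image_of_injective _ (smul_left_injective K4 hr0)]
    rfl
  have hφ : ∀ v, ∃ a : K4, B v + v = a • r := fun v => by
    have := hS v
    rw [← heq, Finset.mem_image] at this
    obtain ⟨a, -, ha⟩ := this
    exact ⟨a, ha.symm⟩
  choose φ hφ using hφ
  have hBv : ∀ v, B v = v + φ v • r := fun v => by
    rw [← hφ, ← add_assoc, add_comm v, add_assoc, add_self', add_zero]
  have hφ0 : φ v0 = 1 := smul_left_injective K4 hr0 (by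
    show φ v0 • r = (1 : K4) • r
    rw [← hφ, one_smul, hr])
  have hφr : φ r = 0 := by
    have h1 : B r = r := by rw [hr, map_add, hinv, add_comm]
    have := hBv r
    rw [h1] at this
    exact (smul_eq_zero.1 (left_eq_add.1 this)).resolve_right hr0
  have key : ∀ v w, φ v * herm r w + K4.conj (φ w) * herm v r + φ v * K4.conj (φ w) * herm r r = 0 := by
    intro v w
    have := hB v w
    rw [hBv v, hBv w, herm_add_left, herm_add_right, herm_add_right, herm_smul_left, herm_smul_left,
      herm_smul_right, herm_smul_right] at this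
    linear_combination this
  have hrr : herm r r = 0 := by
    have := key r v0
    rw [hφr, hφ0, map_one] at this
    simpa using this
  obtain ⟨w0, hw0⟩ := exists_herm_one hr0
  have hrw : herm r w0 = 1 := by rw [herm_symm, hw0, map_one]
  have hval : ∀ v, φ v = K4.conj (φ w0) * herm v r := fun v => by
    have h1 := key v w0
    rw [hrr, hrw] at h1
    have hd : ∀ a b : K4, a + b = 0 → a = b := by decide
    exact hd _ _ (by simpa using h1)
  have hlam : K4.conj (φ w0) = 1 := by
    have h1 := hval w0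
    rw [hw0, mul_one] at h1
    have hd : ∀ a : K4, a = K4.conj a → a = 0 ∨ a = 1 := by decide
    rcases hd _ h1 with h | h
    · exfalso
      have := hval v0
      rw [hφ0, h, map_zero, zero_mul] at this
      exact one_ne_zero this
    · rw [h, map_one]
  exact ⟨r, ⟨hr0, hrr⟩, fun v => by rw [hBv, hval, hlam, one_mul, tau_eq_witt]⟩

/-- Commuting transvections at different points have orthogonal centres. -/
theorem herm_eq_zero_of_commute {r r' : V4} (hne : ∀ a : K4, r' ≠ a • r) (hr : r ≠ 0)
    (h : ∀ v, tau r (tau r' v) = tau r' (tau r v)) : herm r' r = 0 := by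
  obtain ⟨w, hw⟩ := exists_herm_one (show r' ≠ 0 from fun e => hne 0 (by rw [e, zero_smul]))
  have h1 := h w
  rw [tau_eq_witt r' w, tau_eq_witt r w, tau_eq_witt r (w + _), tau_eq_witt r' (w + _), herm_add_left, herm_add_left,
    herm_smul_left, herm_smul_left, hw, one_mul, add_smul, add_smul, one_smul] at h1
  have h2 : herm r' r • r = (herm w r * herm r r') • r' := by
    have : w + r' + (herm w r • r + herm r' r • r) = w + herm w r • r + (r' + (herm w r * herm r r') • r') := h1
    exact add_left_cancel (a := w + r' + herm w r • r) (by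
      calc w + r' + herm w r • r + herm r' r • r = w + r' + (herm w r • r + herm r' r • r) := by abel
        _ = w + herm w r • r + (r' + (herm w r * herm r r') • r') := this
        _ = _ := by abel)
  by_contra hne0
  by_cases hc : herm w r * herm r r' = 0
  · rw [hc, zero_smul, smul_eq_zero] at h2
    exact h2.elim hne0 hr
  · exact hne ((herm w r * herm r r')⁻¹ * herm r' r) (by
      rw [mul_smul, h2, smul_smul, inv_mul_cancel₀ hc, one_smul])

/-! ### Normal forms -/

/-- All vectors of the space. -/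
def allV : List V4 :=
  let ks : List K4 := [0, 1, .om, .om2]
  ks.flatMap fun a => ks.flatMap fun b => ks.flatMap fun c => ks.map fun d => ![a, b, c, d]

theorem mem_allV : ∀ v : V4, v ∈ allV := by decide +kernel

/-- The isotropic vectors. -/
def isoV : List V4 := allV.filter fun v => decide (Iso v)

theorem mem_isoV {v : V4} : v ∈ isoV ↔ Iso v := by simp [isoV, mem_allV]

/-- Representatives of the isotropic points. -/
def isoPts : List V4 := isoV.filter fun v =>
  v 0 == 1 || (v 0 == 0 && (v 1 == 1 || (v 1 == 0 && (v 2 == 1 || (v 2 == 0 && v 3 == 1)))))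

theorem isoPts_checks : isoPts.length = 45 ∧
    (isoPts.map fun r => (List.finRange 4).map fun i => tau r (Pi.single i 1)).Nodup := by
  decide +kernel

/-- Chains of centres from `r0` to each point. -/
def chains₁ : List (List ℕ) := [
  [3, 12], [3, 14], [3, 13], [9], [10], [11], [12], [13], [14], [3], [4], [5], [6], [7], [8],
  [], [4, 31], [3, 44], [3, 30], [4, 34], [3, 38], [3, 33], [4, 28], [3, 41], [3, 27], [35],
  [44], [42], [43], [38], [36], [37], [41], [39], [40], [25], [30], [31], [29], [33], [34],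
  [32], [27], [28], [26]]

/-- Chains of centres orthogonal to `r0`, from `r1` to the points orthogonal to `r0`. -/
def chains₂ : List (List ℕ) := [
  [], [2], [1], [], [], [], [], [], [], [], [], [], [], [], [], [], [1, 21], [19], [22],
  [17], [1, 22], [23], [18], [21], [1, 17], [], [], [], [], [], [], [], [], [], [], [], [],
  [], [], [], [], [], [], [], []]

/-- Successive transvections. -/
def runC (l : List ℕ) (r : V4) : V4 := l.foldl (fun v k => tau (isoPts.getD k 0) v) r

theorem herm_getD (k : ℕ) : herm (isoPts.getD k 0) (isoPts.getD k 0) = 0 := by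
  by_cases hk : k < isoPts.length
  · rw [List.getD_eq_getElem _ _ hk]
    exact (mem_isoV.1 (List.mem_of_mem_filter (List.getElem_mem hk))).2
  · rw [List.getD_eq_default _ _ (Nat.le_of_not_lt hk)]; decide

theorem exists_su_run (l : List ℕ) : ∀ r : V4, ∃ A : Cfsg.SU 4 K4 2, mat A *ᵥ r = runC l r ∧
    ∀ u, (∀ k ∈ l, herm u (isoPts.getD k 0) = 0) → mat A *ᵥ u = u := by
  induction l with
  | nil => exact fun r => ⟨1, by rw [mat_one, Matrix.one_mulVec]; rfl,
      fun u _ => by rw [mat_one, Matrix.one_mulVec]⟩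
  | cons k l ih =>
    intro r
    obtain ⟨A, hA, hfix⟩ := ih (tau (isoPts.getD k 0) r)
    refine ⟨A * tauSU _ (herm_getD k), ?_, fun u hu => ?_⟩
    · rw [mat_mul, ← Matrix.mulVec_mulVec, tauSU_mulVec, hA]; rfl
    · rw [mat_mul, ← Matrix.mulVec_mulVec, tauSU_mulVec, tau_eq_witt, hu k List.mem_cons_self, zero_smul,
        add_zero, hfix u fun j hj => hu j (List.mem_cons_of_mem _ hj)]

theorem multiples_check : (isoV.all fun v => ([1, .om, .om2] : List K4).any fun a =>
    isoPts.any fun p => v == a • p) = true := by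
  decide +kernel

theorem chains₁_check : ((List.range 45).all fun i => ([1, .om, .om2] : List K4).any fun a =>
    runC (chains₁.getD i []) r0 == a • isoPts.getD i 0) = true := by
  decide +kernel

theorem chains₂_check : ((List.range 45).all fun i => herm (isoPts.getD i 0) r0 != 0 ||
    (([1, .om, .om2] : List K4).any fun a => isoPts.getD i 0 == a • r0) ||
    (((chains₂.getD i []).all fun k => herm r0 (isoPts.getD k 0) == 0) &&
      ([1, .om, .om2] : List K4).any fun a => runC (chains₂.getD i []) r1 == a • isoPts.getD i 0)) = true := by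
  decide +kernel

theorem exists_isoPt {v : V4} (hv : Iso v) :
    ∃ a : K4, a ≠ 0 ∧ ∃ i, i < 45 ∧ v = a • isoPts.getD i 0 := by
  have h := multiples_check
  simp only [List.all_eq_true, mem_isoV, List.any_eq_true, beq_iff_eq] at h
  obtain ⟨a, ha, p, hp, rfl⟩ := h v hv
  obtain ⟨i, hi, rfl⟩ := List.getElem_of_mem hp
  refine ⟨a, ?_, i, isoPts_checks.1 ▸ hi, by rw [List.getD_eq_getElem _ _ hi]⟩
  rintro rfl
  simp only [List.mem_cons, List.not_mem_nil, or_false] at ha
  exact absurd ha (by decide)

theorem exists_su_point {r : V4} (hr : Iso r) :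
    ∃ (A : Cfsg.SU 4 K4 2) (a : K4), a ≠ 0 ∧ mat A *ᵥ r0 = a • r := by
  obtain ⟨c, hc, i, hi, rfl⟩ := exists_isoPt hr
  have h := chains₁_check
  simp only [List.all_eq_true, List.mem_range, List.any_eq_true, beq_iff_eq] at h
  obtain ⟨a, ha, he⟩ := h i hi
  obtain ⟨A, hA, -⟩ := exists_su_run (chains₁.getD i []) r0
  refine ⟨A, a * c⁻¹, mul_ne_zero ?_ (inv_ne_zero hc), by
    rw [hA, he, smul_smul, mul_assoc, inv_mul_cancel₀ hc, mul_one]⟩
  rintro rfl
  simp only [List.mem_cons, List.not_mem_nil, or_false] at ha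
  exact absurd ha (by decide)

/-- An isometry taking the standard orthogonal pair to a given one. -/
theorem exists_su_pair {r r' : V4} (hr : Iso r) (hr' : Iso r') (hne : ∀ a : K4, r' ≠ a • r)
    (h : herm r' r = 0) :
    ∃ (A : Cfsg.SU 4 K4 2) (a b : K4), a ≠ 0 ∧ b ≠ 0 ∧ mat A *ᵥ r0 = a • r ∧ mat A *ᵥ r1 = b • r' := by
  obtain ⟨A, a, ha, hA⟩ := exists_su_point hr
  set v := mat A⁻¹ *ᵥ r' with hv
  have hAv : mat A *ᵥ v = r' := su_inv_mulVec A r'
  have hv0 : herm v r0 = 0 := by
    rw [← herm_su A, hAv, hA, herm_smul_right, h, mul_zero]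
  obtain ⟨c, hc, i, hi, hvi⟩ := exists_isoPt (show Iso v from iso_su _ hr')
  have h2 := chains₂_check
  simp only [List.all_eq_true, List.mem_range, Bool.or_eq_true, bne_iff_ne, Bool.and_eq_true,
    List.any_eq_true, beq_iff_eq] at h2
  have hi0 : herm (isoPts.getD i 0) r0 = 0 := by
    rw [hvi, herm_smul_left] at hv0
    exact (mul_eq_zero.1 hv0).resolve_left hc
  rcases h2 i hi with (h3 | ⟨b, -, h3⟩) | ⟨horth, b, hb, he⟩
  · exact absurd hi0 h3
  · exact absurd (by rw [← hAv, hvi, h3, smul_smul, Matrix.mulVec_smul, hA, smul_smul])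
      (hne (c * b * a))
  · obtain ⟨B, hB, hfix⟩ := exists_su_run (chains₂.getD i []) r1
    refine ⟨A * B, a, b * c⁻¹, ha, mul_ne_zero ?_ (inv_ne_zero hc), ?_, ?_⟩
    · rintro rfl
      simp only [List.mem_cons, List.not_mem_nil, or_false] at hb
      exact absurd hb (by decide)
    · rw [mat_mul, ← Matrix.mulVec_mulVec, hfix r0 horth, hA]
    · rw [mat_mul, ← Matrix.mulVec_mulVec, hB, he, ← hAv, hvi, Matrix.mulVec_smul, Matrix.mulVec_smul,
        smul_smul, mul_assoc, inv_mul_cancel₀ hc, mul_one]

end CfsgLib.FischerLarge.U62
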